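import Mathlib

set_option autoImplicit false

/-!
A group with a "rank one Bruhat decomposition" `G = B ⊔ Q w B` (with `Q ⊴ B`, and `Q`
meeting `w B w⁻¹` trivially): `N_G(Q) = B`, `G` is doubly transitive on `G ⧸ B`, and `Q` is
regular on the cosets other than `B`.
-/

namespace Cfsg.Agent.Lib.Helper27.BruhatTwo

variable {G : Type*} [Group G]

/-- the hypotheses of a rank one Bruhat decomposition -/
structure Hyp (B Q : Subgroup G) (w : G) : Prop where
  le : Q ≤ B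
  conj : ∀ b ∈ B, ∀ u ∈ Q, b * u * b⁻¹ ∈ Q
  cases : ∀ g : G, g ∈ B ∨ ∃ u ∈ Q, ∃ b ∈ B, g = u * w * b
  uniq : ∀ u ∈ Q, ∀ b ∈ B, u * w * b = w → u = 1
  ne : ∃ u ∈ Q, u ≠ 1

variable {B Q : Subgroup G} {w : G}

theorem Hyp.map {G' : Type*} [Group G'] (e : G ≃* G') (h : Hyp B Q w) :
    Hyp (B.map e.toMonoidHom) (Q.map e.toMonoidHom) (e w) where
  le := Subgroup.map_mono h.le
  conj := by
    rintro _ ⟨b, hb, rfl⟩ _ ⟨u, hu, rfl⟩
    exact ⟨b * u * b⁻¹, h.conj b hb u hu, by simp⟩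
  cases := by
    intro g
    obtain ⟨g, rfl⟩ := e.surjective g
    rcases h.cases g with hg | ⟨u, hu, b, hb, rfl⟩
    · exact Or.inl ⟨g, hg, rfl⟩
    · exact Or.inr ⟨e u, ⟨u, hu, rfl⟩, e b, ⟨b, hb, rfl⟩, by simp⟩
  uniq := by
    rintro _ ⟨u, hu, rfl⟩ _ ⟨b, hb, rfl⟩ heq
    have h1 : e (u * w * b) = e w := by simpa using heq
    have h2 := h.uniq u hu b hb (e.injective h1)
    simp [h2]
  ne := by
    obtain ⟨u, hu, hne⟩ := h.ne
    refine ⟨e u, ⟨u, hu, rfl⟩, fun h1 => hne ?_⟩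
    apply e.injective
    simpa using h1

theorem Hyp.normalizer_eq (h : Hyp B Q w) : Subgroup.normalizer (Q : Set G) = B := by
  apply le_antisymm
  · intro n hn
    rcases h.cases n with hB | ⟨u, hu, b, hb, rfl⟩
    · exact hB
    · exfalso
      have hBN : ∀ b ∈ B, b ∈ Subgroup.normalizer (Q : Set G) := by
        intro b hb
        rw [Subgroup.mem_set_normalizer_iff]
        intro x
        constructor
        · intro hx
          exact h.conj b hb x hx
        · intro hx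
          have := h.conj b⁻¹ (B.inv_mem hb) _ hx
          simpa [mul_assoc] using this
      have hw : w ∈ Subgroup.normalizer (Q : Set G) := by
        have e : w = u⁻¹ * (u * w * b) * b⁻¹ := by group
        rw [e]
        exact Subgroup.mul_mem _ (Subgroup.mul_mem _
          (Subgroup.inv_mem _ (hBN u (h.le hu))) hn) (Subgroup.inv_mem _ (hBN b hb))
      obtain ⟨u₀, hu₀, hne⟩ := h.ne
      have h1 : w⁻¹ * u₀ * w ∈ Q := by
        have := (Subgroup.mem_set_normalizer_iff''.mp hw u₀).mp hu₀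
        exact this
      apply hne
      apply h.uniq u₀ hu₀ (w⁻¹ * u₀ * w)⁻¹ (B.inv_mem (h.le h1))
      group
  · intro b hb
    rw [Subgroup.mem_set_normalizer_iff]
    intro x
    constructor
    · intro hx
      exact h.conj b hb x hx
    · intro hx
      have := h.conj b⁻¹ (B.inv_mem hb) _ hx
      simpa [mul_assoc] using this

theorem Hyp.exists_smul (h : Hyp B Q w) (a b : G ⧸ B) (hab : a ≠ b) :
    ∃ g : G, g • a = QuotientGroup.mk 1 ∧ g • b = QuotientGroup.mk w := by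
  obtain ⟨g₁, rfl⟩ := QuotientGroup.mk_surjective a
  obtain ⟨g₂, rfl⟩ := QuotientGroup.mk_surjective b
  have h1 : g₁⁻¹ * g₂ ∉ B := fun hmem => hab (QuotientGroup.eq.mpr hmem)
  rcases h.cases (g₁⁻¹ * g₂) with hB | ⟨u, hu, b', hb', he⟩
  · exact absurd hB h1
  · refine ⟨u⁻¹ * g₁⁻¹, ?_, ?_⟩
    · rw [MulAction.Quotient.smul_mk, QuotientGroup.eq, smul_eq_mul]
      have : (u⁻¹ * g₁⁻¹ * g₁)⁻¹ * 1 = u := by group
      rw [this]
      exact h.le hu
    · rw [MulAction.Quotient.smul_mk, QuotientGroup.eq, smul_eq_mul]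
      have : (u⁻¹ * g₁⁻¹ * g₂)⁻¹ * w = b'⁻¹ := by
        rw [mul_assoc, he]
        group
      rw [this]
      exact B.inv_mem hb'

theorem Hyp.two_pretransitive (h : Hyp B Q w) :
    MulAction.IsMultiplyPretransitive G (G ⧸ B) 2 := by
  rw [MulAction.is_two_pretransitive_iff]
  intro a b c d hab hcd
  obtain ⟨g₁, h1, h1'⟩ := h.exists_smul a b hab
  obtain ⟨g₂, h2, h2'⟩ := h.exists_smul c d hcd
  refine ⟨g₂⁻¹ * g₁, ?_, ?_⟩
  · rw [mul_smul, h1, ← h2, inv_smul_smul]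
  · rw [mul_smul, h1', ← h2', inv_smul_smul]

theorem Hyp.exists_mk (h : Hyp B Q w) (x : G ⧸ B) (hx : x ≠ QuotientGroup.mk 1) :
    ∃ u ∈ Q, x = QuotientGroup.mk (u * w) := by
  obtain ⟨g, rfl⟩ := QuotientGroup.mk_surjective x
  rcases h.cases g with hB | ⟨u, hu, b, hb, rfl⟩
  · exfalso
    apply hx
    rw [QuotientGroup.eq]
    simpa using hB
  · refine ⟨u, hu, ?_⟩
    rw [QuotientGroup.eq]
    have : (u * w * b)⁻¹ * (u * w) = b⁻¹ := by group
    rw [this]
    exact B.inv_mem hb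

theorem Hyp.regular (h : Hyp B Q w) (x y : G ⧸ B) (hx : x ≠ QuotientGroup.mk 1)
    (hy : y ≠ QuotientGroup.mk 1) : ∃! s : ↥Q, (s : G) • x = y := by
  obtain ⟨u, hu, rfl⟩ := h.exists_mk x hx
  obtain ⟨u', hu', rfl⟩ := h.exists_mk y hy
  refine ⟨⟨u' * u⁻¹, Q.mul_mem hu' (Q.inv_mem hu)⟩, ?_, ?_⟩
  · show (u' * u⁻¹) • (QuotientGroup.mk (u * w) : G ⧸ B) = _
    rw [MulAction.Quotient.smul_mk, smul_eq_mul]
    congr 1
    group
  · rintro ⟨s, hs⟩ hs'
    have hs'' : s • (QuotientGroup.mk (u * w) : G ⧸ B) = QuotientGroup.mk (u' * w) := hs'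
    rw [MulAction.Quotient.smul_mk, smul_eq_mul, QuotientGroup.eq] at hs''
    have h1 : (u'⁻¹ * s * u) * w * ((s * (u * w))⁻¹ * (u' * w)) = w := by group
    have h2 := h.uniq (u'⁻¹ * s * u) (Q.mul_mem (Q.mul_mem (Q.inv_mem hu') hs) hu) _
      hs'' h1
    apply Subtype.ext
    show s = u' * u⁻¹
    have h3 : s = u' * (u'⁻¹ * s * u) * u⁻¹ := by group
    rw [h3, h2]
    group

/-- the conclusions for a subgroup `N` equal to `B` -/
theorem Hyp.main (h : Hyp B Q w) (N : Subgroup G) (hN : N = B) :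
    MulAction.IsMultiplyPretransitive G (G ⧸ N) 2 ∧
      ∀ x y : G ⧸ N, x ≠ QuotientGroup.mk 1 → y ≠ QuotientGroup.mk 1 →
        ∃! s : ↥Q, (s : G) • x = y := by
  subst hN
  exact ⟨h.two_pretransitive, h.regular⟩

end Cfsg.Agent.Lib.Helper27.BruhatTwo
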