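import Mathlib
import Cfsg.Prelude.Def_KGroupFacts
import Cfsg.Agent.Lib.Helper27.PslnOut
import Cfsg.Agent.Lib.Helper27.PslOut

/-!
# Automorphisms of a finite group with a root datum of arbitrary Dynkin type (abstract part)

`OkD p bond long x y U V Q`: a finite group `G` with simple root elements `x i a`, `y i a`
(`i : ι`, `a : F`, `F` a finite field of characteristic `p`), opposite Sylow subgroups `U`, `V`,
minimal parabolic subgroups `Q i`, bond numbers `bond i j ∈ {0,1,2,3}` of the Dynkin diagram,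
length flags `long i`, rank one relations, torus action through the Cartan integers `cart`, and
a few facts on Weyl words. Conclusion (`OkD.shape`): every automorphism is, up to an inner
automorphism, of the form `x i a ↦ x (π i) (c i * σ a ^ e i)`, `y i a ↦ y (π i) ((c i)⁻¹ * σ a ^ e i)`
with `π` a symmetry of the diagram, `σ` a field automorphism and `e i = p` if `i` is short and
`π i` is long, `e i = 1` otherwise.
-/

set_option autoImplicit false
set_option linter.unusedSectionVars false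

namespace Cfsg.Agent.Lib.Helper27.DynOut

open scoped Pointwise
open Cfsg.Agent.Lib.Helper27.PslnOut

variable {F : Type*} [Field F] [Finite F] {G : Type*} [Group G] [Finite G]
  {ι : Type*} [Fintype ι] [DecidableEq ι]

/-- the Weyl element of the `i`-th rank one subgroup -/
def nn (x y : ι → F → G) (i : ι) (c : F) : G := x i c * y i (-c⁻¹) * x i c

/-- the Cartan integer `⟨α_j, α_i^∨⟩` computed from bond numbers and lengths -/
def cart (bond : ι → ι → ℕ) (long : ι → Bool) (i j : ι) : ℤ :=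
  if i = j then 2 else if bond i j = 0 then 0 else
    if bond i j = 1 then -1 else if long i = true then -1 else -(bond i j : ℤ)

omit [Fintype ι] [DecidableEq ι] in
theorem perm_apply_inv (π : Equiv.Perm ι) (k : ι) : π (π⁻¹ k) = k := π.apply_symm_apply k

omit [Fintype ι] [DecidableEq ι] in
theorem perm_inv_apply (π : Equiv.Perm ι) (k : ι) : π⁻¹ (π k) = k := π.symm_apply_apply k

/-- the hypotheses -/
structure OkD (p : ℕ) [Fact p.Prime] (bond : ι → ι → ℕ) (long : ι → Bool)
    (x y : ι → F → G) (U V : Subgroup G) (Q : ι → Subgroup G) : Prop where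
  x_add : ∀ i a b, x i (a + b) = x i a * x i b
  y_add : ∀ i a b, y i (a + b) = y i a * y i b
  x_disj : ∀ i j a b, x i a = x j b → a ≠ 0 → i = j ∧ a = b
  y_disj : ∀ i j a b, y i a = y j b → a ≠ 0 → i = j ∧ a = b
  x_mem : ∀ i a, x i a ∈ U
  y_mem : ∀ i a, y i a ∈ V
  syl : ∃ P : Sylow p G, ∀ g, g ∈ P ↔ g ∈ U
  opp_inf : ∀ g, g ∈ U → g ∈ V → g = 1
  opp : ∀ g : G, (∀ k, k ∈ U → g * k * g⁻¹ ∈ U → k = 1) →
    ∃ u ∈ Nm U, ∀ k, k ∈ U ↔ u⁻¹ * (g * k * g⁻¹) * u ∈ V
  w0 : ∃ (w : G) (ν : ι → ι), Function.Surjective ν ∧ (∀ g, g ∈ V ↔ w⁻¹ * g * w ∈ U) ∧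
    (∀ g, g ∈ U ↔ w⁻¹ * g * w ∈ V) ∧ (∀ k a, ∃ b, w * x k a * w⁻¹ = y (ν k) b) ∧
    (∀ k b, ∃ a, w⁻¹ * y (ν k) b * w = x k a)
  ovr : ∀ M : Subgroup G, Nm U ≤ M → M ≠ Nm U → ∃ k, ∀ a, y k a ∈ M
  Q_ge : ∀ k, Nm U ≤ Q k
  Q_ne : ∀ k, Q k ≠ Nm U
  Q_y : ∀ k a, y k a ∈ Q k
  Q_inj : ∀ j k, y j 1 ∈ Q k → j = k
  Q_le : ∀ k (M : Subgroup G), Nm U ≤ M → (∀ a, y k a ∈ M) → Q k ≤ M
  Q_V : ∀ k g, g ∈ V → g ∈ Q k → ∃ a, g = y k a
  comm_xy : ∀ i j a b, i ≠ j → x i a * y j b = y j b * x i a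
  comm_xx : ∀ i j a b, i ≠ j → bond i j = 0 → x i a * x j b = x j b * x i a
  ncomm_xx : ∀ i j, i ≠ j → bond i j ≠ 0 → x i 1 * x j 1 ≠ x j 1 * x i 1
  rk1 : ∀ i c, c ≠ 0 → ∀ a, ∃ b, nn x y i c * x i a * (nn x y i c)⁻¹ = y i b
  rk2 : ∀ i c c' a b, a ≠ 0 →
    (x i c * y i c' * x i c) * x i a * (x i c * y i c' * x i c)⁻¹ = y i b → c * c' = -1
  tor_h : ∀ i j c d, c ≠ 0 → d ≠ 0 → ∀ b,
    (nn x y i c * (nn x y i d)⁻¹) * x j b * (nn x y i c * (nn x y i d)⁻¹)⁻¹ =
      x j ((c / d) ^ (cart bond long i j) * b)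
  b1 : ∀ i j, i ≠ j → bond i j = 1 → ∀ c d a, c ≠ 0 → d ≠ 0 →
    ∃ a', (nn x y i c * nn x y j d) * x i a * (nn x y i c * nn x y j d)⁻¹ = x j a'
  nb1 : ∀ i j, i ≠ j → 2 ≤ bond i j → ∀ a',
    (nn x y i 1 * nn x y j 1) * x i 1 * (nn x y i 1 * nn x y j 1)⁻¹ ≠ x j a'
  b2 : ∀ i j, i ≠ j → bond i j = 2 → ∀ c d a, c ≠ 0 → d ≠ 0 →
    ∃ a', (nn x y i c * nn x y j d) ^ 2 * x i a * ((nn x y i c * nn x y j d) ^ 2)⁻¹ = y i a'
  nb2 : ∀ i j, i ≠ j → bond i j = 3 → ∀ a',
    (nn x y i 1 * nn x y j 1) ^ 2 * x i 1 * ((nn x y i 1 * nn x y j 1) ^ 2)⁻¹ ≠ y i a'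
  len2 : ∀ s l, s ≠ l → bond s l = 2 → long s = false → long l = true →
    (∀ t u c, c ≠ 0 → x l t * (nn x y s c * x l u * (nn x y s c)⁻¹) =
      (nn x y s c * x l u * (nn x y s c)⁻¹) * x l t) ∧
    (x s 1 * (nn x y l 1 * x s 1 * (nn x y l 1)⁻¹) =
      (nn x y l 1 * x s 1 * (nn x y l 1)⁻¹) * x s 1 → (2 : F) = 0)
  len3 : ∀ s l, s ≠ l → bond s l = 3 → long s = false → long l = true →
    (∀ t u c d, c ≠ 0 → d ≠ 0 →
      x l t * ((nn x y l c * nn x y s d) * x l u * (nn x y l c * nn x y s d)⁻¹) =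
      ((nn x y l c * nn x y s d) * x l u * (nn x y l c * nn x y s d)⁻¹) * x l t) ∧
    (x s 1 * ((nn x y s 1 * nn x y l 1) * x s 1 * (nn x y s 1 * nn x y l 1)⁻¹) =
      ((nn x y s 1 * nn x y l 1) * x s 1 * (nn x y s 1 * nn x y l 1)⁻¹) * x s 1 → (3 : F) = 0)
  bond_symm : ∀ i j, bond i j = bond j i
  bond_le : ∀ i j, bond i j ≤ 3
  len_eq : ∀ i j, i ≠ j → bond i j = 1 → long i = long j
  len_ne : ∀ i j, i ≠ j → 2 ≤ bond i j → long i ≠ long j
  conn : ∀ P : ι → Prop, (∀ i j, i ≠ j → bond i j ≠ 0 → P i → P j) → ∀ i j, P i → P j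
  gen : ∀ H : Subgroup G, (∀ i a, x i a ∈ H) → (∀ i a, y i a ∈ H) → H = ⊤

variable {p : ℕ} [Fact p.Prime] {bond : ι → ι → ℕ} {long : ι → Bool}
  {x y : ι → F → G} {U V : Subgroup G} {Q : ι → Subgroup G}

namespace OkD

variable (h : OkD p bond long x y U V Q)
include h

theorem x_zero (i : ι) : x i 0 = 1 := by
  have := h.x_add i 0 0
  rw [add_zero] at this
  exact mul_eq_left.1 this.symm

theorem x_neg (i : ι) (a : F) : (x i a)⁻¹ = x i (-a) := by
  apply inv_eq_of_mul_eq_one_right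
  rw [← h.x_add, add_neg_cancel, h.x_zero]

theorem x_ne_one (i : ι) {a : F} (ha : a ≠ 0) : x i a ≠ 1 := by
  intro e
  rw [← h.x_zero i] at e
  exact ha (h.x_disj i i a 0 e ha).2

theorem x_inj (i : ι) : Function.Injective (x i) := by
  intro a b e
  by_cases ha : a = 0
  · by_contra hne
    have hb : b ≠ 0 := fun hb => hne (by rw [ha, hb])
    exact hne (h.x_disj i i b a e.symm hb).2.symm
  · exact (h.x_disj i i a b e ha).2

theorem y_zero (i : ι) : y i 0 = 1 := by
  have := h.y_add i 0 0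
  rw [add_zero] at this
  exact mul_eq_left.1 this.symm

theorem y_neg (i : ι) (a : F) : (y i a)⁻¹ = y i (-a) := by
  apply inv_eq_of_mul_eq_one_right
  rw [← h.y_add, add_neg_cancel, h.y_zero]

theorem y_ne_one (i : ι) {a : F} (ha : a ≠ 0) : y i a ≠ 1 := by
  intro e
  rw [← h.y_zero i] at e
  exact ha (h.y_disj i i a 0 e ha).2

theorem y_inj (i : ι) : Function.Injective (y i) := by
  intro a b e
  by_cases ha : a = 0
  · by_contra hne
    have hb : b ≠ 0 := fun hb => hne (by rw [ha, hb])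
    exact hne (h.y_disj i i b a e.symm hb).2.symm
  · exact (h.y_disj i i a b e ha).2

theorem nn_inv (i : ι) (c : F) : (nn x y i c)⁻¹ = nn x y i (-c) := by
  show (x i c * y i (-c⁻¹) * x i c)⁻¹ = x i (-c) * y i (-(-c)⁻¹) * x i (-c)
  rw [mul_inv_rev, mul_inv_rev, h.x_neg, h.y_neg, neg_neg, inv_neg, neg_neg, mul_assoc]

/-- the positive and negative root elements of a simple root do not commute -/
theorem ncomm_xy (i : ι) : x i 1 * y i 1 ≠ y i 1 * x i 1 := by
  intro e
  have e' : y i (-1) * x i 1 = x i 1 * y i (-1) := by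
    rw [← h.y_neg]
    have : x i 1 = y i 1 * x i 1 * (y i 1)⁻¹ := by rw [← e]; group
    calc (y i 1)⁻¹ * x i 1 = (y i 1)⁻¹ * (y i 1 * x i 1 * (y i 1)⁻¹) := by rw [← this]
      _ = x i 1 * (y i 1)⁻¹ := by group
  obtain ⟨b, hb⟩ := h.rk1 i 1 one_ne_zero 1
  have e2 : nn x y i 1 * x i 1 * (nn x y i 1)⁻¹ = x i 1 := by
    unfold nn
    rw [inv_one]
    calc x i 1 * y i (-1) * x i 1 * x i 1 * (x i 1 * y i (-1) * x i 1)⁻¹
        = x i 1 * (y i (-1) * x i 1) * (y i (-1))⁻¹ * (x i 1)⁻¹ := by group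
      _ = x i 1 * (x i 1 * y i (-1)) * (y i (-1))⁻¹ * (x i 1)⁻¹ := by rw [e']
      _ = x i 1 := by group
  rw [e2] at hb
  have := h.opp_inf _ (h.x_mem i 1) (by rw [hb]; exact h.y_mem i b)
  exact h.x_ne_one i one_ne_zero this

/-- admissible automorphisms: those preserving `U` and `V` -/
def Adm (_h : OkD p bond long x y U V Q) (α : MulAut G) : Prop :=
  (∀ g, α g ∈ U ↔ g ∈ U) ∧ (∀ g, α g ∈ V ↔ g ∈ V)

theorem adm_one : h.Adm 1 := ⟨fun _ => Iff.rfl, fun _ => Iff.rfl⟩

theorem adm_mul {α β : MulAut G} (hα : h.Adm α) (hβ : h.Adm β) : h.Adm (α * β) :=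
  ⟨fun g => by rw [MulAut.mul_apply, hα.1, hβ.1], fun g => by rw [MulAut.mul_apply, hα.2, hβ.2]⟩

theorem adm_inv {α : MulAut G} (hα : h.Adm α) : h.Adm α⁻¹ :=
  ⟨fun g => by rw [← hα.1 (α⁻¹ g), MulAut.apply_inv_self],
   fun g => by rw [← hα.2 (α⁻¹ g), MulAut.apply_inv_self]⟩

theorem adm_conj {t : G} (hU : t ∈ Nm U) (hV : t ∈ Nm V) : h.Adm (MulAut.conj t) :=
  ⟨fun g => by rw [MulAut.conj_apply]; exact hU g, fun g => by rw [MulAut.conj_apply]; exact hV g⟩

theorem of_adm_conj {t : G} (ht : h.Adm (MulAut.conj t)) : t ∈ Nm U ∧ t ∈ Nm V :=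
  ⟨fun g => by have := ht.1 g; rwa [MulAut.conj_apply] at this,
   fun g => by have := ht.2 g; rwa [MulAut.conj_apply] at this⟩

theorem adm_Nm {α : MulAut G} (hα : h.Adm α) (g : G) : α g ∈ Nm U ↔ g ∈ Nm U := by
  constructor
  · intro hg k
    have := hg (α k)
    rw [← map_inv, ← map_mul, ← map_mul, hα.1, hα.1] at this
    exact this
  · intro hg k
    have := hg (α⁻¹ k)
    rw [← hα.1, ← hα.1 (α⁻¹ k), map_mul, map_mul, map_inv, MulAut.apply_inv_self] at this
    exact this

theorem adm_Nm' {α : MulAut G} (hα : h.Adm α) (g : G) : α g ∈ Nm V ↔ g ∈ Nm V := by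
  constructor
  · intro hg k
    have := hg (α k)
    rw [← map_inv, ← map_mul, ← map_mul, hα.2, hα.2] at this
    exact this
  · intro hg k
    have := hg (α⁻¹ k)
    rw [← hα.2, ← hα.2 (α⁻¹ k), map_mul, map_mul, map_inv, MulAut.apply_inv_self] at this
    exact this

/-- every automorphism is admissible up to an inner automorphism -/
theorem exists_adm (α : MulAut G) : ∃ g : G, h.Adm ((MulAut.conj g)⁻¹ * α) := by
  obtain ⟨P, hP⟩ := h.syl
  obtain ⟨g₁, hg₁⟩ := MulAction.exists_smul_eq G P (α • P)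
  have E1 : ∀ z, g₁⁻¹ * α z * g₁ ∈ U ↔ z ∈ U := by
    intro z
    have h1 : α z ∈ (g₁ • P : Sylow p G) ↔ α z ∈ (α • P : Sylow p G) := by rw [hg₁]
    rw [Sylow.smul_def, mem_smul_sylow, mem_smul_sylow, MulAut.conj_inv_apply,
      MulAut.inv_apply_self, hP, hP] at h1
    exact h1
  obtain ⟨α₁, hα₁⟩ : ∃ α₁ : MulAut G, α₁ = (MulAut.conj g₁)⁻¹ * α := ⟨_, rfl⟩
  have hα₁z : ∀ z, α₁ z = g₁⁻¹ * α z * g₁ := fun z => by rw [hα₁]; rfl
  have E1' : ∀ z, α₁ z ∈ U ↔ z ∈ U := fun z => by rw [hα₁z]; exact E1 z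
  obtain ⟨w, -, -, hw, -, -, -⟩ := h.w0
  have hyp : ∀ k, k ∈ U → α₁ w * k * (α₁ w)⁻¹ ∈ U → k = 1 := by
    intro k hk hk'
    have e : α₁ w * k * (α₁ w)⁻¹ = α₁ (w * α₁⁻¹ k * w⁻¹) := by
      rw [map_mul, map_mul, map_inv, MulAut.apply_inv_self]
    rw [e, E1'] at hk'
    have hk1 : α₁⁻¹ k ∈ U := by
      rw [← E1', MulAut.apply_inv_self]
      exact hk
    have hV : w * α₁⁻¹ k * w⁻¹ ∈ V := by
      rw [hw]
      have : w⁻¹ * (w * α₁⁻¹ k * w⁻¹) * w = α₁⁻¹ k := by group
      rw [this]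
      exact hk1
    have h1 := h.opp_inf _ hk' hV
    have h2 : α₁⁻¹ k = 1 := by
      have : α₁⁻¹ k = w⁻¹ * (w * α₁⁻¹ k * w⁻¹) * w := by group
      rw [this, h1]
      group
    have := congrArg α₁ h2
    rwa [MulAut.apply_inv_self, map_one] at this
  obtain ⟨u, hu, huV⟩ := h.opp (α₁ w) hyp
  refine ⟨g₁ * u, ?_⟩
  have hα₂ : ∀ z, ((MulAut.conj (g₁ * u))⁻¹ * α) z = u⁻¹ * α₁ z * u := by
    intro z
    rw [MulAut.mul_apply, MulAut.conj_inv_apply, hα₁z]
    group
  constructor
  · intro z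
    rw [hα₂]
    have := ((Nm U).inv_mem hu) (α₁ z)
    rw [inv_inv] at this
    rw [this, E1']
  · intro z
    rw [hα₂, hw z, ← E1' (w⁻¹ * z * w), huV]
    have e : u⁻¹ * (α₁ w * α₁ (w⁻¹ * z * w) * (α₁ w)⁻¹) * u = u⁻¹ * α₁ z * u := by
      rw [map_mul, map_mul, map_inv]
      group
    rw [e]

theorem Q_min (k : ι) (M : Subgroup G) (hM : Nm U ≤ M) (hne : M ≠ Nm U) (hle : M ≤ Q k) :
    M = Q k := by
  obtain ⟨j, hj⟩ := h.ovr M hM hne
  have : j = k := h.Q_inj j k (hle (hj 1))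
  subst this
  exact le_antisymm hle (h.Q_le j M hM hj)

theorem min_is_Q (M : Subgroup G) (hM : Nm U ≤ M) (hne : M ≠ Nm U)
    (hmin : ∀ M' : Subgroup G, Nm U ≤ M' → M' ≠ Nm U → M' ≤ M → M' = M) : ∃ k, Q k = M := by
  obtain ⟨k, hk⟩ := h.ovr M hM hne
  exact ⟨k, hmin (Q k) (h.Q_ge k) (h.Q_ne k) (h.Q_le k M hM hk)⟩

/-- an admissible automorphism permutes the minimal parabolic subgroups -/
theorem adm_Q {α : MulAut G} (hα : h.Adm α) (k : ι) :
    ∃ k', ∀ g, g ∈ Q k' ↔ α⁻¹ g ∈ Q k := by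
  obtain ⟨M, hMmem⟩ : ∃ M : Subgroup G, ∀ g, g ∈ M ↔ α⁻¹ g ∈ Q k :=
    ⟨(Q k).comap (α⁻¹ : MulAut G).toMonoidHom, fun g => Iff.rfl⟩
  have hinv := h.adm_inv hα
  have h1 : Nm U ≤ M := by
    intro g hg
    rw [hMmem]
    exact h.Q_ge k ((h.adm_Nm hinv g).2 hg)
  have h2 : M ≠ Nm U := by
    intro e
    apply h.Q_ne k
    apply le_antisymm _ (h.Q_ge k)
    intro g hg
    have : α g ∈ M := by
      rw [hMmem, MulAut.inv_apply_self]
      exact hg
    rw [e] at this
    exact (h.adm_Nm hα g).1 this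
  have h3 : ∀ M' : Subgroup G, Nm U ≤ M' → M' ≠ Nm U → M' ≤ M → M' = M := by
    intro M' a1 a2 a3
    obtain ⟨M'', hM''⟩ : ∃ M'' : Subgroup G, ∀ g, g ∈ M'' ↔ α g ∈ M' :=
      ⟨M'.comap α.toMonoidHom, fun g => Iff.rfl⟩
    have b1 : Nm U ≤ M'' := fun g hg => (hM'' g).2 (a1 ((h.adm_Nm hα g).2 hg))
    have b2 : M'' ≠ Nm U := by
      intro e
      apply a2
      apply le_antisymm _ a1
      intro g hg
      have : α⁻¹ g ∈ M'' := by
        rw [hM'', MulAut.apply_inv_self]
        exact hg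
      rw [e] at this
      have := (h.adm_Nm hα (α⁻¹ g)).2 this
      rwa [MulAut.apply_inv_self] at this
    have b3 : M'' ≤ Q k := by
      intro g hg
      have := a3 ((hM'' g).1 hg)
      rw [hMmem, MulAut.inv_apply_self] at this
      exact this
    have b4 := h.Q_min k M'' b1 b2 b3
    apply le_antisymm a3
    intro g hg
    have : α⁻¹ g ∈ M'' := by
      rw [b4]
      exact (hMmem g).1 hg
    rw [hM'', MulAut.apply_inv_self] at this
    exact this
  obtain ⟨k', hk'⟩ := h.min_is_Q M h1 h2 h3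
  exact ⟨k', fun g => by rw [hk']; exact hMmem g⟩

theorem adm_y {α : MulAut G} (hα : h.Adm α) (k : ι) :
    ∃ k', ∀ b, ∃ b', α (y k b) = y k' b' := by
  obtain ⟨k', hk'⟩ := h.adm_Q hα k
  refine ⟨k', fun b => ?_⟩
  apply h.Q_V k' _ ((hα.2 _).2 (h.y_mem k b))
  rw [hk', MulAut.inv_apply_self]
  exact h.Q_y k b

theorem adm_x {α : MulAut G} (hα : h.Adm α) (k : ι) :
    ∃ k', ∀ a, ∃ a', α (x k a) = x k' a' := by
  obtain ⟨w, ν, hν, hwV, hwU, hwx, hwy⟩ := h.w0
  have hadm : h.Adm (MulAut.conj w * α * (MulAut.conj w)⁻¹) := by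
    constructor
    · intro g
      rw [MulAut.mul_apply, MulAut.mul_apply, MulAut.conj_apply, MulAut.conj_inv_apply, hwU]
      have e : w⁻¹ * (w * α (w⁻¹ * g * w) * w⁻¹) * w = α (w⁻¹ * g * w) := by group
      rw [e, hα.2, ← hwU]
    · intro g
      rw [MulAut.mul_apply, MulAut.mul_apply, MulAut.conj_apply, MulAut.conj_inv_apply, hwV]
      have e : w⁻¹ * (w * α (w⁻¹ * g * w) * w⁻¹) * w = α (w⁻¹ * g * w) := by group
      rw [e, hα.1, ← hwV]
  obtain ⟨j', hj'⟩ := h.adm_y hadm (ν k)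
  obtain ⟨k', rfl⟩ := hν j'
  refine ⟨k', fun a => ?_⟩
  obtain ⟨b, hb⟩ := hwx k a
  obtain ⟨b', hb'⟩ := hj' b
  obtain ⟨a', ha'⟩ := hwy k' b'
  refine ⟨a', ?_⟩
  rw [MulAut.mul_apply, MulAut.mul_apply, MulAut.conj_apply, MulAut.conj_inv_apply, ← hb] at hb'
  have e : w⁻¹ * (w * x k a * w⁻¹) * w = x k a := by group
  rw [e] at hb'
  rw [← ha', ← hb']
  group

/-- `α` maps the simple root groups as the permutation `π` does -/
def HasType (_h : OkD p bond long x y U V Q) (α : MulAut G) (π : ι → ι) : Prop :=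
  (∀ k a, ∃ a', α (x k a) = x (π k) a') ∧ (∀ k b, ∃ b', α (y k b) = y (π k) b')

/-- the permutation of the simple roots induced by an admissible automorphism -/
theorem adm_type {α : MulAut G} (hα : h.Adm α) : ∃ π : ι → ι, h.HasType α π := by
  choose πx hπx using fun k => h.adm_x hα k
  choose πy hπy using fun k => h.adm_y hα k
  have e : ∀ k, πy k = πx k := by
    intro k
    by_contra hne
    obtain ⟨a', ha'⟩ := hπx k 1
    obtain ⟨b', hb'⟩ := hπy k 1
    have := h.comm_xy (πx k) (πy k) a' b' (Ne.symm hne)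
    rw [← ha', ← hb', ← map_mul, ← map_mul] at this
    exact h.ncomm_xy k (α.injective this)
  refine ⟨πx, hπx, fun k b => ?_⟩
  rw [← e k]
  exact hπy k b

theorem type_inj {α : MulAut G} {π : ι → ι} (hπ : h.HasType α π) : Function.Injective π := by
  choose β hβ using hπ.1
  intro i j e
  have hinj : Function.Injective (β i) := by
    intro a b e'
    have : α (x i a) = α (x i b) := by rw [hβ, hβ, e']
    exact h.x_inj i (α.injective this)
  obtain ⟨a, ha⟩ := (Finite.injective_iff_surjective.1 hinj) (β j 1)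
  have : α (x i a) = α (x j 1) := by rw [hβ, hβ, ha, e]
  have := α.injective this
  exact (h.x_disj j i 1 a this.symm one_ne_zero).1.symm

theorem type_unique {α : MulAut G} {π π' : ι → ι} (hπ : h.HasType α π) (hπ' : h.HasType α π') :
    π = π' := by
  funext k
  obtain ⟨a, ha⟩ := hπ.1 k 1
  obtain ⟨a', ha'⟩ := hπ'.1 k 1
  have ha0 : a ≠ 0 := by
    rintro rfl
    rw [h.x_zero] at ha
    exact h.x_ne_one k one_ne_zero ((map_eq_one_iff α α.injective).1 ha)
  exact (h.x_disj _ _ a a' (ha.symm.trans ha') ha0).1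

/-- an admissible automorphism maps Weyl elements to Weyl elements -/
theorem adm_nn {α : MulAut G} {i j : ι} (hx : ∀ a, ∃ a', α (x i a) = x j a')
    (hy : ∀ b, ∃ b', α (y i b) = y j b') {c : F} (hc : c ≠ 0) :
    ∃ c', c' ≠ 0 ∧ α (x i c) = x j c' ∧ α (nn x y i c) = nn x y j c' ∧
      α (y i (-c⁻¹)) = y j (-c'⁻¹) := by
  obtain ⟨c', hc'⟩ := hx c
  obtain ⟨c'', hc''⟩ := hy (-c⁻¹)
  obtain ⟨a₁, ha₁⟩ := hx 1
  have hc'0 : c' ≠ 0 := by
    rintro rfl
    rw [h.x_zero] at hc'
    exact h.x_ne_one i hc ((map_eq_one_iff α α.injective).1 hc')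
  have ha₁0 : a₁ ≠ 0 := by
    rintro rfl
    rw [h.x_zero] at ha₁
    exact h.x_ne_one i one_ne_zero ((map_eq_one_iff α α.injective).1 ha₁)
  obtain ⟨b, hb⟩ := h.rk1 i c hc 1
  obtain ⟨b', hb'⟩ := hy b
  have e := congrArg α hb
  unfold nn at e
  simp only [map_mul, map_inv, hc', hc'', ha₁, hb'] at e
  have hrel := h.rk2 j c' c'' a₁ b' ha₁0 e
  have e2 : c'' = -c'⁻¹ := by
    field_simp
    linear_combination hrel
  refine ⟨c', hc'0, hc', ?_, ?_⟩
  · unfold nn
    rw [map_mul, map_mul, hc', hc'', e2]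
  · rw [hc'', e2]

/-- coordinates of an automorphism with a type -/
theorem type_coord {α : MulAut G} {π : ι → ι} (hπ : h.HasType α π) :
    ∃ β : ι → F → F, (∀ i a, α (x i a) = x (π i) (β i a)) ∧
      (∀ i a b, β i (a + b) = β i a + β i b) ∧ (∀ i, Function.Bijective (β i)) ∧
      (∀ i, β i 0 = 0) ∧ (∀ i c, c ≠ 0 → β i c ≠ 0) ∧
      (∀ i c, c ≠ 0 → α (nn x y i c) = nn x y (π i) (β i c)) ∧
      (∀ i c, c ≠ 0 → α (y i (-c⁻¹)) = y (π i) (-(β i c)⁻¹)) := by
  choose β hβ using hπ.1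
  have β_add : ∀ i b b', β i (b + b') = β i b + β i b' := by
    intro i b b'
    have := congrArg α (h.x_add i b b')
    rw [map_mul, hβ, hβ, hβ, ← h.x_add] at this
    exact h.x_inj _ this
  have β_inj : ∀ i, Function.Injective (β i) := by
    intro i b b' e
    have : α (x i b) = α (x i b') := by rw [hβ, hβ, e]
    exact h.x_inj i (α.injective this)
  have β_zero : ∀ i, β i 0 = 0 := by
    intro i
    have := β_add i 0 0
    rw [add_zero] at this
    exact left_eq_add.1 this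
  refine ⟨β, hβ, β_add, fun i => ⟨β_inj i, Finite.injective_iff_surjective.1 (β_inj i)⟩, β_zero,
    fun i c hc e => hc (β_inj i (e.trans (β_zero i).symm)), ?_, ?_⟩
  · intro i c hc
    obtain ⟨c', -, h1, h2, -⟩ := h.adm_nn (fun a => ⟨_, hβ i a⟩) (hπ.2 i) hc
    rw [hβ] at h1
    rw [h2, h.x_inj _ h1]
  · intro i c hc
    obtain ⟨c', -, h1, -, h3⟩ := h.adm_nn (fun a => ⟨_, hβ i a⟩) (hπ.2 i) hc
    rw [hβ] at h1
    rw [h3, h.x_inj _ h1]

/-- the inverse of an automorphism with type `π` has type `π⁻¹` -/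
theorem type_symm {α : MulAut G} {π : Equiv.Perm ι} (hπ : h.HasType α π) :
    h.HasType α⁻¹ (π⁻¹ : Equiv.Perm ι) := by
  constructor
  · intro k a
    choose β hβ using hπ.1
    have β_inj : Function.Injective (β (π⁻¹ k)) := by
      intro b b' e
      have : α (x (π⁻¹ k) b) = α (x (π⁻¹ k) b') := by rw [hβ, hβ, e]
      exact h.x_inj _ (α.injective this)
    obtain ⟨a', ha'⟩ := Finite.injective_iff_surjective.1 β_inj a
    refine ⟨a', ?_⟩
    rw [inv_apply_eq, hβ, ha', perm_apply_inv]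
  · intro k a
    choose β hβ using hπ.2
    have β_inj : Function.Injective (β (π⁻¹ k)) := by
      intro b b' e
      have : α (y (π⁻¹ k) b) = α (y (π⁻¹ k) b') := by rw [hβ, hβ, e]
      exact h.y_inj _ (α.injective this)
    obtain ⟨a', ha'⟩ := Finite.injective_iff_surjective.1 β_inj a
    refine ⟨a', ?_⟩
    rw [inv_apply_eq, hβ, ha', perm_apply_inv]

theorem adm_perm {α : MulAut G} (hα : h.Adm α) : ∃ π : Equiv.Perm ι, h.HasType α π := by
  obtain ⟨π, hπ⟩ := h.adm_type hα
  have hinj := h.type_inj hπ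
  exact ⟨Equiv.ofBijective π ⟨hinj, Finite.injective_iff_surjective.1 hinj⟩, hπ⟩

theorem type_bond0 {α : MulAut G} {π : ι → ι} (hπ : h.HasType α π) {i j : ι} (hij : i ≠ j) :
    bond i j = 0 ↔ bond (π i) (π j) = 0 := by
  obtain ⟨β, hβ, -, hbij, -, -, -, -⟩ := h.type_coord hπ
  have hinj := h.type_inj hπ
  constructor
  · intro h0
    by_contra hne
    obtain ⟨a, ha⟩ := (hbij i).2 1
    obtain ⟨b, hb⟩ := (hbij j).2 1
    have := congrArg α (h.comm_xx i j a b hij h0)
    rw [map_mul, map_mul, hβ, hβ, ha, hb] at this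
    exact h.ncomm_xx (π i) (π j) (fun e => hij (hinj e)) hne this
  · intro h0
    by_contra hne
    have := h.comm_xx (π i) (π j) (β i 1) (β j 1) (fun e => hij (hinj e)) h0
    rw [← hβ, ← hβ, ← map_mul, ← map_mul] at this
    exact h.ncomm_xx i j hij hne (α.injective this)

theorem type_bond1 {α : MulAut G} {π : ι → ι} (hπ : h.HasType α π) {i j : ι} (hij : i ≠ j)
    (h1 : bond i j = 1) : bond (π i) (π j) = 1 := by
  obtain ⟨β, hβ, -, hbij, hβ0, -, hβn, -⟩ := h.type_coord hπ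
  have hne0 : bond (π i) (π j) ≠ 0 := fun e => by
    have := (h.type_bond0 hπ hij).2 e
    omega
  have hle := h.bond_le (π i) (π j)
  by_contra hne1
  have h2 : 2 ≤ bond (π i) (π j) := by omega
  obtain ⟨c, hc⟩ := (hbij i).2 1
  obtain ⟨d, hd⟩ := (hbij j).2 1
  have hc0 : c ≠ 0 := by
    rintro rfl
    rw [hβ0] at hc
    exact zero_ne_one hc
  have hd0 : d ≠ 0 := by
    rintro rfl
    rw [hβ0] at hd
    exact zero_ne_one hd
  obtain ⟨a', ha'⟩ := h.b1 i j hij h1 c d c hc0 hd0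
  have e := congrArg α ha'
  simp only [map_mul, map_inv, hβn i c hc0, hβn j d hd0, hβ, hc, hd] at e
  exact h.nb1 (π i) (π j) (fun e => hij (h.type_inj hπ e)) h2 _ e

theorem type_bond {α : MulAut G} {π : Equiv.Perm ι} (hπ : h.HasType α π) (i j : ι) (hij : i ≠ j) :
    bond (π i) (π j) = bond i j := by
  have hπ' := h.type_symm hπ
  have hinj : π i ≠ π j := fun e => hij (π.injective e)
  have hback1 : bond (π i) (π j) = 1 → bond i j = 1 := by
    intro e
    have := h.type_bond1 hπ' hinj e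
    rwa [perm_inv_apply, perm_inv_apply] at this
  have hle := h.bond_le i j
  have hle' := h.bond_le (π i) (π j)
  have h0 := h.type_bond0 hπ hij
  by_cases hb1 : bond i j = 1
  · rw [hb1]
    exact h.type_bond1 hπ hij hb1
  by_cases hb0 : bond i j = 0
  · rw [hb0]
    exact h0.1 hb0
  have hne0 : bond (π i) (π j) ≠ 0 := fun e => hb0 (h0.2 e)
  have hne1 : bond (π i) (π j) ≠ 1 := fun e => hb1 (hback1 e)
  by_cases hb2 : bond i j = 2
  · -- the relation `b2` is transported
    obtain ⟨β, hβ, -, hbij, hβ0, -, hβn, hβy⟩ := h.type_coord hπ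
    by_contra hne
    have h3 : bond (π i) (π j) = 3 := by omega
    obtain ⟨c, hc⟩ := (hbij i).2 1
    obtain ⟨d, hd⟩ := (hbij j).2 1
    have hc0 : c ≠ 0 := by
      rintro rfl
      rw [hβ0] at hc
      exact zero_ne_one hc
    have hd0 : d ≠ 0 := by
      rintro rfl
      rw [hβ0] at hd
      exact zero_ne_one hd
    obtain ⟨a', ha'⟩ := h.b2 i j hij hb2 c d c hc0 hd0
    obtain ⟨a'', ha''⟩ := hπ.2 i a'
    have e := congrArg α ha'
    simp only [map_mul, map_inv, map_pow, hβn i c hc0, hβn j d hd0, hβ, hc, hd, ha''] at e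
    exact h.nb2 (π i) (π j) hinj h3 _ e
  · have h3 : bond i j = 3 := by omega
    by_contra hne
    have h2 : bond (π i) (π j) = 2 := by omega
    -- apply the previous case to the inverse
    obtain ⟨β, hβ, -, hbij, hβ0, -, hβn, hβy⟩ := h.type_coord hπ'
    obtain ⟨c, hc⟩ := (hbij (π i)).2 1
    obtain ⟨d, hd⟩ := (hbij (π j)).2 1
    have hc0 : c ≠ 0 := by
      rintro rfl
      rw [hβ0] at hc
      exact zero_ne_one hc
    have hd0 : d ≠ 0 := by
      rintro rfl
      rw [hβ0] at hd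
      exact zero_ne_one hd
    obtain ⟨a', ha'⟩ := h.b2 (π i) (π j) hinj h2 c d c hc0 hd0
    obtain ⟨a'', ha''⟩ := hπ'.2 (π i) a'
    have e := congrArg (α⁻¹ : MulAut G) ha'
    simp only [map_mul, map_inv, map_pow, hβn (π i) c hc0, hβn (π j) d hd0, hβ, hc, hd, ha'',
      perm_inv_apply] at e
    exact h.nb2 i j hij h3 _ e

/-- a type exchanging the lengths at a multiple bond forces the characteristic -/
theorem type_len {α : MulAut G} {π : Equiv.Perm ι} (hπ : h.HasType α π) {s l : ι} (hsl : s ≠ l)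
    (hb : 2 ≤ bond s l) (hs : long s = false) (hl : long l = true) (hs' : long (π s) = true) :
    ((bond s l : ℕ) : F) = 0 := by
  have hbond := h.type_bond hπ s l hsl
  have hinj : π s ≠ π l := fun e => hsl (π.injective e)
  have hl' : long (π l) = false := by
    have := h.len_ne (π s) (π l) hinj (by omega)
    rw [hs'] at this
    cases hh : long (π l)
    · rfl
    · exact absurd hh.symm this
  obtain ⟨β, hβ, -, hbij, hβ0, -, hβn, -⟩ := h.type_coord hπ
  obtain ⟨t, ht⟩ := (hbij l).2 1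
  obtain ⟨c, hc⟩ := (hbij s).2 1
  obtain ⟨d, hd⟩ := (hbij l).2 1
  have hc0 : c ≠ 0 := by
    rintro rfl
    rw [hβ0] at hc
    exact zero_ne_one hc
  have hd0 : d ≠ 0 := by
    rintro rfl
    rw [hβ0] at hd
    exact zero_ne_one hd
  have hle := h.bond_le s l
  have hsymm := h.bond_symm (π l) (π s)
  by_cases h2 : bond s l = 2
  · have e := congrArg α ((h.len2 s l hsl h2 hs hl).1 t t c hc0)
    simp only [map_mul, map_inv, hβn s c hc0, hβ, hc, ht] at e
    have := (h.len2 (π l) (π s) hinj.symm (by omega) hl' hs').2 e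
    rw [h2]
    exact_mod_cast this
  · have h3 : bond s l = 3 := by omega
    have e := congrArg α ((h.len3 s l hsl h3 hs hl).1 t t d c hd0 hc0)
    simp only [map_mul, map_inv, hβn s c hc0, hβn l d hd0, hβ, hc, hd, ht] at e
    have := (h.len3 (π l) (π s) hinj.symm (by omega) hl' hs').2 e
    rw [h3]
    exact_mod_cast this

omit [Finite F] [Fintype ι] h in
theorem cart_self (i : ι) : cart bond long i i = 2 := by
  unfold cart
  rw [if_pos rfl]

omit [Finite F] [Fintype ι] h in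
theorem cart_one {i j : ι} (hij : i ≠ j) (h1 : bond i j = 1) : cart bond long i j = -1 := by
  unfold cart
  rw [if_neg hij, if_neg (by omega), if_pos h1]

omit [Finite F] [Fintype ι] h in
theorem cart_long {i j : ι} (hij : i ≠ j) (h1 : bond i j ≠ 0) (hl : long i = true) :
    cart bond long i j = -1 := by
  unfold cart
  rw [if_neg hij, if_neg h1]
  split_ifs <;> rfl

omit [Finite F] [Fintype ι] h in
theorem cart_short {i j : ι} (hij : i ≠ j) (h1 : 2 ≤ bond i j) (hl : long i = false) :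
    cart bond long i j = -(bond i j : ℤ) := by
  unfold cart
  rw [if_neg hij, if_neg (by omega), if_neg (by omega), if_neg (by rw [hl]; exact Bool.false_ne_true)]

/-- each coordinate function is semilinear -/
theorem type_semilinear {α : MulAut G} {π : ι → ι} {β : ι → F → F}
    (hβ : ∀ i a, α (x i a) = x (π i) (β i a)) (β_add : ∀ i a b, β i (a + b) = β i a + β i b)
    (β_zero : ∀ i, β i 0 = 0) (hc0 : ∀ i c, c ≠ 0 → β i c ≠ 0)
    (hβn : ∀ i c, c ≠ 0 → α (nn x y i c) = nn x y (π i) (β i c)) :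
    ∃ σ : ι → (F ≃+* F), ∀ i b, β i b = β i 1 * σ i b := by
  have key : ∀ i k, k ≠ 0 → ∀ d, β i (k ^ 2 * d) = (β i k / β i 1) ^ 2 * β i d := by
    intro i k hk d
    have t := h.tor_h i i k 1 hk one_ne_zero d
    have e := congrArg α t
    simp only [map_mul, map_inv, hβn i k hk, hβn i 1 one_ne_zero, hβ] at e
    rw [h.tor_h (π i) (π i) (β i k) (β i 1) (hc0 i k hk) (hc0 i 1 one_ne_zero) (β i d)] at e
    have e2 := h.x_inj _ e
    rw [cart_self, cart_self, div_one] at e2
    exact_mod_cast e2.symm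
  have hsq : ∀ i k d, β i (k ^ 2 * d) = β i (k ^ 2) / β i 1 * β i d := by
    intro i k d
    by_cases hk : k = 0
    · rw [hk]
      simp [β_zero]
    · have h1 := key i k hk 1
      rw [mul_one] at h1
      rw [key i k hk d, h1, mul_div_cancel_right₀ _ (hc0 i 1 one_ne_zero)]
  have hmul : ∀ i k d, β i (k * d) = β i k / β i 1 * β i d := by
    intro i k d
    obtain ⟨u, v, rfl⟩ := PslOut.sum_two_sq k
    rw [add_mul, β_add, hsq, hsq, β_add, add_div, add_mul]
  have hσ : ∀ i, ∃ σ : F ≃+* F, ∀ b, β i b = β i 1 * σ b := by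
    intro i
    let σ₀ : F →+* F :=
      { toFun := fun k => β i k / β i 1
        map_one' := div_self (hc0 i 1 one_ne_zero)
        map_mul' := fun k d => by rw [hmul i k d, mul_div_assoc]
        map_zero' := by rw [β_zero, zero_div]
        map_add' := fun k d => by rw [β_add, add_div] }
    have hbij : Function.Bijective σ₀ :=
      ⟨σ₀.injective, Finite.injective_iff_surjective.1 σ₀.injective⟩
    refine ⟨RingEquiv.ofBijective σ₀ hbij, fun b => ?_⟩
    show β i b = β i 1 * (β i b / β i 1)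
    have := hc0 i 1 one_ne_zero
    field_simp
  choose σ hσ using hσ
  exact ⟨σ, hσ⟩

/-- the relation between the field automorphisms of two nodes, from the torus action -/
theorem type_cross {α : MulAut G} {π : ι → ι} {β : ι → F → F}
    (hβ : ∀ i a, α (x i a) = x (π i) (β i a)) (hc0 : ∀ i c, c ≠ 0 → β i c ≠ 0)
    (hβn : ∀ i c, c ≠ 0 → α (nn x y i c) = nn x y (π i) (β i c))
    {σ : ι → (F ≃+* F)} (hσ : ∀ i b, β i b = β i 1 * σ i b) (i j : ι) (c : F) (hc : c ≠ 0) :
    σ j c ^ cart bond long i j = σ i c ^ cart bond long (π i) (π j) := by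
  have t := h.tor_h i j c 1 hc one_ne_zero 1
  have e := congrArg α t
  simp only [map_mul, map_inv, hβn i c hc, hβn i 1 one_ne_zero, hβ] at e
  rw [h.tor_h (π i) (π j) (β i c) (β i 1) (hc0 i c hc) (hc0 i 1 one_ne_zero) (β j 1)] at e
  have e2 := h.x_inj _ e
  rw [div_one, mul_one, hσ j (c ^ cart bond long i j), map_zpow₀, hσ i c,
    mul_div_cancel_left₀ _ (hc0 i 1 one_ne_zero)] at e2
  have h1 := hc0 j 1 one_ne_zero
  have : β j 1 * (σ i c ^ cart bond long (π i) (π j) - σ j c ^ cart bond long i j) = 0 := by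
    linear_combination e2
  rcases mul_eq_zero.1 this with h3 | h3
  · exact absurd h3 h1
  · exact (sub_eq_zero.1 h3).symm

/-- the exponent carried by the graph part at node `i` -/
def ex (p : ℕ) (long : ι → Bool) (π : ι → ι) (i : ι) : ℕ :=
  if long i = false ∧ long (π i) = true then p else 1

/-- the shape of an automorphism with a type on the simple root elements -/
theorem type_shape [CharP F p] {α : MulAut G} {π : Equiv.Perm ι} (hπ : h.HasType α π) :
    ∃ (c : ι → Fˣ) (σ : F ≃+* F),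
      (∀ i a, α (x i a) = x (π i) (c i * σ a ^ ex p long π i)) ∧
      (∀ i a, α (y i a) = y (π i) ((c i : F)⁻¹ * σ a ^ ex p long π i)) := by
  have hp : p.Prime := Fact.out
  obtain ⟨β, hβ, β_add, hbij, β_zero, hc0, hβn, hβy⟩ := h.type_coord hπ
  obtain ⟨σ, hσ⟩ := h.type_semilinear hβ β_add β_zero hc0 hβn
  have cross := h.type_cross hβ hc0 hβn hσ
  have : ExpChar F p := ExpChar.prime hp
  obtain ⟨φ, hφ⟩ : ∃ φ : F ≃+* F, ∀ a, φ a = a ^ p :=
    ⟨RingEquiv.ofBijective (frobenius F p) ⟨(frobenius F p).injective,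
      Finite.injective_iff_surjective.1 (frobenius F p).injective⟩, fun a => rfl⟩
  -- the normalised field automorphisms
  obtain ⟨τ, hτ⟩ : ∃ τ : ι → (F ≃+* F), ∀ i, τ i =
      if long i = false ∧ long (π i) = true then φ⁻¹ * σ i else σ i := ⟨_, fun i => rfl⟩
  have hinj : ∀ {i j : ι}, i ≠ j → π i ≠ π j := fun hij e => hij (π.injective e)
  have hLS : ∀ l s, l ≠ s → 2 ≤ bond l s → long l = true → long s = false → τ l = τ s := by
    intro l s hls hb hl hs
    have hbond := h.type_bond hπ l s hls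
    have hτl : τ l = σ l := by
      rw [hτ, if_neg]
      rintro ⟨e, -⟩
      rw [hl] at e
      exact Bool.noConfusion e
    have hcr := cross l s
    rw [cart_long hls (by omega) hl] at hcr
    cases hl' : long (π l)
    · -- lengths are exchanged
      have hs' : long (π s) = true := by
        have := h.len_ne (π l) (π s) (hinj hls) (by omega)
        rw [hl'] at this
        cases hh : long (π s)
        · exact absurd hh.symm this
        · rfl
      have hchar := h.type_len hπ (Ne.symm hls) (by rw [h.bond_symm]; exact hb) hs hl hs'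
      rw [h.bond_symm] at hchar
      have hdvd : p ∣ bond l s := (CharP.cast_eq_zero_iff F p _).1 hchar
      have hle := h.bond_le l s
      have hpb : p = bond l s := by
        have h23 : bond l s = 2 ∨ bond l s = 3 := by omega
        rcases h23 with e | e
        · rw [e] at hdvd ⊢
          exact (Nat.prime_dvd_prime_iff_eq hp Nat.prime_two).1 hdvd
        · rw [e] at hdvd ⊢
          exact (Nat.prime_dvd_prime_iff_eq hp Nat.prime_three).1 hdvd
      rw [cart_short (hinj hls) (by omega) hl', hbond, ← hpb] at hcr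
      have hσs : ∀ c, σ s c = σ l c ^ p := by
        intro c
        by_cases hc : c = 0
        · rw [hc, map_zero, map_zero, zero_pow hp.ne_zero]
        · have := hcr c hc
          rw [zpow_neg, zpow_neg, zpow_one, zpow_natCast] at this
          exact inv_injective this
      rw [hτl, hτ, if_pos ⟨hs, hs'⟩]
      apply RingEquiv.ext
      intro c
      show σ l c = φ⁻¹ (σ s c)
      rw [hσs, ← hφ]
      exact (RingEquiv.symm_apply_apply φ _).symm
    · -- lengths are preserved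
      have hs' : long (π s) = false := by
        have := h.len_ne (π l) (π s) (hinj hls) (by omega)
        rw [hl'] at this
        cases hh : long (π s)
        · rfl
        · exact absurd hh.symm this
      rw [cart_long (hinj hls) (by omega) hl'] at hcr
      have hσs : σ s = σ l := by
        apply RingEquiv.ext
        intro c
        by_cases hc : c = 0
        · rw [hc, map_zero, map_zero]
        · have := hcr c hc
          rw [zpow_neg, zpow_neg, zpow_one, zpow_one] at this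
          exact inv_injective this
      rw [hτl, hτ, if_neg, hσs]
      rintro ⟨-, e⟩
      rw [hs'] at e
      exact Bool.noConfusion e
  have hadj : ∀ i j, i ≠ j → bond i j ≠ 0 → τ i = τ j := by
    intro i j hij hb0
    by_cases h1 : bond i j = 1
    · have hbond := h.type_bond hπ i j hij
      have hcr := cross i j
      rw [cart_one hij h1, cart_one (hinj hij) (by rw [hbond]; exact h1)] at hcr
      have hσij : σ j = σ i := by
        apply RingEquiv.ext
        intro c
        by_cases hc : c = 0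
        · rw [hc, map_zero, map_zero]
        · have := hcr c hc
          rw [zpow_neg, zpow_neg, zpow_one, zpow_one] at this
          exact inv_injective this
      have e1 := h.len_eq i j hij h1
      have e2 := h.len_eq (π i) (π j) (hinj hij) (by rw [hbond]; exact h1)
      rw [hτ, hτ, e1, e2, hσij]
    · have h2 : 2 ≤ bond i j := by omega
      have hne := h.len_ne i j hij h2
      cases hi : long i
      · have hj : long j = true := by
          rw [hi] at hne
          cases hh : long j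
          · exact absurd hh.symm hne
          · rfl
        exact (hLS j i (Ne.symm hij) (by rw [h.bond_symm]; exact h2) hj hi).symm
      · have hj : long j = false := by
          rw [hi] at hne
          cases hh : long j
          · rfl
          · exact absurd hh.symm hne
        exact hLS i j hij h2 hi hj
  have hex : ∀ i, ex p long π i ≠ 0 := by
    intro i
    unfold ex
    split_ifs
    · exact hp.ne_zero
    · exact one_ne_zero
  have hfin : ∀ σ₀ : F ≃+* F, (∀ i, τ i = σ₀) →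
      (∀ i a, α (x i a) = x (π i) (β i 1 * σ₀ a ^ ex p long π i)) ∧
      (∀ i a, α (y i a) = y (π i) ((β i 1)⁻¹ * σ₀ a ^ ex p long π i)) := by
    intro σ₀ hall
    have hσi : ∀ i a, σ i a = σ₀ a ^ ex p long π i := by
      intro i a
      have e := hall i
      rw [hτ] at e
      unfold ex
      split_ifs at e ⊢ with hcond
      · rw [← e, ← hφ]
        show σ i a = φ (φ⁻¹ (σ i a))
        exact (RingEquiv.apply_symm_apply φ _).symm
      · rw [e, pow_one]
    constructor
    · intro i a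
      rw [hβ, hσ, hσi]
    · intro i a
      by_cases ha : a = 0
      · rw [ha, h.y_zero, map_one, map_zero, zero_pow (hex i), mul_zero, h.y_zero]
      · have hc : -a⁻¹ ≠ 0 := neg_ne_zero.2 (inv_ne_zero ha)
        have e := hβy i (-a⁻¹) hc
        have e1 : -(-a⁻¹)⁻¹ = a := by rw [inv_neg, neg_neg, inv_inv]
        rw [e1] at e
        rw [e]
        congr 1
        rw [hσ i (-a⁻¹), map_neg, map_inv₀, ← hσi]
        have h1 := hc0 i 1 one_ne_zero
        have h2 : σ i a ≠ 0 := fun e => ha ((map_eq_zero_iff (σ i) (σ i).injective).1 e)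
        field_simp
  by_cases hne : Nonempty ι
  · obtain ⟨i0⟩ := hne
    have hall : ∀ i, τ i = τ i0 := fun i =>
      h.conn (fun k => τ k = τ i0) (fun a b hab hb ha => (hadj a b hab hb).symm.trans ha) i0 i rfl
    obtain ⟨h1, h2⟩ := hfin (τ i0) hall
    exact ⟨fun i => Units.mk0 (β i 1) (hc0 i 1 one_ne_zero), τ i0, h1, h2⟩
  · exact ⟨fun _ => 1, 1, fun i => absurd ⟨i⟩ hne, fun i => absurd ⟨i⟩ hne⟩

/-- the shape of an arbitrary automorphism, up to an inner automorphism -/
theorem shape [CharP F p] (α : MulAut G) :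
    ∃ (g : G) (π : Equiv.Perm ι) (c : ι → Fˣ) (σ : F ≃+* F),
      h.Adm ((MulAut.conj g)⁻¹ * α) ∧ (∀ i j, i ≠ j → bond (π i) (π j) = bond i j) ∧
      (∀ i a, ((MulAut.conj g)⁻¹ * α) (x i a) = x (π i) (c i * σ a ^ ex p long π i)) ∧
      (∀ i a, ((MulAut.conj g)⁻¹ * α) (y i a) = y (π i) ((c i : F)⁻¹ * σ a ^ ex p long π i)) := by
  obtain ⟨g, hg⟩ := h.exists_adm α
  obtain ⟨π, hπ⟩ := h.adm_perm hg
  obtain ⟨c, σ, h1, h2⟩ := h.type_shape hπ
  exact ⟨g, π, c, σ, hg, h.type_bond hπ, h1, h2⟩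

/-- rigidity: an admissible automorphism fixing the positive simple root elements is trivial -/
theorem adm_rigid {α : MulAut G} (hα : h.Adm α) (h0 : ∀ i a, α (x i a) = x i a) : α = 1 := by
  obtain ⟨π, hπx, hπy⟩ := h.adm_type hα
  have hπ : ∀ k, π k = k := by
    intro k
    obtain ⟨a', ha'⟩ := hπx k 1
    rw [h0] at ha'
    exact ((h.x_disj k (π k) 1 a' ha' one_ne_zero).1).symm
  have hy : ∀ k b, ∃ b', α (y k b) = y k b' := by
    intro k b
    obtain ⟨b', hb'⟩ := hπy k b
    exact ⟨b', by rw [hb', hπ]⟩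
  have hfix : ∀ k b, α (y k b) = y k b := by
    intro k b
    by_cases hb : b = 0
    · rw [hb, h.y_zero, map_one]
    · have hc : -b⁻¹ ≠ 0 := neg_ne_zero.2 (inv_ne_zero hb)
      obtain ⟨c', -, h1, -, h3⟩ := h.adm_nn (fun a => ⟨a, h0 k a⟩) (hy k) hc
      rw [h0] at h1
      rw [← h.x_inj k h1] at h3
      have e1 : -(-b⁻¹)⁻¹ = b := by rw [inv_neg, neg_neg, inv_inv]
      rwa [e1] at h3
  have htop : (MonoidHom.eqLocus α.toMonoidHom (MonoidHom.id G)) = ⊤ :=
    h.gen _ (fun i a => h0 i a) (fun i b => hfix i b)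
  ext g
  have : g ∈ MonoidHom.eqLocus α.toMonoidHom (MonoidHom.id G) := by
    rw [htop]
    trivial
  exact this

theorem eq_of_adm {α β : MulAut G} (hα : h.Adm α) (hβ : h.Adm β)
    (hx : ∀ i a, α (x i a) = β (x i a)) : α = β := by
  have : β⁻¹ * α = 1 := by
    apply h.adm_rigid (h.adm_mul (h.adm_inv hβ) hα)
    intro i a
    rw [MulAut.mul_apply, inv_apply_eq, hx]
  exact (inv_mul_eq_one.1 this).symm

end OkD

end Cfsg.Agent.Lib.Helper27.DynOut
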