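import Cfsg.Prelude.Def_ChevAutomorphisms
import Cfsg.Prelude.Def_ChevB2
import Cfsg.Prelude.Def_ChevD4
import Cfsg.Prelude.Def_ChevE6
import Cfsg.Prelude.Def_ChevE7
import Cfsg.Prelude.Def_ChevE8
import Cfsg.Prelude.Def_ChevF4
import Cfsg.Prelude.Def_ChevG2
import Cfsg.Agent.Lib.Helper27.DynOut

/-!
# The root datum of a Chevalley group, in the shape of `DynOut.OkD` (interface)

Concrete objects attached to a `ChevalleyDatum` `D` and a field `F`, living in the group
`↥(D.group F)`: the root elements `xg D r a`, the simple root elements `xs D i a`, `ys D i a`,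
the subgroups `Ug`, `Vg`, `Bg`, `Qg i`, and the Dynkin data `bondD`, `longD`.
The statements that these satisfy `DynOut.OkD` are proved elsewhere, field by field.
-/

set_option autoImplicit false

namespace Cfsg.Agent.Lib.Helper27.ChevDyn

open Cfsg.Lie

variable {F : Type*} [Field F] (D : ChevalleyDatum)

/-- the list of data -/
def lst : List ChevalleyDatum := [chevG2, chevB2, chevD4, chevF4, chevE6, chevE7, chevE8]

open Classical in
/-- the root element `x_r(a)` as an element of the group (`1` if it is not one) -/
noncomputable def xg (r : ℕ) (a : F) : ↥(D.group F) :=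
  if h : ∃ g : ↥(D.group F), ((g : GL D.Idx F) : Matrix D.Idx D.Idx F) = D.x F r a
  then h.choose else 1

/-- the positive simple root elements -/
noncomputable def xs (i : Fin D.rank) (a : F) : ↥(D.group F) := xg D (D.simple i) a

/-- the negative simple root elements -/
noncomputable def ys (i : Fin D.rank) (a : F) : ↥(D.group F) := xg D (D.neg (D.simple i)) a

/-- `U` inside the group -/
def Ug (F : Type*) [Field F] (D : ChevalleyDatum) : Subgroup ↥(D.group F) :=
  (D.posUnipotent F).subgroupOf (D.group F)

/-- `V` inside the group -/
def Vg (F : Type*) [Field F] (D : ChevalleyDatum) : Subgroup ↥(D.group F) :=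
  (D.negUnipotent F).subgroupOf (D.group F)

/-- `B` inside the group -/
def Bg (F : Type*) [Field F] (D : ChevalleyDatum) : Subgroup ↥(D.group F) :=
  (D.borelSubgroup F).subgroupOf (D.group F)

/-- the diagonal subgroup `H` inside the group -/
def Hg (F : Type*) [Field F] (D : ChevalleyDatum) : Subgroup ↥(D.group F) :=
  (D.diagonalSubgroup F).subgroupOf (D.group F)

/-- the minimal parabolic subgroup `P_{i}` inside the group -/
def Qg (F : Type*) [Field F] (D : ChevalleyDatum) (i : Fin D.rank) : Subgroup ↥(D.group F) :=
  (D.parabolicSubgroup F {i.val}).subgroupOf (D.group F)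

/-- the number of bonds between two distinct nodes (`0` on the diagonal) -/
def bondD (i j : Fin D.rank) : ℕ := if i = j then 0 else (D.bonds i.val j.val).toNat

/-- the length flag of a node -/
def longD (i : Fin D.rank) : Bool := D.isLong (D.simple i.val)

end Cfsg.Agent.Lib.Helper27.ChevDyn
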