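import Cfsg.Agent.Lib.Helper27.ChevDynOk

/-!
# Small facts on the root elements `xg D r a`
-/

set_option autoImplicit false

namespace Cfsg.Agent.Lib.Helper27.ChevDynExt

open Cfsg.Lie Cfsg.Agent.Lib.Helper27.PslnOut Cfsg.Agent.Lib.Helper27.DynOut
  Cfsg.Agent.Lib.Helper27.ChevDyn Cfsg.Agent.Lib.Helper27.ChevDynI
  Cfsg.Agent.Lib.Helper27.ChevDynW

variable {F : Type*} [Field F] (D : ChevalleyDatum)

theorem eq_xg (hD : D ∈ lst) (g : ↥(D.group F)) (r : ℕ) (t : F)
    (hg : ((g : GL D.Idx F) : Matrix D.Idx D.Idx F) = D.x F r t) : g = xg D r t := by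
  apply Subtype.ext
  apply Units.ext
  rw [hg, xg_val D hD]

theorem simple_lt (hD : D ∈ lst) (i : Fin D.rank) : D.simple i < D.nroots := by
  revert i
  simp only [lst, List.mem_cons, List.not_mem_nil, or_false] at hD
  rcases hD with rfl | rfl | rfl | rfl | rfl | rfl | rfl <;> decide

set_option maxRecDepth 100000 in
theorem neg_simple_lt (hD : D ∈ lst) (i : Fin D.rank) : D.neg (D.simple i) < D.nroots := by
  revert i
  simp only [lst, List.mem_cons, List.not_mem_nil, or_false] at hD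
  rcases hD with rfl | rfl | rfl | rfl | rfl | rfl | rfl <;> decide +kernel

/-- the action of a field automorphism on all root elements -/
theorem field_xg (hD : D ∈ lst) (σ : F ≃+* F) (f : ↥(D.group F) ≃* ↥(D.group F))
    (hf : ∀ (g : ↥(D.group F)) (r : ℕ) (t : F), r < D.nroots →
      ((g : GL D.Idx F) : Matrix D.Idx D.Idx F) = D.x F r t →
      ((f g : GL D.Idx F) : Matrix D.Idx D.Idx F) = D.x F r (σ t)) :
    ∀ r, r < D.nroots → ∀ a : F, f (xg D r a) = xg D r (σ a) := fun r hr a =>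
  eq_xg D hD _ r _ (hf (xg D r a) r a hr (xg_val D hD r a))

end Cfsg.Agent.Lib.Helper27.ChevDynExt
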