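import Cfsg.Agent.Lib.Helper12.ChevDynPN
import Cfsg.Agent.Lib.Helper74.ChevDynPM

/-! The pieces PN, PM, delivered by helper12, helper74, under common names. -/

set_option autoImplicit false

namespace Cfsg.Agent.Lib.Helper27.ChevDynW

open Cfsg.Lie Cfsg.Agent.Lib.Helper27.PslnOut Cfsg.Agent.Lib.Helper27.DynOut
  Cfsg.Agent.Lib.Helper27.ChevDyn

variable {F : Type*} [Field F] (D : ChevalleyDatum)

theorem pieceN (hD : D ∈ lst) (π : Equiv.Perm (Fin D.rank))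
    (hπ : ∀ i j : Fin D.rank, i ≠ j → bondD D (π i) (π j) = bondD D i j) :
    (D = chevE7 ∨ D = chevE8 → π = 1) ∧
    (D ≠ chevD4 → ∀ π' : Equiv.Perm (Fin D.rank),
      (∀ i j : Fin D.rank, i ≠ j → bondD D (π' i) (π' j) = bondD D i j) →
      π = 1 ∨ π' = 1 ∨ π = π') ∧
    (D = chevD4 → ∀ h1 : 1 < D.rank, π ⟨1, h1⟩ = ⟨1, h1⟩) :=
  Cfsg.Agent.Lib.Helper12.ChevDynP.pieceN D hD π hπ

theorem pieceM {C : Type*} [CommGroup C] [Finite C] [IsCyclic C] (D : ChevalleyDatum) (m : ℕ)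
    (hDm : (D, m) ∈ [(chevE6, 3), (chevE7, 2), (chevE8, 1)]) (K : Subgroup (Fin D.rank → C))
    (hK : ∀ d : Fin D.rank → C, d ∈ K ↔
      ∃ s : Fin D.rank → C, ∀ i : Fin D.rank, d i = ∏ j : Fin D.rank, s j ^ D.cartan j (D.simple i)) :
    K.index = Nat.gcd m (Nat.card C) :=
  Cfsg.Agent.Lib.Helper74.ChevDynP.pieceM D m hDm K hK

end Cfsg.Agent.Lib.Helper27.ChevDynW
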