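import Cfsg.Agent.Lib.Helper27.ChevDynExt
import Cfsg.Agent.Lib.Helper27.ChevDynX
import Cfsg.Agent.Lib.Helper27.PslOutInst

/-!
# The orders of the outer automorphism groups of `E₇(q)`, `E₈(q)`
-/

set_option autoImplicit false

namespace Cfsg.Agent.Lib.Helper27.ChevDynCard

open Cfsg.Lie Cfsg.Agent.Lib.Helper27.PslnOut Cfsg.Agent.Lib.Helper27.DynOut
  Cfsg.Agent.Lib.Helper27.ChevDyn Cfsg.Agent.Lib.Helper27.ChevDynI
  Cfsg.Agent.Lib.Helper27.ChevDynW Cfsg.Agent.Lib.Helper27.ChevDynExt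

variable {F : Type*} [Field F] (D : ChevalleyDatum)

/-- the order of `Out`, up to the graph part -/
theorem card_out_gen [Fintype F] (p f : ℕ) [Fact p.Prime] [CharP F p]
    (hF : Fintype.card F = p ^ f) (hD : D ∈ lst) [Nonempty (Fin D.rank)] (m : ℕ)
    (hDm : (D, m) ∈ [(chevE6, 3), (chevE7, 2), (chevE8, 1)]) :
    Nat.card (Cfsg.Out ↥(D.group F)) = Nat.gcd m (p ^ f - 1) * f *
      Nat.card ↥((okD (F := F) D hD p).outTy (extD D hD p)).range := by
  rw [(okD (F := F) D hD p).card_out (extD D hD p)]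
  have h1 := pieceM (C := Fˣ) D m hDm _ (dgOut_ker_iff D hD p)
  have h2 : Nat.card Fˣ = p ^ f - 1 := by
    rw [Nat.card_units, Nat.card_eq_fintype_card, hF]
  rw [h1, h2, (PslOutInst.ringAut_cyclic hF).2]

/-- no graph part -/
theorem range_bot [Fintype F] (p : ℕ) [Fact p.Prime] [CharP F p] (hD : D ∈ lst)
    (h78 : D = chevE7 ∨ D = chevE8) :
    Nat.card ↥((okD (F := F) D hD p).outTy (extD D hD p)).range = 1 := by
  have : ((okD (F := F) D hD p).outTy (extD D hD p)).range = ⊥ := by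
    rw [eq_bot_iff]
    intro π hπ
    rw [Subgroup.mem_bot]
    exact (pieceN D hD π (fun i j hij =>
      (okD (F := F) D hD p).range_outTy_bond (extD D hD p) hπ i j hij)).1 h78
  rw [this, Subgroup.card_bot]

theorem card_E8 [Fintype F] (p f : ℕ) [Fact p.Prime] [CharP F p] (hF : Fintype.card F = p ^ f) :
    Nat.card (Cfsg.Out ↥(chevE8.group F)) = f := by
  have hD : chevE8 ∈ lst := by simp [lst]
  have : Nonempty (Fin chevE8.rank) := ⟨⟨0, by decide⟩⟩
  rw [card_out_gen chevE8 p f hF hD 1 (by simp), range_bot chevE8 p hD (Or.inr rfl),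
    Nat.gcd_one_left, one_mul, mul_one]

theorem card_E7 [Fintype F] (p f : ℕ) [Fact p.Prime] [CharP F p] (hF : Fintype.card F = p ^ f) :
    Nat.card (Cfsg.Out ↥(chevE7.group F)) = Nat.gcd 2 (p ^ f - 1) * f := by
  have hD : chevE7 ∈ lst := by simp [lst]
  have : Nonempty (Fin chevE7.rank) := ⟨⟨0, by decide⟩⟩
  rw [card_out_gen chevE7 p f hF hD 2 (by simp), range_bot chevE7 p hD (Or.inl rfl), mul_one]

end Cfsg.Agent.Lib.Helper27.ChevDynCard
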