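import Cfsg.Agent.Lib.Helper48.ChevDynPGr

/-! The piece PGr, delivered by helper48, under a common name. -/

set_option autoImplicit false

namespace Cfsg.Agent.Lib.Helper27.ChevDynW

open Cfsg.Lie Cfsg.Agent.Lib.Helper27.PslnOut Cfsg.Agent.Lib.Helper27.DynOut
  Cfsg.Agent.Lib.Helper27.ChevDyn

variable {F : Type*} [Field F] (D : ChevalleyDatum)

theorem pieceGr [Finite F] (hD : D ∈ [chevD4, chevE6]) (π : Equiv.Perm (Fin D.rank))
    (hπ : D.IsDiagramSymmetry π) (φ : ↥(D.group F) ≃* ↥(D.group F))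
    (hφ : ∀ (i : Fin D.rank) (t : F), φ (xs D i t) = xs D (π i) t ∧ φ (ys D i t) = ys D (π i) t) :
    (∀ g, φ g ∈ Ug F D ↔ g ∈ Ug F D) ∧ (∀ g, φ g ∈ Vg F D ↔ g ∈ Vg F D) :=
  Cfsg.Agent.Lib.Helper48.ChevDynP.pieceGr D hD π hπ φ hφ

end Cfsg.Agent.Lib.Helper27.ChevDynW
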