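import Cfsg.Agent.Lib.Helper27.ChevDynExt
import Cfsg.Agent.Lib.Helper27.ChevDynXGr

/-!
# Graph automorphisms of `D₄` and `E₆` and the graph part of `Out`
-/

set_option autoImplicit false

namespace Cfsg.Agent.Lib.Helper27.ChevDynGr

open Cfsg.Lie Cfsg.Agent.Lib.Helper27.PslnOut Cfsg.Agent.Lib.Helper27.DynOut
  Cfsg.Agent.Lib.Helper27.ChevDyn Cfsg.Agent.Lib.Helper27.ChevDynI
  Cfsg.Agent.Lib.Helper27.ChevDynW Cfsg.Agent.Lib.Helper27.ChevDynExt

variable {F : Type*} [Field F] (D : ChevalleyDatum)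

/-- a graph automorphism given on the fundamental root elements realises its permutation
as a graph part -/
theorem graph_mem [Fintype F] (hD : D ∈ lst) (hD' : D ∈ [chevD4, chevE6]) (p : ℕ)
    [Fact p.Prime] [CharP F p] (π : Equiv.Perm (Fin D.rank)) (hπ : D.IsDiagramSymmetry π)
    (l : List ℕ) (hl : ∀ i : Fin D.rank, l.getD i.val 0 = (π i).val)
    (α : ↥(D.group F) ≃* ↥(D.group F))
    (hα : ∀ (g : ↥(D.group F)) (i : ℕ) (t : F), i < D.rank →
      (((g : GL D.Idx F) : Matrix D.Idx D.Idx F) = D.x F (D.simple i) t →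
        ((α g : GL D.Idx F) : Matrix D.Idx D.Idx F) = D.x F (D.simple (l.getD i 0)) t) ∧
      (((g : GL D.Idx F) : Matrix D.Idx D.Idx F) = D.x F (D.neg (D.simple i)) t →
        ((α g : GL D.Idx F) : Matrix D.Idx D.Idx F) = D.x F (D.neg (D.simple (l.getD i 0))) t)) :
    π ∈ ((okD (F := F) D hD p).outTy (extD D hD p)).range := by
  have hx : ∀ (i : Fin D.rank) (t : F), α (xs D i t) = xs D (π i) t ∧
      α (ys D i t) = ys D (π i) t := by
    intro i t
    obtain ⟨h1, -⟩ := hα (xs D i t) i.val t i.isLt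
    obtain ⟨-, h3⟩ := hα (ys D i t) i.val t i.isLt
    have e1 := h1 (xg_val D hD _ _)
    have e3 := h3 (xg_val D hD _ _)
    rw [hl i] at e1 e3
    exact ⟨eq_xg D hD _ _ _ e1, eq_xg D hD _ _ _ e3⟩
  have hadm := pieceGr (F := F) D hD' π hπ α hx
  exact (okD (F := F) D hD p).mem_range_outTy (extD D hD p) (α := α) hadm
    ⟨fun k a => ⟨a, (hx k a).1⟩, fun k a => ⟨a, (hx k a).2⟩⟩

end Cfsg.Agent.Lib.Helper27.ChevDynGr
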