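import Cfsg.Agent.Lib.Helper27.ChevDynCard
import Cfsg.Agent.Lib.Helper27.ChevDynGr
import Cfsg.Agent.S1081

/-!
# The order of the outer automorphism group of `E₆(q)`
-/

set_option autoImplicit false

namespace Cfsg.Agent.Lib.Helper27.ChevDynCard

open Cfsg.Lie Cfsg.Agent.Lib.Helper27.PslnOut Cfsg.Agent.Lib.Helper27.DynOut
  Cfsg.Agent.Lib.Helper27.ChevDyn Cfsg.Agent.Lib.Helper27.ChevDynI
  Cfsg.Agent.Lib.Helper27.ChevDynW Cfsg.Agent.Lib.Helper27.ChevDynExt
  Cfsg.Agent.Lib.Helper27.ChevDynGr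

variable {F : Type*} [Field F]

/-- the symmetry of the diagram of `E₆` -/
def flipE6 : Equiv.Perm (Fin chevE6.rank) where
  toFun i := ⟨[5, 1, 4, 3, 2, 0].getD i.val 0, by revert i; decide⟩
  invFun i := ⟨[5, 1, 4, 3, 2, 0].getD i.val 0, by revert i; decide⟩
  left_inv := by decide
  right_inv := by decide

theorem flipE6_ne : flipE6 ≠ 1 := by decide

theorem flipE6_sym : chevE6.IsDiagramSymmetry flipE6 := by
  unfold ChevalleyDatum.IsDiagramSymmetry
  decide

theorem hE6 : chevE6 ∈ lst := by simp [lst]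

theorem flipE6_mem [Fintype F] (p : ℕ) [Fact p.Prime] [CharP F p] :
    flipE6 ∈ ((okD (F := F) chevE6 hE6 p).outTy (extD chevE6 hE6 p)).range := by
  obtain ⟨α, hα⟩ := Cfsg.Agent.S1081.result (F := F) (chevE6, [5, 1, 4, 3, 2, 0]) (by simp)
  exact graph_mem chevE6 hE6 (by simp) p flipE6 flipE6_sym [5, 1, 4, 3, 2, 0] (fun _ => rfl) α hα

theorem range_E6 [Fintype F] (p : ℕ) [Fact p.Prime] [CharP F p] :
    Nat.card ↥((okD (F := F) chevE6 hE6 p).outTy (extD chevE6 hE6 p)).range = 2 := by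
  rw [Nat.card_eq_two_iff]
  have hmem := flipE6_mem (F := F) p
  refine ⟨⟨flipE6, hmem⟩, 1, fun e => flipE6_ne (congrArg Subtype.val e), ?_⟩
  rw [Set.eq_univ_iff_forall]
  rintro ⟨π, hπ⟩
  have hne : chevE6 ≠ chevD4 := by
    intro e
    have := congrArg ChevalleyDatum.nroots e
    revert this
    decide
  have h1 := (pieceN chevE6 hE6 π (fun i j hij =>
    (okD (F := F) chevE6 hE6 p).range_outTy_bond (extD chevE6 hE6 p) hπ i j hij)).2.1 hne flipE6
    (fun i j hij =>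
    (okD (F := F) chevE6 hE6 p).range_outTy_bond (extD chevE6 hE6 p) hmem i j hij)
  rcases h1 with h1 | h1 | h1
  · right
    exact Subtype.ext h1
  · exact absurd h1 flipE6_ne
  · left
    exact Subtype.ext h1

theorem card_E6 [Fintype F] (p f : ℕ) [Fact p.Prime] [CharP F p] (hF : Fintype.card F = p ^ f) :
    Nat.card (Cfsg.Out ↥(chevE6.group F)) = 2 * Nat.gcd 3 (p ^ f - 1) * f := by
  have : Nonempty (Fin chevE6.rank) := ⟨⟨0, by decide⟩⟩
  rw [card_out_gen chevE6 p f hF hE6 3 (by simp), range_E6 p]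
  ring

end Cfsg.Agent.Lib.Helper27.ChevDynCard
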