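import Cfsg.Agent.Lib.Helper27.ChevIso
import Cfsg.Agent.Lib.Helper24.GrG2
import Cfsg.Agent.Lib.Helper24.GrF4
import Cfsg.Agent.Lib.Helper34.ChevDynPU

/-!
# The exceptional graph automorphisms of `G₂` (characteristic 3) and `F₄` (characteristic 2)

Wrapper: the automorphisms built in `Helper24.Gr` (`graph_aut_G2`, `graph_aut_F4`), restated
with the root elements `xg` and the tables of `isoG2`, `isoF4`.
-/

set_option autoImplicit false

namespace Cfsg.Agent.Lib.Helper27.ChevDynW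

open Cfsg.Lie Cfsg.Agent.Lib.Helper27.ChevDyn Cfsg.Agent.Lib.Helper27.ChevIso

theorem pieceX_of {D : ChevalleyDatum} (hD : D ∈ lst) {K : Type*} [Field K]
    (rho e rho' e' : ℕ → ℕ) (htab : ∀ r, r < D.nroots → rho r = rho' r ∧ e r = e' r)
    (h : ∃ α : ↥(D.group K) ≃* ↥(D.group K), ∀ (g : ↥(D.group K)) (r : ℕ) (t : K),
      r < D.nroots → ((g : GL D.Idx K) : Matrix D.Idx D.Idx K) = D.x K r t →
      ((α g : GL D.Idx K) : Matrix D.Idx D.Idx K) = D.x K (rho r) (t ^ e r)) :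
    ∃ τ : ↥(D.group K) ≃* ↥(D.group K), ∀ r, r < D.nroots → ∀ t : K,
      τ (xg D r t) = xg D (rho' r) (t ^ e' r) := by
  obtain ⟨α, hα⟩ := h
  refine ⟨α, fun r hr t => ?_⟩
  apply Subtype.ext
  apply Units.ext
  rw [hα (xg D r t) r t hr (Cfsg.Agent.Lib.Helper34.ChevDynP.pu_xg_val D hD r t),
    Cfsg.Agent.Lib.Helper34.ChevDynP.pu_xg_val D hD, (htab r hr).1, (htab r hr).2]

theorem tabXG2 : ∀ r, r < 12 →
    ([2, 3, 0, 1, 5, 4, 7, 6, 10, 11, 8, 9] : List ℕ).getD r 0 = isoG2.rho.getD r 0 ∧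
    (if ([2, 3, 4, 7, 8, 9] : List ℕ).contains r then 3 else 1) = isoG2.lam.getD r 1 := by
  decide +kernel

theorem tabXF4 : ∀ r, r < 48 →
    Cfsg.Agent.Lib.Helper24.Gr.rhoF4.getD r 0 = isoF4.rho.getD r 0 ∧
    (if Cfsg.Agent.Lib.Helper24.Gr.shF4.contains r then 2 else 1) = isoF4.lam.getD r 1 := by
  decide +kernel

/-- the exceptional isogeny as an automorphism -/
theorem pieceX (d : IsoData) (hd : d = isoG2 ∨ d = isoF4) {K : Type*} [Field K] [CharP K d.p]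
    (hperf : ∀ x : K, ∃ y : K, y ^ d.p = x) :
    ∃ τ : ↥(d.D.group K) ≃* ↥(d.D.group K), ∀ r, r < d.D.nroots → ∀ t : K,
      τ (xg d.D r t) = xg d.D (d.rho.getD r 0) (t ^ d.lam.getD r 1) := by
  rcases hd with rfl | rfl
  · have : CharP K 3 := ‹CharP K isoG2.p›
    exact pieceX_of (D := chevG2) (by simp [lst]) (K := K)
      (fun r => ([2, 3, 0, 1, 5, 4, 7, 6, 10, 11, 8, 9] : List ℕ).getD r 0)
      (fun r => if ([2, 3, 4, 7, 8, 9] : List ℕ).contains r then 3 else 1)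
      (fun r => isoG2.rho.getD r 0) (fun r => isoG2.lam.getD r 1) tabXG2
      (Cfsg.Agent.Lib.Helper24.Gr.graph_aut_G2 hperf)
  · have : CharP K 2 := ‹CharP K isoF4.p›
    exact pieceX_of (D := chevF4) (by simp [lst]) (K := K)
      (fun r => Cfsg.Agent.Lib.Helper24.Gr.rhoF4.getD r 0)
      (fun r => if Cfsg.Agent.Lib.Helper24.Gr.shF4.contains r then 2 else 1)
      (fun r => isoF4.rho.getD r 0) (fun r => isoF4.lam.getD r 1) tabXF4
      (Cfsg.Agent.Lib.Helper24.Gr.graph_aut_F4 hperf)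

end Cfsg.Agent.Lib.Helper27.ChevDynW
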