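import Cfsg.Agent.Lib.Helper27.ChevDynCard
import Cfsg.Agent.Lib.Helper27.ChevIsoX

/-!
# The orders of the outer automorphism groups of `G₂(q)` and `F₄(q)`
-/

set_option autoImplicit false

namespace Cfsg.Agent.Lib.Helper27.ChevDynCardGF

open Cfsg.Lie Cfsg.Agent.Lib.Helper27.PslnOut Cfsg.Agent.Lib.Helper27.DynOut
  Cfsg.Agent.Lib.Helper27.ChevDyn Cfsg.Agent.Lib.Helper27.ChevDynI
  Cfsg.Agent.Lib.Helper27.ChevDynW Cfsg.Agent.Lib.Helper27.ChevDynExt
  Cfsg.Agent.Lib.Helper27.ChevIso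

variable {F : Type*} [Field F]

/-! ### the Cartan matrices of `G₂` and `F₄` are unimodular -/

def wG2 : Fin 2 → ℤ := ![1, 0]
def uG2 : Fin 2 → ℤ := ![2, -1]
def vG2 : Fin 2 → ℤ := ![1, 0]
def zG2 : Fin 2 → ℤ := ![2, 3]
def BG2 : Fin 2 → Fin 2 → ℤ := !![0, 1; 0, 2]

theorem cert1_G2 : ∀ j : Fin 2, ∑ i : Fin 2, chevG2.cartan j (chevG2.simple i) * wG2 i =
    ((1 : ℕ) : ℤ) * uG2 j := by decide +kernel
theorem cert2_G2 : ∀ i k : Fin 2, ∑ j : Fin 2, chevG2.cartan j (chevG2.simple i) * BG2 j k =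
    (if i = k then 1 else 0) - vG2 i * wG2 k := by decide +kernel
theorem cert3_G2 : ∀ i : Fin 2, ∑ j : Fin 2, chevG2.cartan j (chevG2.simple i) * zG2 j =
    ((1 : ℕ) : ℤ) * vG2 i := by decide +kernel
theorem cert4_G2 : ∑ i : Fin 2, wG2 i * vG2 i = 1 := by decide +kernel

def wF4 : Fin 4 → ℤ := ![1, 0, 0, 0]
def uF4 : Fin 4 → ℤ := ![2, -1, 0, 0]
def vF4 : Fin 4 → ℤ := ![1, 0, 0, 0]
def zF4 : Fin 4 → ℤ := ![2, 3, 4, 2]
def BF4 : Fin 4 → Fin 4 → ℤ := !![0, 3, 2, 1; 0, 6, 4, 2; 0, 8, 6, 3; 0, 4, 3, 2]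

theorem cert1_F4 : ∀ j : Fin 4, ∑ i : Fin 4, chevF4.cartan j (chevF4.simple i) * wF4 i =
    ((1 : ℕ) : ℤ) * uF4 j := by decide +kernel
theorem cert2_F4 : ∀ i k : Fin 4, ∑ j : Fin 4, chevF4.cartan j (chevF4.simple i) * BF4 j k =
    (if i = k then 1 else 0) - vF4 i * wF4 k := by decide +kernel
theorem cert3_F4 : ∀ i : Fin 4, ∑ j : Fin 4, chevF4.cartan j (chevF4.simple i) * zF4 j =
    ((1 : ℕ) : ℤ) * vF4 i := by decide +kernel
theorem cert4_F4 : ∑ i : Fin 4, wF4 i * vF4 i = 1 := by decide +kernel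

theorem hG2 : chevG2 ∈ lst := by simp [lst]
theorem hF4 : chevF4 ∈ lst := by simp [lst]

theorem index_G2 [Fintype F] (p : ℕ) [Fact p.Prime] [CharP F p] :
    ((okD (F := F) chevG2 hG2 p).dgOut (extD chevG2 hG2 p)).ker.index = 1 := by
  have := Cfsg.Agent.Lib.Helper74.ChevDynP.index_of_cert (C := Fˣ) 2
    (fun j i => chevG2.cartan j (chevG2.simple i)) 1 wG2 uG2 vG2 zG2 BG2
    cert1_G2 cert2_G2 cert3_G2 cert4_G2 _ (dgOut_ker_iff chevG2 hG2 p)
  rwa [Nat.gcd_one_left] at this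

theorem index_F4 [Fintype F] (p : ℕ) [Fact p.Prime] [CharP F p] :
    ((okD (F := F) chevF4 hF4 p).dgOut (extD chevF4 hF4 p)).ker.index = 1 := by
  have := Cfsg.Agent.Lib.Helper74.ChevDynP.index_of_cert (C := Fˣ) 4
    (fun j i => chevF4.cartan j (chevF4.simple i)) 1 wF4 uF4 vF4 zF4 BF4
    cert1_F4 cert2_F4 cert3_F4 cert4_F4 _ (dgOut_ker_iff chevF4 hF4 p)
  rwa [Nat.gcd_one_left] at this

/-! ### generalities on the graph part -/

variable (D : ChevalleyDatum)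

theorem card_out_one [Fintype F] (p f : ℕ) [Fact p.Prime] [CharP F p]
    (hF : Fintype.card F = p ^ f) (hD : D ∈ lst) [Nonempty (Fin D.rank)]
    (hidx : ((okD (F := F) D hD p).dgOut (extD D hD p)).ker.index = 1) :
    Nat.card (Cfsg.Out ↥(D.group F)) =
      f * Nat.card ↥((okD (F := F) D hD p).outTy (extD D hD p)).range := by
  rw [(okD (F := F) D hD p).card_out (extD D hD p), hidx, one_mul,
    (PslOutInst.ringAut_cyclic hF).2]

theorem range_hasType [Fintype F] (p : ℕ) [Fact p.Prime] [CharP F p] (hD : D ∈ lst)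
    (π : Equiv.Perm (Fin D.rank))
    (hπ : π ∈ ((okD (F := F) D hD p).outTy (extD D hD p)).range) :
    ∃ α : MulAut ↥(D.group F), (okD (F := F) D hD p).HasType α π := by
  obtain ⟨q, rfl⟩ := hπ
  obtain ⟨α, rfl⟩ := QuotientGroup.mk_surjective q
  rw [OkD.outTy_mk]
  obtain ⟨g, -, h2⟩ := (okD (F := F) D hD p).ty_spec α
  exact ⟨_, h2⟩

/-- no graph part when the characteristic does not divide the multiple bond -/
theorem range_one_of_len [Fintype F] (p : ℕ) [Fact p.Prime] [CharP F p] (hD : D ∈ lst)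
    (s l : Fin D.rank) (hsl : s ≠ l) (hb : 2 ≤ bondD D s l) (hs : longD D s = false)
    (hl : longD D l = true) (hp : ((bondD D s l : ℕ) : F) ≠ 0)
    (hcomb : ∀ π : Equiv.Perm (Fin D.rank),
      (∀ i j, i ≠ j → bondD D (π i) (π j) = bondD D i j) → π = 1 ∨ longD D (π s) = true) :
    Nat.card ↥((okD (F := F) D hD p).outTy (extD D hD p)).range = 1 := by
  have : ((okD (F := F) D hD p).outTy (extD D hD p)).range = ⊥ := by
    rw [eq_bot_iff]
    intro π hπ
    rw [Subgroup.mem_bot]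
    rcases hcomb π (fun i j hij =>
      (okD (F := F) D hD p).range_outTy_bond (extD D hD p) hπ i j hij) with h1 | h1
    · exact h1
    · obtain ⟨α, hα⟩ := range_hasType D p hD π hπ
      exact absurd ((okD (F := F) D hD p).type_len hα hsl hb hs hl h1) hp
  rw [this, Subgroup.card_bot]

/-- exactly one nontrivial graph part -/
theorem range_two [Fintype F] (p : ℕ) [Fact p.Prime] [CharP F p] (hD : D ∈ lst)
    (hne : D ≠ chevD4) (π₀ : Equiv.Perm (Fin D.rank)) (hπ₀ : π₀ ≠ 1)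
    (hmem : π₀ ∈ ((okD (F := F) D hD p).outTy (extD D hD p)).range) :
    Nat.card ↥((okD (F := F) D hD p).outTy (extD D hD p)).range = 2 := by
  rw [Nat.card_eq_two_iff]
  refine ⟨⟨π₀, hmem⟩, 1, fun e => hπ₀ (congrArg Subtype.val e), ?_⟩
  rw [Set.eq_univ_iff_forall]
  rintro ⟨π, hπ⟩
  have h1 := (pieceN D hD π (fun i j hij =>
    (okD (F := F) D hD p).range_outTy_bond (extD D hD p) hπ i j hij)).2.1 hne π₀
    (fun i j hij => (okD (F := F) D hD p).range_outTy_bond (extD D hD p) hmem i j hij)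
  rcases h1 with h1 | h1 | h1
  · right
    exact Subtype.ext h1
  · exact absurd h1 hπ₀
  · left
    exact Subtype.ext h1

/-- the exceptional isogeny realises its node permutation as a graph part -/
theorem iso_mem [Fintype F] (d : IsoData) (hd : d = isoG2 ∨ d = isoF4) (hD : d.D ∈ lst)
    [Fact d.p.Prime] [CharP F d.p] (π₀ : Equiv.Perm (Fin d.D.rank))
    (hπ₀ : ∀ i : Fin d.D.rank, d.rho.getD (d.D.simple i) 0 = d.D.simple (π₀ i) ∧
      d.rho.getD (d.D.neg (d.D.simple i)) 0 = d.D.neg (d.D.simple (π₀ i)))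
    (hpos : ∀ r, d.D.IsPosRoot r → d.D.IsPosRoot (d.rho.getD r 0))
    (hneg : ∀ r, d.D.IsNegRoot r → d.D.IsNegRoot (d.rho.getD r 0)) :
    π₀ ∈ ((okD (F := F) d.D hD d.p).outTy (extD d.D hD d.p)).range := by
  have hperf : ∀ x : F, ∃ y : F, y ^ d.p = x := by
    intro x
    obtain ⟨y, hy⟩ := (Finite.injective_iff_surjective.1 (frobenius_inj F d.p)) x
    exact ⟨y, hy⟩
  obtain ⟨τ, hτ⟩ := pieceX d hd hperf
  have hadm := pieceU (F := F) d.D hD τ (fun r => d.rho.getD r 0) hpos hneg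
    (fun r hr a => ⟨_, hτ r hr a⟩)
  refine (okD (F := F) d.D hD d.p).mem_range_outTy (extD d.D hD d.p) (α := τ) hadm
    ⟨fun k a => ⟨a ^ d.lam.getD (d.D.simple k) 1, ?_⟩,
      fun k a => ⟨a ^ d.lam.getD (d.D.neg (d.D.simple k)) 1, ?_⟩⟩
  · show τ (xg d.D (d.D.simple k) a) = xg d.D (d.D.simple (π₀ k)) _
    rw [hτ _ (simple_lt d.D hD k), (hπ₀ k).1]
  · show τ (xg d.D (d.D.neg (d.D.simple k)) a) = xg d.D (d.D.neg (d.D.simple (π₀ k))) _
    rw [hτ _ (neg_simple_lt d.D hD k), (hπ₀ k).2]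

/-! ### `G₂` -/

theorem posG2 : ∀ r : Fin chevG2.nroots,
    (chevG2.IsPosRoot r → chevG2.IsPosRoot (isoG2.rho.getD r 0)) ∧
    (chevG2.IsNegRoot r → chevG2.IsNegRoot (isoG2.rho.getD r 0)) := by decide +kernel

/-- the symmetry of the diagram of `G₂` -/
def swapG2 : Equiv.Perm (Fin chevG2.rank) where
  toFun i := ⟨[1, 0].getD i.val 0, by revert i; decide⟩
  invFun i := ⟨[1, 0].getD i.val 0, by revert i; decide⟩
  left_inv := by decide
  right_inv := by decide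

theorem swapG2_ne : swapG2 ≠ 1 := by decide

theorem swapG2_spec : ∀ i : Fin chevG2.rank,
    isoG2.rho.getD (chevG2.simple i) 0 = chevG2.simple (swapG2 i) ∧
    isoG2.rho.getD (chevG2.neg (chevG2.simple i)) 0 =
      chevG2.neg (chevG2.simple (swapG2 i)) := by decide +kernel

theorem combG2 : ∀ π : Equiv.Perm (Fin chevG2.rank),
    (∀ i j, i ≠ j → bondD chevG2 (π i) (π j) = bondD chevG2 i j) →
      π = 1 ∨ longD chevG2 (π ⟨0, by decide⟩) = true := by decide +kernel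

theorem dataG2 : (⟨0, by decide⟩ : Fin chevG2.rank) ≠ ⟨1, by decide⟩ ∧
    bondD chevG2 ⟨0, by decide⟩ ⟨1, by decide⟩ = 3 ∧ longD chevG2 ⟨0, by decide⟩ = false ∧
    longD chevG2 ⟨1, by decide⟩ = true := by decide +kernel

theorem card_G2 [Fintype F] (p f : ℕ) [Fact p.Prime] [CharP F p] (hF : Fintype.card F = p ^ f) :
    Nat.card (Cfsg.Out ↥(chevG2.group F)) = if p = 3 then 2 * f else f := by
  have : Nonempty (Fin chevG2.rank) := ⟨⟨0, by decide⟩⟩
  rw [card_out_one chevG2 p f hF hG2 (index_G2 p)]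
  have hne : chevG2 ≠ chevD4 := by
    intro e
    have := congrArg ChevalleyDatum.nroots e
    revert this
    decide
  obtain ⟨d1, d2, d3, d4⟩ := dataG2
  by_cases hp3 : p = 3
  · subst hp3
    rw [if_pos rfl]
    have hmem : swapG2 ∈ ((okD (F := F) chevG2 hG2 3).outTy (extD chevG2 hG2 3)).range :=
      @iso_mem F _ _ isoG2 (Or.inl rfl) hG2 (inferInstance : Fact (Nat.Prime 3))
        (inferInstance : CharP F 3) swapG2 swapG2_spec
        (fun r hr => (posG2 ⟨r, hr.1⟩).1 hr) (fun r hr => (posG2 ⟨r, hr.1⟩).2 hr)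
    rw [range_two chevG2 3 hG2 hne swapG2 swapG2_ne hmem, mul_comm]
  · rw [if_neg hp3]
    have hp : ((bondD chevG2 ⟨0, by decide⟩ ⟨1, by decide⟩ : ℕ) : F) ≠ 0 := by
      rw [d2, Ne, CharP.cast_eq_zero_iff F p 3, Nat.prime_dvd_prime_iff_eq Fact.out (by norm_num)]
      exact hp3
    rw [range_one_of_len chevG2 p hG2 ⟨0, by decide⟩ ⟨1, by decide⟩ d1 (by rw [d2]; norm_num) d3 d4
      hp combG2, mul_one]

/-! ### `F₄` -/

/-- the symmetry of the diagram of `F₄` -/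
def flipF4 : Equiv.Perm (Fin chevF4.rank) where
  toFun i := ⟨[3, 2, 1, 0].getD i.val 0, by revert i; decide⟩
  invFun i := ⟨[3, 2, 1, 0].getD i.val 0, by revert i; decide⟩
  left_inv := by decide
  right_inv := by decide

theorem flipF4_ne : flipF4 ≠ 1 := by decide

set_option maxRecDepth 100000 in
theorem posF4 : ∀ r : Fin chevF4.nroots,
    (chevF4.IsPosRoot r → chevF4.IsPosRoot (isoF4.rho.getD r 0)) ∧
    (chevF4.IsNegRoot r → chevF4.IsNegRoot (isoF4.rho.getD r 0)) := by decide +kernel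

set_option maxRecDepth 100000 in
theorem flipF4_spec : ∀ i : Fin chevF4.rank,
    isoF4.rho.getD (chevF4.simple i) 0 = chevF4.simple (flipF4 i) ∧
    isoF4.rho.getD (chevF4.neg (chevF4.simple i)) 0 =
      chevF4.neg (chevF4.simple (flipF4 i)) := by decide +kernel

set_option maxRecDepth 100000 in
theorem combF4 : ∀ π : Equiv.Perm (Fin chevF4.rank),
    (∀ i j, i ≠ j → bondD chevF4 (π i) (π j) = bondD chevF4 i j) →
      π = 1 ∨ longD chevF4 (π ⟨1, by decide⟩) = true := by decide +kernel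

set_option maxRecDepth 100000 in
theorem dataF4 : (⟨1, by decide⟩ : Fin chevF4.rank) ≠ ⟨2, by decide⟩ ∧
    bondD chevF4 ⟨1, by decide⟩ ⟨2, by decide⟩ = 2 ∧ longD chevF4 ⟨1, by decide⟩ = false ∧
    longD chevF4 ⟨2, by decide⟩ = true := by decide +kernel

theorem card_F4 [Fintype F] (p f : ℕ) [Fact p.Prime] [CharP F p] (hF : Fintype.card F = p ^ f) :
    Nat.card (Cfsg.Out ↥(chevF4.group F)) = Nat.gcd 2 p * f := by
  have : Nonempty (Fin chevF4.rank) := ⟨⟨0, by decide⟩⟩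
  rw [card_out_one chevF4 p f hF hF4 (index_F4 p)]
  have hne : chevF4 ≠ chevD4 := by
    intro e
    have := congrArg ChevalleyDatum.nroots e
    revert this
    decide
  obtain ⟨d1, d2, d3, d4⟩ := dataF4
  by_cases hp2 : p = 2
  · subst hp2
    have hmem : flipF4 ∈ ((okD (F := F) chevF4 hF4 2).outTy (extD chevF4 hF4 2)).range :=
      @iso_mem F _ _ isoF4 (Or.inr rfl) hF4 (inferInstance : Fact (Nat.Prime 2))
        (inferInstance : CharP F 2) flipF4 flipF4_spec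
        (fun r hr => (posF4 ⟨r, hr.1⟩).1 hr) (fun r hr => (posF4 ⟨r, hr.1⟩).2 hr)
    rw [range_two chevF4 2 hF4 hne flipF4 flipF4_ne hmem, mul_comm]
    rfl
  · have hp : ((bondD chevF4 ⟨1, by decide⟩ ⟨2, by decide⟩ : ℕ) : F) ≠ 0 := by
      rw [d2, Ne, CharP.cast_eq_zero_iff F p 2, Nat.prime_dvd_prime_iff_eq Fact.out Nat.prime_two]
      exact hp2
    have hg : Nat.gcd 2 p = 1 :=
      (Nat.coprime_primes Nat.prime_two Fact.out).2 (fun e => hp2 e.symm)
    rw [range_one_of_len chevF4 p hF4 ⟨1, by decide⟩ ⟨2, by decide⟩ d1 (by rw [d2]) d3 d4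
      hp combF4, mul_one, hg, one_mul]

end Cfsg.Agent.Lib.Helper27.ChevDynCardGF
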