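import Cfsg.Agent.Lib.Helper27.ChevDynStr
import Cfsg.Agent.Lib.Helper27.ChevDynCard

/-!
# The order of the outer automorphism group of `D₄(q)`

`|Out D₄(q)| = 6 · gcd(2, q - 1)² · f` for `q = p ^ f`: the graph part is the full symmetric
group of the three outer nodes (`ChevDynStr.range_D4`), the field part has order `f`, and the
diagonal part is the cokernel of the Cartan matrix of `D₄` on the cyclic group `Fˣ`, of order
`gcd(2, q - 1)²`.
-/

set_option autoImplicit false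

namespace Cfsg.Agent.Lib.Helper27.ChevDynD4

open Cfsg.Lie Cfsg.Agent.Lib.Helper27.PslnOut Cfsg.Agent.Lib.Helper27.DynOut
  Cfsg.Agent.Lib.Helper27.ChevDyn Cfsg.Agent.Lib.Helper27.ChevDynI
  Cfsg.Agent.Lib.Helper27.ChevDynW Cfsg.Agent.Lib.Helper27.ChevDynExt
  Cfsg.Agent.Lib.Helper27.ChevDynStr

section abstract

variable {C : Type*} [CommGroup C]

/-- the Cartan map of `D₄` (node `1` central) -/
def cartHom (C : Type*) [CommGroup C] : (Fin 4 → C) →* (Fin 4 → C) where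
  toFun s := ![s 0 ^ 2 * (s 1)⁻¹, (s 0)⁻¹ * s 1 ^ 2 * (s 2)⁻¹ * (s 3)⁻¹, (s 1)⁻¹ * s 2 ^ 2,
    (s 1)⁻¹ * s 3 ^ 2]
  map_one' := by
    funext i
    fin_cases i <;> simp
  map_mul' s t := by
    funext i
    fin_cases i <;> simp only [Pi.mul_apply, mul_pow, mul_inv] <;>
      simp <;> ac_rfl

theorem cartHom_apply (s : Fin 4 → C) :
    cartHom C s = ![s 0 ^ 2 * (s 1)⁻¹, (s 0)⁻¹ * s 1 ^ 2 * (s 2)⁻¹ * (s 3)⁻¹, (s 1)⁻¹ * s 2 ^ 2,
      (s 1)⁻¹ * s 3 ^ 2] := rfl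

theorem mem_ker_cartHom (s : Fin 4 → C) : s ∈ (cartHom C).ker ↔
    s 0 ^ 2 * (s 1)⁻¹ = 1 ∧ (s 0)⁻¹ * s 1 ^ 2 * (s 2)⁻¹ * (s 3)⁻¹ = 1 ∧ (s 1)⁻¹ * s 2 ^ 2 = 1 ∧
      (s 1)⁻¹ * s 3 ^ 2 = 1 := by
  rw [MonoidHom.mem_ker, cartHom_apply]
  constructor
  · intro h
    exact ⟨congrFun h 0, congrFun h 1, congrFun h 2, congrFun h 3⟩
  · rintro ⟨h0, h1, h2, h3⟩
    funext i
    fin_cases i
    · exact h0
    · exact h1
    · exact h2
    · exact h3

theorem ker_sol (s : Fin 4 → C) (hs : s ∈ (cartHom C).ker) :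
    s 1 = 1 ∧ s 2 ^ 2 = 1 ∧ s 3 ^ 2 = 1 ∧ s 0 = s 2 * s 3 := by
  obtain ⟨h0, h1, h2, h3⟩ := (mem_ker_cartHom s).1 hs
  have e0 : s 0 ^ 2 = s 1 := mul_inv_eq_one.1 h0
  have e2 : s 2 ^ 2 = s 1 := by
    rw [inv_mul_eq_one] at h2
    exact h2.symm
  have e3 : s 3 ^ 2 = s 1 := by
    rw [inv_mul_eq_one] at h3
    exact h3.symm
  have e1 : s 1 ^ 2 = s 0 * (s 3 * s 2) := by
    rw [mul_inv_eq_one, mul_inv_eq_iff_eq_mul, inv_mul_eq_iff_eq_mul] at h1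
    exact h1
  have hs1 : s 1 = 1 := by
    have h4 : s 1 ^ 3 * s 1 = s 1 ^ 3 * 1 := by
      calc s 1 ^ 3 * s 1 = (s 1 ^ 2) ^ 2 := by
            rw [← pow_succ, ← pow_mul]
        _ = (s 0 * (s 3 * s 2)) ^ 2 := by rw [e1]
        _ = s 0 ^ 2 * (s 3 ^ 2 * s 2 ^ 2) := by rw [mul_pow, mul_pow]
        _ = s 1 ^ 3 * 1 := by
            rw [e0, e2, e3, mul_one, pow_succ, pow_two, mul_assoc]
    exact mul_left_cancel h4
  rw [hs1] at e0 e2 e3 e1
  refine ⟨hs1, e2, e3, ?_⟩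
  rw [one_pow] at e1
  -- `1 = s 0 * (s 3 * s 2)`, squares are trivial
  have h5 : s 0 * (s 3 * s 2) * (s 2 * s 3) = s 0 := by
    calc s 0 * (s 3 * s 2) * (s 2 * s 3) = s 0 * (s 3 ^ 2 * s 2 ^ 2) := by
          rw [pow_two, pow_two]
          ac_rfl
      _ = s 0 := by rw [e2, e3, mul_one, mul_one]
  rw [← e1, one_mul] at h5
  exact h5.symm

theorem sol_ker (a b : C) (ha : a ^ 2 = 1) (hb : b ^ 2 = 1) :
    ![b * a, 1, b, a] ∈ (cartHom C).ker := by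
  rw [mem_ker_cartHom]
  refine ⟨?_, ?_, ?_, ?_⟩
  · show (b * a) ^ 2 * (1 : C)⁻¹ = 1
    rw [mul_pow, ha, hb, inv_one, mul_one, mul_one]
  · show (b * a)⁻¹ * (1 : C) ^ 2 * b⁻¹ * a⁻¹ = 1
    have h1 : (b * a)⁻¹ * (1 : C) ^ 2 * b⁻¹ * a⁻¹ = ((b * a) ^ 2)⁻¹ := by
      simp only [mul_one, pow_two, mul_inv]
      ac_rfl
    rw [h1, mul_pow, ha, hb, mul_one, inv_one]
  · show (1 : C)⁻¹ * b ^ 2 = 1
    rw [hb, inv_one, mul_one]
  · show (1 : C)⁻¹ * a ^ 2 = 1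
    rw [ha, inv_one, mul_one]

/-- the kernel of the Cartan map is `C[2] × C[2]` -/
def kerEquiv (C : Type*) [CommGroup C] :
    ↥(cartHom C).ker ≃ ↥(powMonoidHom 2 : C →* C).ker × ↥(powMonoidHom 2 : C →* C).ker where
  toFun s := (⟨s.1 3, (ker_sol s.1 s.2).2.2.1⟩, ⟨s.1 2, (ker_sol s.1 s.2).2.1⟩)
  invFun x := ⟨![x.2.1 * x.1.1, 1, x.2.1, x.1.1], sol_ker x.1.1 x.2.1 x.1.2 x.2.2⟩
  left_inv s := by
    apply Subtype.ext
    funext i
    obtain ⟨h1, -, -, h0⟩ := ker_sol s.1 s.2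
    fin_cases i
    · exact h0.symm
    · exact h1.symm
    · rfl
    · rfl
  right_inv x := rfl

theorem card_ker_cartHom [Finite C] [IsCyclic C] :
    Nat.card ↥(cartHom C).ker = Nat.gcd 2 (Nat.card C) ^ 2 := by
  rw [Nat.card_congr (kerEquiv C), Nat.card_prod, IsCyclic.card_powMonoidHom_ker, Nat.gcd_comm,
    pow_two]

/-- the index of the image of the Cartan map of `D₄` on a finite cyclic group -/
theorem index_cart4 [Finite C] [IsCyclic C] (K : Subgroup (Fin 4 → C))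
    (hK : ∀ d : Fin 4 → C, d ∈ K ↔ ∃ s : Fin 4 → C, d = cartHom C s) :
    K.index = Nat.gcd 2 (Nat.card C) ^ 2 := by
  have e : K = (cartHom C).range := by
    ext d
    rw [hK, MonoidHom.mem_range]
    constructor
    · rintro ⟨s, rfl⟩
      exact ⟨s, rfl⟩
    · rintro ⟨s, rfl⟩
      exact ⟨s, rfl⟩
  rw [e, Subgroup.index_range, card_ker_cartHom]

end abstract

theorem cartan_D4 : ∀ i j : Fin 4, chevD4.cartan j.val (chevD4.simple i.val) =
    (![![2, -1, 0, 0], ![-1, 2, -1, -1], ![0, -1, 2, 0], ![0, -1, 0, 2]] : Fin 4 → Fin 4 → ℤ) j i := by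
  decide +kernel

/-- the cokernel of the Cartan matrix of `D₄` on a finite cyclic group -/
theorem index_D4 {C : Type*} [CommGroup C] [Finite C] [IsCyclic C] (K : Subgroup (Fin 4 → C))
    (hK : ∀ d : Fin 4 → C, d ∈ K ↔
      ∃ s : Fin 4 → C, ∀ i : Fin 4, d i = ∏ j : Fin 4, s j ^ chevD4.cartan j (chevD4.simple i)) :
    K.index = Nat.gcd 2 (Nat.card C) ^ 2 := by
  apply index_cart4 K
  intro d
  rw [hK]
  have key : ∀ s : Fin 4 → C, (∀ i : Fin 4, d i = ∏ j : Fin 4, s j ^ chevD4.cartan j (chevD4.simple i)) ↔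
      d = cartHom C s := by
    intro s
    have hval : ∀ i : Fin 4, ∏ j : Fin 4, s j ^ chevD4.cartan j (chevD4.simple i) = cartHom C s i := by
      intro i
      rw [Fin.prod_univ_four, cartan_D4 i 0, cartan_D4 i 1, cartan_D4 i 2, cartan_D4 i 3,
        cartHom_apply]
      fin_cases i <;> simp [zpow_ofNat]
    constructor
    · intro h
      funext i
      rw [h i, hval i]
    · intro h i
      rw [h, hval i]
  constructor
  · rintro ⟨s, hs⟩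
    exact ⟨s, (key s).1 hs⟩
  · rintro ⟨s, hs⟩
    exact ⟨s, (key s).2 hs⟩

variable {F : Type*} [Field F]

/-- T1: the order of the outer automorphism group of `D₄(q)`, `q = p ^ f` -/
theorem card_D4 [Fintype F] (p f : ℕ) [Fact p.Prime] [CharP F p] (hF : Fintype.card F = p ^ f) :
    Nat.card (Cfsg.Out ↥(chevD4.group F)) = 6 * Nat.gcd 2 (p ^ f - 1) ^ 2 * f := by
  have : Nonempty (Fin chevD4.rank) := ⟨⟨0, by decide⟩⟩
  rw [(okD (F := F) chevD4 hD4 p).card_out (extD chevD4 hD4 p), range_D4 p]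
  have h1 : ((okD (F := F) chevD4 hD4 p).dgOut (extD chevD4 hD4 p)).ker.index =
      Nat.gcd 2 (Nat.card Fˣ) ^ 2 :=
    index_D4 (C := Fˣ) _ (dgOut_ker_iff chevD4 hD4 p)
  have h2 : Nat.card Fˣ = p ^ f - 1 := by
    rw [Nat.card_units, Nat.card_eq_fintype_card, hF]
  rw [h1, h2, (PslOutInst.ringAut_cyclic hF).2]
  ring

end Cfsg.Agent.Lib.Helper27.ChevDynD4
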