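import Mathlib
import Cfsg.Prelude.Def_KGroupFacts
import Cfsg.Agent.Lib.Helper27.DynOut

/-!
# Outer automorphisms of a group with a root datum of arbitrary Dynkin type (abstract part, II)

With the extra hypotheses `OkD.Ext` (torus action, field and diagonal automorphisms):
* `OkD.outTy`: the homomorphism `Out G →* Perm ι` (the graph part);
* `OkD.sup_eq_ker`: its kernel is generated by the classes of the diagonal and of the field
  automorphisms; `OkD.ds_normal`, `OkD.ds_comm`, `OkD.fs_cyclic`;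
* `OkD.card_out`: the order of `Out G`.
-/

set_option autoImplicit false
set_option linter.unusedSectionVars false

namespace Cfsg.Agent.Lib.Helper27.DynOut

open scoped Pointwise
open Cfsg.Agent.Lib.Helper27.PslnOut

variable {F : Type*} [Field F] [Finite F] {G : Type*} [Group G] [Finite G]
  {ι : Type*} [Fintype ι] [DecidableEq ι]
variable {p : ℕ} [Fact p.Prime] {bond : ι → ι → ℕ} {long : ι → Bool}
  {x y : ι → F → G} {U V : Subgroup G} {Q : ι → Subgroup G}

namespace OkD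

/-- extra hypotheses: the torus acts on the simple root groups through scalars, and there are
admissible field and diagonal automorphisms -/
structure Ext (h : OkD p bond long x y U V Q) : Prop where
  tor : ∀ t, t ∈ Nm U → t ∈ Nm V → ∀ i, ∃ k : Fˣ, ∀ a, t * x i a * t⁻¹ = x i (k * a)
  field : ∀ σ : F ≃+* F, ∃ φ : MulAut G, h.Adm φ ∧ ∀ i a, φ (x i a) = x i (σ a)
  diag : ∀ d : ι → Fˣ, ∃ φ : MulAut G, h.Adm φ ∧ ∀ i a, φ (x i a) = x i (d i * a)

variable (h : OkD p bond long x y U V Q)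
include h

theorem type_mul {α β : MulAut G} {π π' : ι → ι} (hα : h.HasType α π) (hβ : h.HasType β π') :
    h.HasType (α * β) (π ∘ π') := by
  constructor
  · intro k a
    obtain ⟨a', ha'⟩ := hβ.1 k a
    obtain ⟨a'', ha''⟩ := hα.1 (π' k) a'
    exact ⟨a'', by rw [MulAut.mul_apply, ha', ha'']; rfl⟩
  · intro k a
    obtain ⟨a', ha'⟩ := hβ.2 k a
    obtain ⟨a'', ha''⟩ := hα.2 (π' k) a'
    exact ⟨a'', by rw [MulAut.mul_apply, ha', ha'']; rfl⟩

/-- an admissible automorphism whose action on the positive simple root groups is known -/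
theorem adm_type_of_x {α : MulAut G} (hα : h.Adm α) {π : ι → ι}
    (hx : ∀ k a, ∃ a', α (x k a) = x (π k) a') : h.HasType α π := by
  obtain ⟨π₀, hπ₀⟩ := h.adm_type hα
  have e : π₀ = π := by
    funext k
    obtain ⟨a, ha⟩ := hπ₀.1 k 1
    obtain ⟨a', ha'⟩ := hx k 1
    have ha0 : a ≠ 0 := by
      rintro rfl
      rw [h.x_zero] at ha
      exact h.x_ne_one k one_ne_zero ((map_eq_one_iff α α.injective).1 ha)
    exact (h.x_disj _ _ a a' (ha.symm.trans ha') ha0).1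
  rw [← e]
  exact hπ₀

theorem tor_type (hE : h.Ext) {t : G} (hU : t ∈ Nm U) (hV : t ∈ Nm V) :
    h.HasType (MulAut.conj t) id :=
  h.adm_type_of_x (h.adm_conj hU hV) (fun k a => by
    obtain ⟨c, hc⟩ := hE.tor t hU hV k
    exact ⟨c * a, by rw [MulAut.conj_apply, hc]; rfl⟩)

/-- `α` has graph part `π` -/
def Ty (_h : OkD p bond long x y U V Q) (α : MulAut G) (π : Equiv.Perm ι) : Prop :=
  ∃ g : G, _h.Adm ((MulAut.conj g)⁻¹ * α) ∧ _h.HasType ((MulAut.conj g)⁻¹ * α) π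

theorem ty_exists (α : MulAut G) : ∃ π, h.Ty α π := by
  obtain ⟨g, hg⟩ := h.exists_adm α
  obtain ⟨π, hπ⟩ := h.adm_perm hg
  exact ⟨π, g, hg, hπ⟩

theorem ty_of_adm {α : MulAut G} {π : Equiv.Perm ι} (hα : h.Adm α) (hπ : h.HasType α π) :
    h.Ty α π := by
  refine ⟨1, ?_, ?_⟩
  · rw [map_one, inv_one, one_mul]
    exact hα
  · rw [map_one, inv_one, one_mul]
    exact hπ

theorem ty_unique (hE : h.Ext) {α : MulAut G} {π π' : Equiv.Perm ι} (h1 : h.Ty α π)
    (h2 : h.Ty α π') : π = π' := by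
  obtain ⟨g, hg, hπ⟩ := h1
  obtain ⟨g', hg', hπ'⟩ := h2
  have ee : (MulAut.conj g')⁻¹ * α = MulAut.conj (g'⁻¹ * g) * ((MulAut.conj g)⁻¹ * α) := by
    rw [map_mul, map_inv]
    group
  have hadm : h.Adm (MulAut.conj (g'⁻¹ * g)) := by
    have : MulAut.conj (g'⁻¹ * g) = ((MulAut.conj g')⁻¹ * α) * ((MulAut.conj g)⁻¹ * α)⁻¹ := by
      rw [ee]
      group
    rw [this]
    exact h.adm_mul hg' (h.adm_inv hg)
  obtain ⟨htU, htV⟩ := h.of_adm_conj hadm
  have h3 := h.type_mul (h.tor_type hE htU htV) hπ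
  rw [← ee] at h3
  have := h.type_unique hπ' h3
  apply Equiv.ext
  intro k
  have := congrFun this k
  exact this.symm

theorem ty_mul {α β : MulAut G} {π π' : Equiv.Perm ι} (h1 : h.Ty α π) (h2 : h.Ty β π') :
    h.Ty (α * β) (π * π') := by
  obtain ⟨g, hg, hπ⟩ := h1
  obtain ⟨g', hg', hπ'⟩ := h2
  have ee : (MulAut.conj (α g' * g))⁻¹ * (α * β)
      = ((MulAut.conj g)⁻¹ * α) * ((MulAut.conj g')⁻¹ * β) := by
    ext z
    show (α g' * g)⁻¹ * α (β z) * (α g' * g) = g⁻¹ * α (g'⁻¹ * β z * g') * g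
    rw [map_mul, map_mul, map_inv]
    group
  refine ⟨α g' * g, ?_, ?_⟩
  · rw [ee]
    exact h.adm_mul hg hg'
  · rw [ee]
    have := h.type_mul hπ hπ'
    exact this

theorem ty_conj (g : G) : h.Ty (MulAut.conj g) 1 := by
  refine ⟨g, ?_, ?_⟩
  · rw [inv_mul_cancel]
    exact h.adm_one
  · rw [inv_mul_cancel]
    exact ⟨fun k a => ⟨a, rfl⟩, fun k a => ⟨a, rfl⟩⟩

theorem ty_bond {α : MulAut G} {π : Equiv.Perm ι} (hr : h.Ty α π) (i j : ι) (hij : i ≠ j) :
    bond (π i) (π j) = bond i j := by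
  obtain ⟨g, -, hπ⟩ := hr
  exact h.type_bond hπ i j hij

/-- the graph part of an automorphism -/
noncomputable def tyFun (α : MulAut G) : Equiv.Perm ι := Classical.choose (h.ty_exists α)

theorem ty_spec (α : MulAut G) : h.Ty α (h.tyFun α) := Classical.choose_spec (h.ty_exists α)

theorem ty_eq (hE : h.Ext) {α : MulAut G} {π : Equiv.Perm ι} (hr : h.Ty α π) : h.tyFun α = π :=
  h.ty_unique hE (h.ty_spec α) hr

/-- as a homomorphism -/
noncomputable def tyHom (hE : h.Ext) : MulAut G →* Equiv.Perm ι :=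
  MonoidHom.mk' (fun α => h.tyFun α) (fun α β =>
    h.ty_eq hE (h.ty_mul (h.ty_spec α) (h.ty_spec β)))

/-- on the outer automorphism group -/
noncomputable def outTy (hE : h.Ext) : Cfsg.Out G →* Equiv.Perm ι :=
  QuotientGroup.lift (Cfsg.Inn G) (h.tyHom hE) (by
    rintro _ ⟨g, rfl⟩
    exact h.ty_eq hE (h.ty_conj g))

theorem outTy_mk (hE : h.Ext) (α : MulAut G) :
    h.outTy hE (QuotientGroup.mk α) = h.tyFun α := rfl

/-- the field automorphisms -/
noncomputable def fd (hE : h.Ext) (σ : F ≃+* F) : MulAut G := Classical.choose (hE.field σ)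

theorem fd_adm (hE : h.Ext) (σ : F ≃+* F) : h.Adm (h.fd hE σ) :=
  (Classical.choose_spec (hE.field σ)).1

theorem fd_x (hE : h.Ext) (σ : F ≃+* F) (i : ι) (a : F) : h.fd hE σ (x i a) = x i (σ a) :=
  (Classical.choose_spec (hE.field σ)).2 i a

theorem fd_mul (hE : h.Ext) (σ τ : F ≃+* F) : h.fd hE (σ * τ) = h.fd hE σ * h.fd hE τ := by
  apply h.eq_of_adm (h.fd_adm hE _) (h.adm_mul (h.fd_adm hE σ) (h.fd_adm hE τ))
  intro i a
  rw [MulAut.mul_apply, h.fd_x, h.fd_x, h.fd_x]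
  rfl

/-- the diagonal automorphisms -/
noncomputable def dg (hE : h.Ext) (d : ι → Fˣ) : MulAut G := Classical.choose (hE.diag d)

theorem dg_adm (hE : h.Ext) (d : ι → Fˣ) : h.Adm (h.dg hE d) :=
  (Classical.choose_spec (hE.diag d)).1

theorem dg_x (hE : h.Ext) (d : ι → Fˣ) (i : ι) (a : F) : h.dg hE d (x i a) = x i (d i * a) :=
  (Classical.choose_spec (hE.diag d)).2 i a

theorem dg_mul (hE : h.Ext) (d d' : ι → Fˣ) : h.dg hE (d * d') = h.dg hE d * h.dg hE d' := by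
  apply h.eq_of_adm (h.dg_adm hE _) (h.adm_mul (h.dg_adm hE d) (h.dg_adm hE d'))
  intro i a
  rw [MulAut.mul_apply, h.dg_x, h.dg_x, h.dg_x, Pi.mul_apply, Units.val_mul, mul_assoc]

/-- the field automorphisms, as a homomorphism -/
noncomputable def fdHom (hE : h.Ext) : (F ≃+* F) →* MulAut G :=
  MonoidHom.mk' (fun σ => h.fd hE σ) (fun σ τ => h.fd_mul hE σ τ)

/-- the diagonal automorphisms, as a homomorphism -/
noncomputable def dgHom (hE : h.Ext) : (ι → Fˣ) →* MulAut G :=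
  MonoidHom.mk' (fun d => h.dg hE d) (fun d d' => h.dg_mul hE d d')

theorem fdHom_apply (hE : h.Ext) (σ : F ≃+* F) : h.fdHom hE σ = h.fd hE σ := rfl

theorem dgHom_apply (hE : h.Ext) (d : ι → Fˣ) : h.dgHom hE d = h.dg hE d := rfl

theorem fd_type (hE : h.Ext) (σ : F ≃+* F) : h.HasType (h.fd hE σ) id :=
  h.adm_type_of_x (h.fd_adm hE σ) (fun k a => ⟨σ a, h.fd_x hE σ k a⟩)

theorem dg_type (hE : h.Ext) (d : ι → Fˣ) : h.HasType (h.dg hE d) id :=
  h.adm_type_of_x (h.dg_adm hE d) (fun k a => ⟨d k * a, h.dg_x hE d k a⟩)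

omit [Finite F] [Fintype ι] [DecidableEq ι] h in
theorem ex_one (i : ι) : ex p long (1 : Equiv.Perm ι) i = 1 := by
  unfold ex
  rw [if_neg]
  rintro ⟨e1, e2⟩
  rw [Equiv.Perm.one_apply, e1] at e2
  exact Bool.noConfusion e2

/-- the automorphisms with trivial graph part -/
theorem ty_one_iff [CharP F p] (hE : h.Ext) (α : MulAut G) :
    h.Ty α 1 ↔ ∃ (g : G) (d : ι → Fˣ) (σ : F ≃+* F), α = MulAut.conj g * h.dg hE d * h.fd hE σ := by
  constructor
  · rintro ⟨g, hg, hπ⟩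
    obtain ⟨c, σ, hx, -⟩ := h.type_shape hπ
    refine ⟨g, c, σ, ?_⟩
    have e : (MulAut.conj g)⁻¹ * α = h.dg hE c * h.fd hE σ := by
      apply h.eq_of_adm hg (h.adm_mul (h.dg_adm hE c) (h.fd_adm hE σ))
      intro i a
      rw [hx, ex_one, pow_one, MulAut.mul_apply, h.fd_x, h.dg_x]
      rfl
    rw [mul_assoc, ← e]
    group
  · rintro ⟨g, d, σ, rfl⟩
    have e : (MulAut.conj g)⁻¹ * (MulAut.conj g * h.dg hE d * h.fd hE σ)
        = h.dg hE d * h.fd hE σ := by group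
    refine ⟨g, ?_, ?_⟩
    · rw [e]
      exact h.adm_mul (h.dg_adm hE d) (h.fd_adm hE σ)
    · rw [e]
      exact h.type_mul (h.dg_type hE d) (h.fd_type hE σ)

/-- conjugating a diagonal automorphism by an admissible automorphism -/
theorem conj_dg [CharP F p] (hE : h.Ext) {α : MulAut G} (hα : h.Adm α) (d : ι → Fˣ) :
    ∃ d' : ι → Fˣ, α * h.dg hE d * α⁻¹ = h.dg hE d' := by
  obtain ⟨π, hπ⟩ := h.adm_perm hα
  obtain ⟨c, σ, hx, -⟩ := h.type_shape hπ
  have hsurj : ∀ i, Function.Surjective (fun a : F => (c i : F) * σ a ^ ex p long π i) := by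
    intro i
    apply Finite.injective_iff_surjective.1
    intro a b e
    have : α (x i a) = α (x i b) := by
      rw [hx, hx]
      exact congrArg (x (π i)) e
    exact h.x_inj i (α.injective this)
  refine ⟨fun k => Units.map (σ : F →* F) (d (π⁻¹ k)) ^ ex p long π (π⁻¹ k), ?_⟩
  apply h.eq_of_adm (h.adm_mul (h.adm_mul hα (h.dg_adm hE d)) (h.adm_inv hα)) (h.dg_adm hE _)
  intro k u
  obtain ⟨a, ha⟩ := hsurj (π⁻¹ k) u
  have hk : π (π⁻¹ k) = k := perm_apply_inv π k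
  have e1 : α⁻¹ (x k u) = x (π⁻¹ k) a := by
    rw [inv_apply_eq, hx, hk]
    exact congrArg (x k) ha.symm
  rw [MulAut.mul_apply, MulAut.mul_apply, e1, h.dg_x, hx, hk, h.dg_x]
  congr 1
  rw [← ha]
  simp only [Units.val_pow_eq_pow_val, Units.coe_map, MonoidHom.coe_coe, map_mul, mul_pow]
  ring_nf

/-- the classes of the diagonal automorphisms -/
noncomputable def dgOut (hE : h.Ext) : (ι → Fˣ) →* Cfsg.Out G :=
  (QuotientGroup.mk' (Cfsg.Inn G)).comp (h.dgHom hE)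

/-- the classes of the field automorphisms -/
noncomputable def fdOut (hE : h.Ext) : (F ≃+* F) →* Cfsg.Out G :=
  (QuotientGroup.mk' (Cfsg.Inn G)).comp (h.fdHom hE)

theorem dgOut_apply (hE : h.Ext) (d : ι → Fˣ) :
    h.dgOut hE d = QuotientGroup.mk (h.dg hE d) := rfl

theorem fdOut_apply (hE : h.Ext) (σ : F ≃+* F) :
    h.fdOut hE σ = QuotientGroup.mk (h.fd hE σ) := rfl

omit [Finite F] [Finite G] [Fintype ι] [DecidableEq ι] h in
theorem mk_conj (g : G) : (QuotientGroup.mk (MulAut.conj g) : Cfsg.Out G) = 1 :=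
  (QuotientGroup.eq_one_iff _).2 ⟨g, rfl⟩

theorem ds_normal [CharP F p] (hE : h.Ext) : (h.dgOut hE).range.Normal := by
  constructor
  rintro _ ⟨d, rfl⟩ q
  obtain ⟨θ, rfl⟩ := QuotientGroup.mk_surjective q
  obtain ⟨g, hg⟩ := h.exists_adm θ
  obtain ⟨d', hd'⟩ := h.conj_dg hE hg d
  refine ⟨d', ?_⟩
  have e : θ * h.dg hE d * θ⁻¹ = MulAut.conj g * ((MulAut.conj g)⁻¹ * θ * h.dg hE d
      * ((MulAut.conj g)⁻¹ * θ)⁻¹) * (MulAut.conj g)⁻¹ := by group
  have e3 : (QuotientGroup.mk (θ * h.dg hE d * θ⁻¹) : Cfsg.Out G)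
      = QuotientGroup.mk (h.dg hE d') := by
    rw [e, hd']
    show (QuotientGroup.mk (MulAut.conj g) : Cfsg.Out G) * QuotientGroup.mk (h.dg hE d')
      * (QuotientGroup.mk (MulAut.conj g))⁻¹ = _
    rw [mk_conj, one_mul, inv_one, mul_one]
  show (QuotientGroup.mk (h.dg hE d') : Cfsg.Out G) = QuotientGroup.mk (θ * h.dg hE d * θ⁻¹)
  exact e3.symm

theorem ds_comm (hE : h.Ext) (a b : Cfsg.Out G) (ha : a ∈ (h.dgOut hE).range)
    (hb : b ∈ (h.dgOut hE).range) : a * b = b * a := by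
  obtain ⟨d, rfl⟩ := ha
  obtain ⟨d', rfl⟩ := hb
  rw [← map_mul, ← map_mul, mul_comm]

theorem fs_cyclic (hE : h.Ext) (hc : IsCyclic (F ≃+* F)) : IsCyclic ↥(h.fdOut hE).range :=
  isCyclic_of_surjective (h.fdOut hE).rangeRestrict (h.fdOut hE).rangeRestrict_surjective

/-- the kernel of the graph part -/
theorem sup_eq_ker [CharP F p] (hE : h.Ext) :
    (h.dgOut hE).range ⊔ (h.fdOut hE).range = (h.outTy hE).ker := by
  apply le_antisymm
  · apply sup_le
    · rintro _ ⟨d, rfl⟩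
      rw [MonoidHom.mem_ker, h.dgOut_apply, h.outTy_mk]
      exact h.ty_eq hE (h.ty_of_adm (h.dg_adm hE d) (h.dg_type hE d))
    · rintro _ ⟨σ, rfl⟩
      rw [MonoidHom.mem_ker, h.fdOut_apply, h.outTy_mk]
      exact h.ty_eq hE (h.ty_of_adm (h.fd_adm hE σ) (h.fd_type hE σ))
  · intro q hq
    obtain ⟨α, rfl⟩ := QuotientGroup.mk_surjective q
    rw [MonoidHom.mem_ker, h.outTy_mk] at hq
    have hty := h.ty_spec α
    rw [hq] at hty
    obtain ⟨g, d, σ, rfl⟩ := (h.ty_one_iff hE α).1 hty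
    rw [QuotientGroup.mk_mul, QuotientGroup.mk_mul, mk_conj, one_mul]
    exact Subgroup.mul_mem_sup ⟨d, rfl⟩ ⟨σ, rfl⟩

/-- when a diagonal automorphism is inner -/
theorem dgOut_eq_one_iff (hE : h.Ext) (d : ι → Fˣ) : h.dgOut hE d = 1 ↔
    ∃ t, t ∈ Nm U ∧ t ∈ Nm V ∧ ∀ i a, t * x i a * t⁻¹ = x i (d i * a) := by
  rw [h.dgOut_apply, QuotientGroup.eq_one_iff]
  constructor
  · rintro ⟨t, ht⟩
    have hadm : h.Adm (MulAut.conj t) := by
      rw [ht]
      exact h.dg_adm hE d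
    obtain ⟨h1, h2⟩ := h.of_adm_conj hadm
    refine ⟨t, h1, h2, fun i a => ?_⟩
    rw [← MulAut.conj_apply, ht, h.dg_x]
  · rintro ⟨t, h1, h2, ht⟩
    refine ⟨t, ?_⟩
    apply h.eq_of_adm (h.adm_conj h1 h2) (h.dg_adm hE d)
    intro i a
    rw [MulAut.conj_apply, ht, h.dg_x]

theorem fdOut_injective [Nonempty ι] (hE : h.Ext) : Function.Injective (h.fdOut hE) := by
  rw [injective_iff_map_eq_one]
  intro σ hσ
  rw [h.fdOut_apply, QuotientGroup.eq_one_iff] at hσ
  obtain ⟨t, ht⟩ := hσ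
  have hadm : h.Adm (MulAut.conj t) := by
    rw [ht]
    exact h.fd_adm hE σ
  obtain ⟨h1, h2⟩ := h.of_adm_conj hadm
  obtain ⟨i⟩ := ‹Nonempty ι›
  obtain ⟨k, hk⟩ := hE.tor t h1 h2 i
  have key : ∀ a, σ a = k * a := by
    intro a
    have := hk a
    rw [← MulAut.conj_apply, ht, h.fd_x] at this
    exact h.x_inj i this
  have k1 := key 1
  rw [map_one, mul_one] at k1
  apply RingEquiv.ext
  intro a
  rw [key a, ← k1, one_mul]
  rfl

theorem ds_inf_fs [Nonempty ι] (hE : h.Ext) : (h.dgOut hE).range ⊓ (h.fdOut hE).range = ⊥ := by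
  rw [eq_bot_iff]
  rintro q ⟨⟨d, hd⟩, ⟨σ, hσ⟩⟩
  rw [Subgroup.mem_bot]
  have e : (QuotientGroup.mk ((h.dg hE d)⁻¹ * h.fd hE σ) : Cfsg.Out G) = 1 := by
    rw [QuotientGroup.mk_mul, QuotientGroup.mk_inv, ← h.dgOut_apply, ← h.fdOut_apply]
    have h1 : h.dgOut hE d = q := hd
    have h2 : h.fdOut hE σ = q := hσ
    rw [h1, h2, inv_mul_cancel]
  rw [QuotientGroup.eq_one_iff] at e
  obtain ⟨t, ht⟩ := e
  have hadm : h.Adm (MulAut.conj t) := by
    rw [ht]
    exact h.adm_mul (h.adm_inv (h.dg_adm hE d)) (h.fd_adm hE σ)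
  obtain ⟨h1, h2⟩ := h.of_adm_conj hadm
  obtain ⟨i⟩ := ‹Nonempty ι›
  obtain ⟨k, hk⟩ := hE.tor t h1 h2 i
  have key : ∀ a, σ a = d i * (k * a) := by
    intro a
    have := hk a
    rw [← MulAut.conj_apply, ht, MulAut.mul_apply, h.fd_x, inv_apply_eq, h.dg_x] at this
    exact h.x_inj i this
  have k1 := key 1
  rw [map_one, mul_one] at k1
  have hσ1 : σ = 1 := by
    apply RingEquiv.ext
    intro a
    rw [key a, ← mul_assoc, ← k1, one_mul]
    rfl
  rw [← hσ, hσ1, map_one]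

/-- the order of the outer automorphism group -/
theorem card_out [CharP F p] [Nonempty ι] (hE : h.Ext) :
    Nat.card (Cfsg.Out G) =
      (h.dgOut hE).ker.index * Nat.card (F ≃+* F) * Nat.card ↥(h.outTy hE).range := by
  have := h.ds_normal hE
  have h1 : Nat.card ↥(h.outTy hE).ker * (h.outTy hE).ker.index = Nat.card (Cfsg.Out G) :=
    Subgroup.card_mul_index _
  have h2 : (h.outTy hE).ker.index = Nat.card ↥(h.outTy hE).range := Subgroup.index_ker _
  have h3 : Nat.card ↥(h.dgOut hE).range = (h.dgOut hE).ker.index := (Subgroup.index_ker _).symm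
  have h4 : Nat.card ↥(h.fdOut hE).range = Nat.card (F ≃+* F) :=
    (Nat.card_congr (MonoidHom.ofInjective (h.fdOut_injective hE)).toEquiv).symm
  have h5 : (h.dgOut hE).range.relIndex ((h.dgOut hE).range ⊔ (h.fdOut hE).range)
      = Nat.card ↥(h.fdOut hE).range := by
    rw [Subgroup.relIndex_sup_left, ← Subgroup.inf_relIndex_right, h.ds_inf_fs hE,
      Subgroup.relIndex_bot_left]
  have h6 : Nat.card ↥(h.dgOut hE).range *
      (h.dgOut hE).range.relIndex ((h.dgOut hE).range ⊔ (h.fdOut hE).range)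
      = Nat.card ↥((h.dgOut hE).range ⊔ (h.fdOut hE).range) := by
    have := Subgroup.relIndex_mul_relIndex ⊥ (h.dgOut hE).range
      ((h.dgOut hE).range ⊔ (h.fdOut hE).range) bot_le le_sup_left
    rwa [Subgroup.relIndex_bot_left, Subgroup.relIndex_bot_left] at this
  rw [← h1, ← h.sup_eq_ker hE, ← h6, h5, h3, h4, h.sup_eq_ker hE, h2]

/-- realised graph parts -/
theorem mem_range_outTy (hE : h.Ext) {α : MulAut G} {π : Equiv.Perm ι} (hα : h.Adm α)
    (hπ : h.HasType α π) : π ∈ (h.outTy hE).range :=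
  ⟨QuotientGroup.mk α, by rw [h.outTy_mk]; exact h.ty_eq hE (h.ty_of_adm hα hπ)⟩

theorem range_outTy_bond (hE : h.Ext) {π : Equiv.Perm ι} (hπ : π ∈ (h.outTy hE).range) (i j : ι)
    (hij : i ≠ j) : bond (π i) (π j) = bond i j := by
  obtain ⟨q, rfl⟩ := hπ
  obtain ⟨α, rfl⟩ := QuotientGroup.mk_surjective q
  rw [h.outTy_mk]
  exact h.ty_bond (h.ty_spec α) i j hij

end OkD

end Cfsg.Agent.Lib.Helper27.DynOut
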