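import Mathlib
import Cfsg.Prelude.Def_KGroupFacts
import Cfsg.Agent.Lib.Helper27.DynOut2

/-!
# Outer automorphisms of a group with a root datum (abstract part, III): the linear part

`OkD.linAut`: the admissible automorphisms `x i a ↦ x (π i) (c i * a)` (no field part), and
`OkD.linOut`, their classes in `Out G`. When all roots have the same length, `Out G` is the
product of `linOut` and of the classes of the field automorphisms; the two meet trivially,
and commute as soon as the diagonal automorphisms `σ(e)/e` are inner.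
-/

set_option autoImplicit false
set_option linter.unusedSectionVars false

namespace Cfsg.Agent.Lib.Helper27.DynOut

open scoped Pointwise
open Cfsg.Agent.Lib.Helper27.PslnOut

variable {F : Type*} [Field F] [Finite F] {G : Type*} [Group G] [Finite G]
  {ι : Type*} [Fintype ι] [DecidableEq ι]
variable {p : ℕ} [Fact p.Prime] {bond : ι → ι → ℕ} {long : ι → Bool}
  {x y : ι → F → G} {U V : Subgroup G} {Q : ι → Subgroup G}

namespace OkD

/-- the admissible automorphisms acting linearly on the simple root groups -/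
def linAut (_h : OkD p bond long x y U V Q) : Subgroup (MulAut G) where
  carrier := {α | _h.Adm α ∧
    ∃ (π : Equiv.Perm ι) (c : ι → Fˣ), ∀ i a, α (x i a) = x (π i) (c i * a)}
  one_mem' := ⟨_h.adm_one, 1, fun _ => 1, fun i a => by
    rw [MulAut.one_apply, Equiv.Perm.one_apply, Units.val_one, one_mul]⟩
  mul_mem' := by
    rintro α β ⟨hα, π, c, hc⟩ ⟨hβ, π', c', hc'⟩
    refine ⟨_h.adm_mul hα hβ, π * π', fun i => c (π' i) * c' i, fun i a => ?_⟩
    rw [MulAut.mul_apply, hc', hc, Equiv.Perm.mul_apply, Units.val_mul, mul_assoc]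
  inv_mem' := by
    rintro α ⟨hα, π, c, hc⟩
    refine ⟨_h.adm_inv hα, π⁻¹, fun i => (c (π⁻¹ i))⁻¹, fun i a => ?_⟩
    rw [inv_apply_eq, hc, perm_apply_inv, ← mul_assoc, ← Units.val_mul, mul_inv_cancel,
      Units.val_one, one_mul]

/-- the classes of the linear automorphisms -/
def linOut (_h : OkD p bond long x y U V Q) : Subgroup (Cfsg.Out G) :=
  _h.linAut.map (QuotientGroup.mk' (Cfsg.Inn G))

variable (h : OkD p bond long x y U V Q)
include h

theorem mem_linAut {α : MulAut G} : α ∈ h.linAut ↔ h.Adm α ∧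
    ∃ (π : Equiv.Perm ι) (c : ι → Fˣ), ∀ i a, α (x i a) = x (π i) (c i * a) := Iff.rfl

theorem linAut_type {α : MulAut G} {π : Equiv.Perm ι} {c : ι → Fˣ} (hα : h.Adm α)
    (hc : ∀ i a, α (x i a) = x (π i) (c i * a)) : h.HasType α π :=
  h.adm_type_of_x hα (fun k a => ⟨_, hc k a⟩)

theorem linAut_outTy (hE : h.Ext) {α : MulAut G} {π : Equiv.Perm ι} {c : ι → Fˣ} (hα : h.Adm α)
    (hc : ∀ i a, α (x i a) = x (π i) (c i * a)) :
    h.outTy hE (QuotientGroup.mk α) = π := by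
  rw [h.outTy_mk]
  exact h.ty_eq hE (h.ty_of_adm hα (h.linAut_type hα hc))

theorem ex_of_long (hlong : ∀ i j, long i = long j) (π : ι → ι) (i : ι) : ex p long π i = 1 := by
  unfold ex
  rw [if_neg]
  rintro ⟨e1, e2⟩
  rw [hlong (π i) i, e1] at e2
  exact Bool.noConfusion e2

theorem fd_inv_x (hE : h.Ext) (σ : F ≃+* F) (i : ι) (a : F) :
    (h.fd hE σ)⁻¹ (x i a) = x i (σ.symm a) := by
  rw [inv_apply_eq, h.fd_x, RingEquiv.apply_symm_apply]

/-- every class is a linear class times a field class -/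
theorem exists_lin [CharP F p] (hE : h.Ext) (hlong : ∀ i j, long i = long j) (α : MulAut G) :
    ∃ β ∈ h.linAut, ∃ σ : F ≃+* F,
      (QuotientGroup.mk α : Cfsg.Out G) = QuotientGroup.mk β * h.fdOut hE σ := by
  obtain ⟨g, π, c, σ, hadm, -, hx, -⟩ := h.shape α
  refine ⟨(MulAut.conj g)⁻¹ * α * (h.fd hE σ)⁻¹,
    ⟨h.adm_mul hadm (h.adm_inv (h.fd_adm hE σ)), π, c, fun i a => ?_⟩, σ, ?_⟩
  · rw [MulAut.mul_apply, h.fd_inv_x hE, hx, h.ex_of_long hlong, pow_one,
      RingEquiv.apply_symm_apply]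
  · rw [h.fdOut_apply, ← QuotientGroup.mk_mul]
    have e : (MulAut.conj g)⁻¹ * α * (h.fd hE σ)⁻¹ * h.fd hE σ = (MulAut.conj g)⁻¹ * α := by
      group
    rw [e, QuotientGroup.mk_mul, QuotientGroup.mk_inv, mk_conj, inv_one, one_mul]

/-- a linear class which is a field class is trivial -/
theorem lin_inf_fs [Nonempty ι] (hE : h.Ext) {β : MulAut G} (hβ : β ∈ h.linAut) (σ : F ≃+* F)
    (e : (QuotientGroup.mk β : Cfsg.Out G) = h.fdOut hE σ) : σ = 1 := by
  obtain ⟨hadmβ, π, c, hc⟩ := hβ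
  have e1 : (QuotientGroup.mk ((h.fd hE σ)⁻¹ * β) : Cfsg.Out G) = 1 := by
    rw [QuotientGroup.mk_mul, QuotientGroup.mk_inv, ← h.fdOut_apply, e, inv_mul_cancel]
  rw [QuotientGroup.eq_one_iff] at e1
  obtain ⟨t, ht⟩ := e1
  have hadm : h.Adm (MulAut.conj t) := by
    rw [ht]
    exact h.adm_mul (h.adm_inv (h.fd_adm hE σ)) hadmβ
  obtain ⟨h1, h2⟩ := h.of_adm_conj hadm
  obtain ⟨i⟩ := ‹Nonempty ι›
  obtain ⟨k, hk⟩ := hE.tor t h1 h2 i
  have key : ∀ a : F, a ≠ 0 → (k : F) * a = σ.symm (c i * a) := by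
    intro a ha
    have h3 := hk a
    rw [← MulAut.conj_apply, ht, MulAut.mul_apply, hc, inv_apply_eq, h.fd_x] at h3
    have h4 := (h.x_disj _ _ _ _ h3 (mul_ne_zero (Units.ne_zero _) ha)).2
    rw [h4, RingEquiv.symm_apply_apply]
  have k1 : (k : F) = σ.symm (c i) := by
    have := key 1 one_ne_zero
    rwa [mul_one, mul_one] at this
  apply RingEquiv.ext
  intro a
  show σ a = a
  by_cases ha : a = 0
  · rw [ha, map_zero]
  · have h5 := key a ha
    rw [map_mul, ← k1] at h5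
    have h6 : a = σ.symm a := mul_left_cancel₀ (Units.ne_zero k) h5
    have h7 := congrArg σ h6
    rw [RingEquiv.apply_symm_apply] at h7
    exact h7

/-- conjugating a linear automorphism by a field automorphism -/
theorem fd_conj_lin (hE : h.Ext) {β : MulAut G} (hβ : β ∈ h.linAut) (σ : F ≃+* F) :
    ∃ e : ι → Fˣ, h.fd hE σ * β * (h.fd hE σ)⁻¹ =
      h.dg hE (fun j => Units.map (σ : F →* F) (e j) / e j) * β := by
  obtain ⟨hadm, π, c, hc⟩ := hβ
  refine ⟨fun j => c (π⁻¹ j), ?_⟩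
  apply h.eq_of_adm (h.adm_mul (h.adm_mul (h.fd_adm hE σ) hadm) (h.adm_inv (h.fd_adm hE σ)))
    (h.adm_mul (h.dg_adm hE _) hadm)
  intro i a
  rw [MulAut.mul_apply, MulAut.mul_apply, h.fd_inv_x hE, hc, h.fd_x, MulAut.mul_apply, hc,
    h.dg_x]
  congr 1
  simp only [perm_inv_apply, map_mul, RingEquiv.apply_symm_apply, Units.val_div_eq_div_val,
    Units.coe_map, MonoidHom.coe_coe]
  field_simp

/-- the field classes commute with the linear classes when the diagonal automorphisms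
`σ(e)/e` are inner -/
theorem fs_comm_lin (hE : h.Ext)
    (hsq : ∀ (e : ι → Fˣ) (σ : F ≃+* F),
      h.dgOut hE (fun j => Units.map (σ : F →* F) (e j) / e j) = 1)
    {β : MulAut G} (hβ : β ∈ h.linAut) (σ : F ≃+* F) :
    (QuotientGroup.mk β : Cfsg.Out G) * h.fdOut hE σ = h.fdOut hE σ * QuotientGroup.mk β := by
  obtain ⟨e, he⟩ := h.fd_conj_lin hE hβ σ
  have h1 : (QuotientGroup.mk (h.fd hE σ * β * (h.fd hE σ)⁻¹) : Cfsg.Out G) =
      QuotientGroup.mk β := by
    rw [he, QuotientGroup.mk_mul, ← h.dgOut_apply, hsq, one_mul]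
  rw [QuotientGroup.mk_mul, QuotientGroup.mk_mul, QuotientGroup.mk_inv, ← h.fdOut_apply] at h1
  exact (mul_inv_eq_iff_eq_mul.1 h1).symm

/-- a linear class with trivial graph part is diagonal -/
theorem lin_ker (hE : h.Ext) {β : MulAut G} (hβ : β ∈ h.linAut)
    (hk : h.outTy hE (QuotientGroup.mk β) = 1) :
    (QuotientGroup.mk β : Cfsg.Out G) ∈ (h.dgOut hE).range := by
  obtain ⟨hadm, π, c, hc⟩ := hβ
  have hπ : π = 1 := by rw [← h.linAut_outTy hE hadm hc, hk]
  refine ⟨c, ?_⟩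
  rw [h.dgOut_apply]
  congr 1
  apply h.eq_of_adm (h.dg_adm hE c) hadm
  intro i a
  rw [h.dg_x, hc, hπ, Equiv.Perm.one_apply]

/-- conjugating a diagonal automorphism by a linear one -/
theorem lin_conj_dg (hE : h.Ext) {β : MulAut G} {π : Equiv.Perm ι} {c : ι → Fˣ}
    (hadm : h.Adm β) (hc : ∀ i a, β (x i a) = x (π i) (c i * a)) (d : ι → Fˣ) :
    β * h.dg hE d * β⁻¹ = h.dg hE (fun k => d (π⁻¹ k)) := by
  apply h.eq_of_adm (h.adm_mul (h.adm_mul hadm (h.dg_adm hE d)) (h.adm_inv hadm))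
    (h.dg_adm hE _)
  intro k u
  have e1 : β⁻¹ (x k u) = x (π⁻¹ k) (((c (π⁻¹ k))⁻¹ : Fˣ) * u) := by
    rw [inv_apply_eq, hc, perm_apply_inv, ← mul_assoc, ← Units.val_mul, mul_inv_cancel,
      Units.val_one, one_mul]
  rw [MulAut.mul_apply, MulAut.mul_apply, e1, h.dg_x, hc, perm_apply_inv, h.dg_x]
  congr 1
  rw [Units.val_inv_eq_inv_val]
  field_simp

theorem mem_linOut {q : Cfsg.Out G} :
    q ∈ h.linOut ↔ ∃ β ∈ h.linAut, (QuotientGroup.mk β : Cfsg.Out G) = q := by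
  unfold linOut
  rw [Subgroup.mem_map]
  rfl

theorem linOut_comm (hE : h.Ext)
    (hsq : ∀ (e : ι → Fˣ) (σ : F ≃+* F),
      h.dgOut hE (fun j => Units.map (σ : F →* F) (e j) / e j) = 1) :
    ∀ t ∈ h.linOut, ∀ c ∈ (h.fdOut hE).range, t * c = c * t := by
  intro t ht c hc
  obtain ⟨β, hβ, rfl⟩ := h.mem_linOut.1 ht
  obtain ⟨σ, rfl⟩ := hc
  exact h.fs_comm_lin hE hsq hβ σ

theorem linOut_disj [Nonempty ι] (hE : h.Ext) :
    ∀ q : Cfsg.Out G, q ∈ h.linOut → q ∈ (h.fdOut hE).range → q = 1 := by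
  intro q hq hc
  obtain ⟨β, hβ, rfl⟩ := h.mem_linOut.1 hq
  obtain ⟨σ, hσ⟩ := hc
  have := h.lin_inf_fs hE hβ σ hσ.symm
  rw [← hσ, this, map_one]

theorem card_le_lin [CharP F p] (hE : h.Ext) (hlong : ∀ i j, long i = long j) :
    Nat.card (Cfsg.Out G) ≤ Nat.card ↥h.linOut * Nat.card ↥(h.fdOut hE).range := by
  rw [← Nat.card_prod]
  apply Nat.card_le_card_of_surjective
    (fun z : ↥h.linOut × ↥(h.fdOut hE).range => (z.1 : Cfsg.Out G) * (z.2 : Cfsg.Out G))
  intro q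
  obtain ⟨α, rfl⟩ := QuotientGroup.mk_surjective q
  obtain ⟨β, hβ, σ, e⟩ := h.exists_lin hE hlong α
  exact ⟨(⟨QuotientGroup.mk β, h.mem_linOut.2 ⟨β, hβ, rfl⟩⟩, ⟨h.fdOut hE σ, ⟨σ, rfl⟩⟩), e.symm⟩

theorem ds_le_linOut (hE : h.Ext) : (h.dgOut hE).range ≤ h.linOut := by
  rintro _ ⟨d, rfl⟩
  rw [h.dgOut_apply]
  exact h.mem_linOut.2 ⟨h.dg hE d, ⟨h.dg_adm hE d, 1, d, fun i a => by
    rw [h.dg_x, Equiv.Perm.one_apply]⟩, rfl⟩

theorem linOut_inf_ker (hE : h.Ext) {q : Cfsg.Out G} (hq : q ∈ h.linOut)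
    (hk : h.outTy hE q = 1) : q ∈ (h.dgOut hE).range := by
  obtain ⟨β, hβ, rfl⟩ := h.mem_linOut.1 hq
  exact h.lin_ker hE hβ hk

theorem fs_le_ker [CharP F p] (hE : h.Ext) {q : Cfsg.Out G} (hq : q ∈ (h.fdOut hE).range) :
    h.outTy hE q = 1 := by
  have : q ∈ (h.outTy hE).ker := by
    rw [← h.sup_eq_ker hE]
    exact Subgroup.mem_sup_right hq
  exact this

theorem ds_le_ker [CharP F p] (hE : h.Ext) {q : Cfsg.Out G} (hq : q ∈ (h.dgOut hE).range) :
    h.outTy hE q = 1 := by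
  have : q ∈ (h.outTy hE).ker := by
    rw [← h.sup_eq_ker hE]
    exact Subgroup.mem_sup_left hq
  exact this

/-- the graph parts are realised by linear classes -/
theorem exists_lin_outTy [CharP F p] (hE : h.Ext) (hlong : ∀ i j, long i = long j)
    {π : Equiv.Perm ι} (hπ : π ∈ (h.outTy hE).range) : ∃ t ∈ h.linOut, h.outTy hE t = π := by
  obtain ⟨q, rfl⟩ := hπ
  obtain ⟨α, rfl⟩ := QuotientGroup.mk_surjective q
  obtain ⟨β, hβ, σ, e⟩ := h.exists_lin hE hlong α
  refine ⟨QuotientGroup.mk β, h.mem_linOut.2 ⟨β, hβ, rfl⟩, ?_⟩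
  rw [e, map_mul, h.fs_le_ker hE ⟨σ, rfl⟩, mul_one]

/-- the order of the group of linear classes -/
theorem card_linOut [CharP F p] (hE : h.Ext) (hlong : ∀ i j, long i = long j) :
    Nat.card ↥h.linOut = (h.dgOut hE).ker.index * Nat.card ↥(h.outTy hE).range := by
  let f : ↥h.linOut →* Equiv.Perm ι := (h.outTy hE).comp h.linOut.subtype
  have h1 : Nat.card ↥f.ker * f.ker.index = Nat.card ↥h.linOut := Subgroup.card_mul_index _
  have h2 : f.ker.index = Nat.card ↥f.range := Subgroup.index_ker _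
  have h3 : f.range = (h.outTy hE).range := by
    ext π
    constructor
    · rintro ⟨t, rfl⟩
      exact ⟨t.1, rfl⟩
    · intro hπ
      obtain ⟨t, ht, e⟩ := h.exists_lin_outTy hE hlong hπ
      exact ⟨⟨t, ht⟩, e⟩
  have h4 : f.ker = ((h.dgOut hE).range).subgroupOf h.linOut := by
    ext t
    rw [MonoidHom.mem_ker, Subgroup.mem_subgroupOf]
    constructor
    · intro e
      exact h.linOut_inf_ker hE t.2 e
    · intro e
      exact h.ds_le_ker hE e
  have h5 : Nat.card ↥(((h.dgOut hE).range).subgroupOf h.linOut) = Nat.card ↥(h.dgOut hE).range :=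
    Nat.card_congr (Subgroup.subgroupOfEquivOfLe (h.ds_le_linOut hE)).toEquiv
  have h6 : Nat.card ↥(h.dgOut hE).range = (h.dgOut hE).ker.index := (Subgroup.index_ker _).symm
  rw [← h1, h2, h3, h4, h5, h6]

end OkD

end Cfsg.Agent.Lib.Helper27.DynOut
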