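import Cfsg.Agent.Lib.Helper27.ChevDynD4
import Cfsg.Agent.Lib.Helper27.DynOut3
import Cfsg.Agent.Lib.Lead.S4Rec

/-!
# The outer automorphism group of `D₄(q)`

`Out D₄(q) ≅ S₃ × C_f` for `q = 2 ^ f` and `Out D₄(q) ≅ S₄ × C_f` for `q = p ^ f`, `p` odd.
-/

set_option autoImplicit false

namespace Cfsg.Agent.Lib.Helper27.ChevDynD4

open Cfsg.Lie Cfsg.Agent.Lib.Helper27.PslnOut Cfsg.Agent.Lib.Helper27.DynOut
  Cfsg.Agent.Lib.Helper27.ChevDyn Cfsg.Agent.Lib.Helper27.ChevDynI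
  Cfsg.Agent.Lib.Helper27.ChevDynW Cfsg.Agent.Lib.Helper27.ChevDynExt
  Cfsg.Agent.Lib.Helper27.ChevDynStr

variable {F : Type*} [Field F]

theorem cart_iff {C : Type*} [CommGroup C] (d s : Fin 4 → C) :
    (∀ i : Fin 4, d i = ∏ j : Fin 4, s j ^ chevD4.cartan j (chevD4.simple i)) ↔
      d = cartHom C s := by
  have hval : ∀ i : Fin 4, ∏ j : Fin 4, s j ^ chevD4.cartan j (chevD4.simple i) = cartHom C s i := by
    intro i
    rw [Fin.prod_univ_four, cartan_D4 i 0, cartan_D4 i 1, cartan_D4 i 2, cartan_D4 i 3,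
      cartHom_apply]
    fin_cases i <;> simp [zpow_ofNat]
  constructor
  · intro h
    funext i
    rw [h i, hval i]
  · intro h i
    rw [h, hval i]

/-- the squares are in the image of the Cartan map -/
theorem sq_mem (u : Fin 4 → Fˣ) :
    cartHom Fˣ ![u 0 ^ 2 * u 1 ^ 2 * u 2 * u 3, u 0 ^ 2 * u 1 ^ 4 * u 2 ^ 2 * u 3 ^ 2,
      u 0 * u 1 ^ 2 * u 2 ^ 2 * u 3, u 0 * u 1 ^ 2 * u 2 * u 3 ^ 2] = fun i => u i * u i := by
  funext i
  rw [cartHom_apply]
  fin_cases i <;> apply Units.ext <;> simp <;> field_simp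

/-- the products of two outer coordinates of an element of the image are squares -/
theorem cart_outer_sq (s : Fin 4 → Fˣ) (a b : Fin 4) (ha : a ≠ 1) (hb : b ≠ 1) (hab : a ≠ b) :
    IsSquare (cartHom Fˣ s a * cartHom Fˣ s b) := by
  refine ⟨s a * s b * (s 1)⁻¹, ?_⟩
  rw [cartHom_apply]
  fin_cases a <;> fin_cases b <;>
    first
    | exact absurd rfl ha
    | exact absurd rfl hb
    | exact absurd rfl hab
    | (apply Units.ext; simp; field_simp)

theorem outer_third : ∀ i j : Fin 4, i ≠ 1 → j ≠ 1 → i ≠ j →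
    ∃ k : Fin 4, k ≠ 1 ∧ k ≠ i ∧ k ≠ j := by decide

/-- `σ(e)/e` is a square -/
theorem frob_div_sq [Fintype F] (σ : F ≃+* F) (e : Fˣ) :
    IsSquare (Units.map (σ : F →* F) e / e) := by
  by_cases hF : ringChar F = 2
  · obtain ⟨b, hb⟩ := FiniteField.isSquare_of_char_two hF
      (((Units.map (σ : F →* F) e / e : Fˣ)) : F)
    have hb0 : b ≠ 0 := by
      rintro rfl
      rw [mul_zero] at hb
      exact Units.ne_zero _ hb
    exact ⟨Units.mk0 b hb0, Units.ext hb⟩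
  · rw [FiniteField.unit_isSquare_iff hF, div_pow, ← map_pow]
    have hw : Units.map (σ : F →* F) (e ^ (Fintype.card F / 2)) = e ^ (Fintype.card F / 2) := by
      apply Units.ext
      rw [Units.coe_map, Units.val_pow_eq_pow_val]
      rcases FiniteField.pow_dichotomy hF (Units.ne_zero e) with h1 | h1
      · rw [h1]
        exact map_one σ
      · rw [h1]
        show σ (-1) = -1
        rw [map_neg, map_one]
    rw [hw, div_self']

theorem long_D4 : ∀ i j : Fin chevD4.rank, longD chevD4 i = longD chevD4 j := by decide +kernel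

/-- the diagonal automorphisms `σ(e)/e` are inner -/
theorem hsq_D4 [Fintype F] (p : ℕ) [Fact p.Prime] [CharP F p] (e : Fin chevD4.rank → Fˣ)
    (σ : F ≃+* F) :
    (okD (F := F) chevD4 hD4 p).dgOut (extD chevD4 hD4 p)
      (fun j => Units.map (σ : F →* F) (e j) / e j) = 1 := by
  have hmem := (dgOut_ker_iff chevD4 hD4 p
    (fun j => Units.map (σ : F →* F) (e j) / e j)).2
  apply hmem
  choose u hu using fun j : Fin 4 => frob_div_sq σ (e j)
  refine ⟨![u 0 ^ 2 * u 1 ^ 2 * u 2 * u 3, u 0 ^ 2 * u 1 ^ 4 * u 2 ^ 2 * u 3 ^ 2,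
      u 0 * u 1 ^ 2 * u 2 ^ 2 * u 3, u 0 * u 1 ^ 2 * u 2 * u 3 ^ 2], ?_⟩
  apply (cart_iff (C := Fˣ) _ _).2
  rw [sq_mem]
  funext j
  exact hu j

/-- a nontrivial symmetry of the diagram moves a diagonal class (odd characteristic) -/
theorem moved_D4 [Fintype F] (p : ℕ) [Fact p.Prime] [CharP F p] (hp : ringChar F ≠ 2)
    (π : Equiv.Perm (Fin 4)) (h1 : π 1 = 1) (hπ : π ≠ 1) :
    ∃ d : Fin 4 → Fˣ, (okD (F := F) chevD4 hD4 p).dgOut (extD chevD4 hD4 p)
      (fun k => d (π⁻¹ k) / d k) ≠ 1 := by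
  obtain ⟨g, hg⟩ := FiniteField.exists_nonsquare hp
  have hg0 : g ≠ 0 := by
    rintro rfl
    exact hg ⟨0, (mul_zero 0).symm⟩
  have hgu : ¬ IsSquare (Units.mk0 g hg0) := by
    rintro ⟨r, hr⟩
    exact hg ⟨(r : F), by rw [← Units.val_mul, ← hr, Units.val_mk0]⟩
  obtain ⟨i, hi⟩ : ∃ i, π i ≠ i := by
    by_contra hcon
    apply hπ
    apply Equiv.ext
    intro j
    by_contra hj
    exact hcon ⟨j, hj⟩
  have hi1 : i ≠ 1 := by
    rintro rfl
    exact hi h1
  have hj1 : π i ≠ 1 := by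
    intro hj
    rw [← h1] at hj
    exact hi1 (π.injective hj)
  obtain ⟨k, hk1, hki, hkj⟩ := outer_third i (π i) hi1 hj1 (Ne.symm hi)
  refine ⟨Function.update 1 i (Units.mk0 g hg0), ?_⟩
  intro hone
  have hker := (dgOut_ker_iff chevD4 hD4 p _).1 (MonoidHom.mem_ker.2 hone)
  obtain ⟨s, hs⟩ := hker
  have hs' := (cart_iff (C := Fˣ) _ s).1 hs
  have hsq := cart_outer_sq s i k hi1 hk1 (Ne.symm hki)
  rw [← hs'] at hsq
  have e1 : (π⁻¹ i) ≠ i := by
    intro h2
    apply hi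
    have := congrArg π h2
    rw [perm_apply_inv] at this
    exact this.symm
  have e2 : (π⁻¹ k) ≠ i := by
    intro h2
    apply hkj
    have := congrArg π h2
    rw [perm_apply_inv] at this
    exact this
  simp only [Function.update_of_ne e1, Function.update_of_ne e2, Function.update_of_ne hki,
    Function.update_self, Pi.one_apply, div_one, one_div, mul_one] at hsq
  obtain ⟨r, hr⟩ := hsq
  apply hgu
  refine ⟨r⁻¹, ?_⟩
  rw [← mul_inv, ← hr, inv_inv]

/-! ### The structure of `Out D₄(q)` -/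

section final

variable [Fintype F] (p f : ℕ) [Fact p.Prime] [CharP F p]

omit [Fact p.Prime] [CharP F p] in
theorem card_units_D4 (hF : Fintype.card F = p ^ f) : Nat.card Fˣ = p ^ f - 1 := by
  rw [Nat.card_units, Nat.card_eq_fintype_card, hF]

/-- the order of the linear part of `Out D₄(q)` -/
theorem card_lin_D4 (hF : Fintype.card F = p ^ f) :
    Nat.card ↥(okD (F := F) chevD4 hD4 p).linOut = Nat.gcd 2 (p ^ f - 1) ^ 2 * 6 := by
  have : Nonempty (Fin chevD4.rank) := ⟨⟨0, by decide⟩⟩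
  rw [(okD (F := F) chevD4 hD4 p).card_linOut (extD chevD4 hD4 p) long_D4, range_D4 p]
  have h1 : ((okD (F := F) chevD4 hD4 p).dgOut (extD chevD4 hD4 p)).ker.index =
      Nat.gcd 2 (Nat.card Fˣ) ^ 2 :=
    index_D4 (C := Fˣ) _ (dgOut_ker_iff chevD4 hD4 p)
  rw [h1, card_units_D4 p f hF]

/-- `Out D₄(q)` is the direct product of its linear part and of a cyclic group of order `f` -/
theorem out_prod_D4 (hF : Fintype.card F = p ^ f) :
    Nonempty (Cfsg.Out ↥(chevD4.group F) ≃*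
      ↥(okD (F := F) chevD4 hD4 p).linOut × Multiplicative (ZMod f)) := by
  have : Nonempty (Fin chevD4.rank) := ⟨⟨0, by decide⟩⟩
  obtain ⟨e1⟩ := Cfsg.Agent.Lib.Lead.S4Rec.nonempty_mulEquiv_prod_of_commute
    (okD (F := F) chevD4 hD4 p).linOut
    ((okD (F := F) chevD4 hD4 p).fdOut (extD chevD4 hD4 p)).range
    ((okD (F := F) chevD4 hD4 p).linOut_comm (extD chevD4 hD4 p) (hsq_D4 p))
    ((okD (F := F) chevD4 hD4 p).linOut_disj (extD chevD4 hD4 p))
    ((okD (F := F) chevD4 hD4 p).card_le_lin (extD chevD4 hD4 p) long_D4)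
  have e2 : (F ≃+* F) ≃* ↥((okD (F := F) chevD4 hD4 p).fdOut (extD chevD4 hD4 p)).range :=
    MonoidHom.ofInjective ((okD (F := F) chevD4 hD4 p).fdOut_injective (extD chevD4 hD4 p))
  obtain ⟨hcyc, hcard⟩ := PslOutInst.ringAut_cyclic hF
  have e3 : (F ≃+* F) ≃* Multiplicative (ZMod f) := by
    rw [← hcard]
    exact (zmodCyclicMulEquiv hcyc).symm
  exact ⟨e1.trans (MulEquiv.prodCongr (MulEquiv.refl _) (e2.symm.trans e3))⟩

/-- T2: `Out D₄(2 ^ f) ≅ S₃ × C_f` -/
theorem out_D4_two (hF : Fintype.card F = p ^ f) (hp : p = 2) :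
    Nonempty (Cfsg.Out ↥(chevD4.group F) ≃* Equiv.Perm (Fin 3) × Multiplicative (ZMod f)) := by
  have : Nonempty (Fin chevD4.rank) := ⟨⟨0, by decide⟩⟩
  obtain ⟨e1⟩ := out_prod_D4 (F := F) p f hF
  have hf : f ≠ 0 := by
    rintro rfl
    have h1 := Fintype.one_lt_card (α := F)
    rw [hF, pow_zero] at h1
    exact lt_irrefl 1 h1
  have hcard : Nat.card ↥(okD (F := F) chevD4 hD4 p).linOut = 6 := by
    rw [card_lin_D4 (F := F) p f hF, hp]
    have h2 : Nat.gcd 2 (2 ^ f - 1) = 1 := by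
      have hodd : Odd (2 ^ f - 1) := by
        apply Nat.Even.sub_odd (Nat.one_le_two_pow) ((Nat.even_pow' hf).2 even_two) odd_one
      exact (Nat.coprime_two_left.2 hodd)
    rw [h2]
    norm_num
  obtain ⟨a, ha, ea⟩ := (okD (F := F) chevD4 hD4 p).exists_lin_outTy (extD chevD4 hD4 p)
    long_D4 (sD4_mem p)
  obtain ⟨b, hb, eb⟩ := (okD (F := F) chevD4 hD4 p).exists_lin_outTy (extD chevD4 hD4 p)
    long_D4 (tauD4_mem p)
  have hnc : ∃ a b : ↥(okD (F := F) chevD4 hD4 p).linOut, a * b ≠ b * a := by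
    refine ⟨⟨a, ha⟩, ⟨b, hb⟩, ?_⟩
    intro e
    have e' : a * b = b * a := congrArg Subtype.val e
    have e'' := congrArg ((okD (F := F) chevD4 hD4 p).outTy (extD chevD4 hD4 p)) e'
    rw [map_mul, map_mul, ea, eb] at e''
    revert e''
    decide
  obtain ⟨e2⟩ := Cfsg.Agent.Lib.Lead.S4Rec.nonempty_mulEquiv_perm_fin_three hcard hnc
  exact ⟨e1.trans (MulEquiv.prodCongr e2 (MulEquiv.refl _))⟩

/-- T3: `Out D₄(p ^ f) ≅ S₄ × C_f` for odd `p` -/
theorem out_D4_odd (hF : Fintype.card F = p ^ f) (hp : p ≠ 2) :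
    Nonempty (Cfsg.Out ↥(chevD4.group F) ≃* Equiv.Perm (Fin 4) × Multiplicative (ZMod f)) := by
  have : Nonempty (Fin chevD4.rank) := ⟨⟨0, by decide⟩⟩
  obtain ⟨e1⟩ := out_prod_D4 (F := F) p f hF
  have hchar : ringChar F ≠ 2 := by
    rw [ringChar.eq F p]
    exact hp
  have hgcd : Nat.gcd 2 (p ^ f - 1) = 2 := by
    have hodd : Odd p := (Fact.out : p.Prime).odd_of_ne_two hp
    have h1 : Odd (p ^ f) := hodd.pow
    have h2 : Even (p ^ f - 1) := Nat.Odd.sub_odd h1 odd_one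
    exact Nat.gcd_eq_left (even_iff_two_dvd.1 h2)
  have hcard : Nat.card ↥(okD (F := F) chevD4 hD4 p).linOut = 24 := by
    rw [card_lin_D4 (F := F) p f hF, hgcd]
    norm_num
  have hn : (((okD (F := F) chevD4 hD4 p).dgOut (extD chevD4 hD4 p)).range).Normal :=
    (okD (F := F) chevD4 hD4 p).ds_normal (extD chevD4 hD4 p)
  have hVn : ((((okD (F := F) chevD4 hD4 p).dgOut (extD chevD4 hD4 p)).range).subgroupOf
      (okD (F := F) chevD4 hD4 p).linOut).Normal := inferInstance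
  have hV : Nat.card ↥((((okD (F := F) chevD4 hD4 p).dgOut (extD chevD4 hD4 p)).range).subgroupOf
      (okD (F := F) chevD4 hD4 p).linOut) = 4 := by
    have h5 : Nat.card ↥((((okD (F := F) chevD4 hD4 p).dgOut (extD chevD4 hD4 p)).range).subgroupOf
        (okD (F := F) chevD4 hD4 p).linOut) =
        Nat.card ↥((okD (F := F) chevD4 hD4 p).dgOut (extD chevD4 hD4 p)).range :=
      Nat.card_congr (Subgroup.subgroupOfEquivOfLe
        ((okD (F := F) chevD4 hD4 p).ds_le_linOut (extD chevD4 hD4 p))).toEquiv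
    have h1 : ((okD (F := F) chevD4 hD4 p).dgOut (extD chevD4 hD4 p)).ker.index =
        Nat.gcd 2 (Nat.card Fˣ) ^ 2 :=
      index_D4 (C := Fˣ) _ (dgOut_ker_iff chevD4 hD4 p)
    rw [h5, ← Subgroup.index_ker, h1, card_units_D4 p f hF, hgcd]
    norm_num
  have hC : Subgroup.centralizer
      (((((okD (F := F) chevD4 hD4 p).dgOut (extD chevD4 hD4 p)).range).subgroupOf
        (okD (F := F) chevD4 hD4 p).linOut : Subgroup ↥(okD (F := F) chevD4 hD4 p).linOut) :
          Set ↥(okD (F := F) chevD4 hD4 p).linOut) ≤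
      (((okD (F := F) chevD4 hD4 p).dgOut (extD chevD4 hD4 p)).range).subgroupOf
        (okD (F := F) chevD4 hD4 p).linOut := by
    intro t ht
    rw [Subgroup.mem_subgroupOf]
    apply (okD (F := F) chevD4 hD4 p).linOut_inf_ker (extD chevD4 hD4 p) t.2
    by_contra hne
    obtain ⟨β, hβ, eβ⟩ := (okD (F := F) chevD4 hD4 p).mem_linOut.1 t.2
    obtain ⟨hadm, π, c, hc⟩ := hβ
    have hπ : (okD (F := F) chevD4 hD4 p).outTy (extD chevD4 hD4 p) (t : Cfsg.Out _) = π := by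
      rw [← eβ]
      exact (okD (F := F) chevD4 hD4 p).linAut_outTy (extD chevD4 hD4 p) hadm hc
    have h1 : π (⟨1, by decide⟩ : Fin chevD4.rank) = ⟨1, by decide⟩ :=
      (pieceN chevD4 hD4 π (fun i j hij =>
        (okD (F := F) chevD4 hD4 p).range_outTy_bond (extD chevD4 hD4 p) ⟨t.1, hπ⟩ i j hij)).2.2
          rfl (by decide)
    have hπ1 : π ≠ 1 := by
      rw [← hπ]
      exact hne
    obtain ⟨d, hd⟩ : ∃ d : Fin chevD4.rank → Fˣ,
        (okD (F := F) chevD4 hD4 p).dgOut (extD chevD4 hD4 p)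
          (fun k : Fin chevD4.rank => d (π⁻¹ k) / d k) ≠ 1 :=
      moved_D4 (F := F) p hchar π h1 hπ1
    apply hd
    have hmemV : (⟨(okD (F := F) chevD4 hD4 p).dgOut (extD chevD4 hD4 p) d,
        (okD (F := F) chevD4 hD4 p).ds_le_linOut (extD chevD4 hD4 p) ⟨d, rfl⟩⟩ :
          ↥(okD (F := F) chevD4 hD4 p).linOut) ∈
        (((okD (F := F) chevD4 hD4 p).dgOut (extD chevD4 hD4 p)).range).subgroupOf
          (okD (F := F) chevD4 hD4 p).linOut := by
      rw [Subgroup.mem_subgroupOf]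
      exact ⟨d, rfl⟩
    have hcomm := (Subgroup.mem_centralizer_iff.1 ht) _ hmemV
    have hcomm' : (okD (F := F) chevD4 hD4 p).dgOut (extD chevD4 hD4 p) d * (t : Cfsg.Out _) =
        (t : Cfsg.Out _) * (okD (F := F) chevD4 hD4 p).dgOut (extD chevD4 hD4 p) d :=
      congrArg Subtype.val hcomm
    have hconj : (t : Cfsg.Out _) * (okD (F := F) chevD4 hD4 p).dgOut (extD chevD4 hD4 p) d *
        (t : Cfsg.Out _)⁻¹ =
        (okD (F := F) chevD4 hD4 p).dgOut (extD chevD4 hD4 p) (fun k => d (π⁻¹ k)) := by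
      rw [← eβ, OkD.dgOut_apply, OkD.dgOut_apply, ← QuotientGroup.mk_inv, ← QuotientGroup.mk_mul,
        ← QuotientGroup.mk_mul, (okD (F := F) chevD4 hD4 p).lin_conj_dg (extD chevD4 hD4 p) hadm hc d]
    rw [← hcomm', mul_inv_cancel_right] at hconj
    have hfun : (fun k => d (π⁻¹ k) / d k) = (fun k => d (π⁻¹ k)) / d := rfl
    rw [hfun, map_div, ← hconj, div_self']
  obtain ⟨e2⟩ := Cfsg.Agent.Lib.Lead.S4Rec.nonempty_mulEquiv_perm_fin_four hcard _ hV hC
  exact ⟨e1.trans (MulEquiv.prodCongr e2 (MulEquiv.refl _))⟩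

end final

end Cfsg.Agent.Lib.Helper27.ChevDynD4
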