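import Cfsg.Agent.Lib.Helper12.ChevDynPK1
import Cfsg.Agent.Lib.Helper2.ChevDynPK2

/-! The diagonal pieces PK1, PK2, delivered by helper12, helper2, under common names. -/

set_option autoImplicit false

namespace Cfsg.Agent.Lib.Helper27.ChevDynW

open Cfsg.Lie Cfsg.Agent.Lib.Helper27.PslnOut Cfsg.Agent.Lib.Helper27.DynOut
  Cfsg.Agent.Lib.Helper27.ChevDyn

variable {F : Type*} [Field F] (D : ChevalleyDatum)

theorem pieceK1 (hD : D ∈ lst) (c : Fin D.rank → Fˣ) :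
    ∃ χ : ℕ → Fˣ, D.IsRootCharacter χ ∧ ∀ i : Fin D.rank, χ (D.simple i) = c i :=
  Cfsg.Agent.Lib.Helper12.ChevDynP.pieceK1 D hD c

theorem pieceK2 (hD : D ∈ lst) (χ : ℕ → Fˣ) (hχ : D.IsRootCharacter χ) :
    ∃ φ : ↥(D.group F) ≃* ↥(D.group F),
      (∀ g : ↥(D.group F), ((φ g : GL D.Idx F) : Matrix D.Idx D.Idx F) =
        D.charDiag F χ * ((g : GL D.Idx F) : Matrix D.Idx D.Idx F) *
          D.charDiag F (fun r => (χ r)⁻¹)) ∧
      (∀ (r : ℕ), r < D.nroots → ∀ a : F, φ (xg D r a) = xg D r ((χ r : F) * a)) :=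
  Cfsg.Agent.Lib.Helper2.ChevDynP.pieceK2 D hD χ hχ

end Cfsg.Agent.Lib.Helper27.ChevDynW
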