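import Cfsg.Agent.Lib.Helper27.ChevDynBase
import Cfsg.Agent.Lib.Helper27.ChevDynK
import Cfsg.Agent.S1080

/-!
# The decomposition of an automorphism of a Chevalley group into inner, diagonal, graph and
field automorphisms
-/

set_option autoImplicit false

namespace Cfsg.Agent.Lib.Helper27.ChevDynDec

open Cfsg.Lie Cfsg.Agent.Lib.Helper27.PslnOut Cfsg.Agent.Lib.Helper27.DynOut
  Cfsg.Agent.Lib.Helper27.ChevDyn Cfsg.Agent.Lib.Helper27.ChevDynI
  Cfsg.Agent.Lib.Helper27.ChevDynW Cfsg.Agent.Lib.Helper27.ChevDynExt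

variable {F : Type*} [Field F] (D : ChevalleyDatum)

theorem ex_eq (p : ℕ) (π : Equiv.Perm (Fin D.rank)) (i : Fin D.rank) :
    OkD.ex p (longD D) π i = D.graphExp p i (π i) := by
  unfold OkD.ex ChevalleyDatum.graphExp longD
  cases h1 : D.isLong (D.simple i) <;> cases h2 : D.isLong (D.simple (π i)) <;> simp

theorem decomposition [Finite F] (hD : D ∈ lst) (θ : ↥(D.group F) ≃* ↥(D.group F)) :
    ∃ (x : ↥(D.group F)) (d g f : ↥(D.group F) ≃* ↥(D.group F)),
      D.IsDiagonalAut d ∧ D.IsGraphAut g ∧ D.IsFieldAut f ∧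
        ∀ y : ↥(D.group F), θ y = x * d (g (f y)) * x⁻¹ := by
  classical
  let _ : Fintype F := Fintype.ofFinite F
  have hp : Fact (ringChar F).Prime := ⟨CharP.char_is_prime F (ringChar F)⟩
  have hok := okD (F := F) D hD (ringChar F)
  obtain ⟨g0, π, c, σ, -, hbond, hx, hy⟩ := hok.shape θ
  obtain ⟨f, hf⟩ := Cfsg.Agent.S1080.result (F := F) D hD σ
  obtain ⟨χ, hχ, hχc⟩ := pieceK1 (F := F) D hD (fun j => c (π⁻¹ j))
  obtain ⟨d, hd, hdx⟩ := pieceK2 D hD χ hχ
  -- the action of `f`
  have hfx : ∀ r, r < D.nroots → ∀ a : F, f (xg D r a) = xg D r (σ a) := fun r hr a =>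
    eq_xg D hD _ r _ (hf (xg D r a) r a hr (xg_val D hD r a))
  have hfinv : ∀ r, r < D.nroots → ∀ a : F, f.symm (xg D r a) = xg D r (σ.symm a) := by
    intro r hr a
    rw [MulEquiv.symm_apply_eq, hfx r hr, RingEquiv.apply_symm_apply]
  set β : MulAut ↥(D.group F) := (MulAut.conj g0)⁻¹ * θ with hβ
  refine ⟨g0, d, (f.symm.trans β).trans d.symm, f, ⟨χ, hχ, hd⟩, ⟨π, ?_, ?_⟩, ⟨σ, hf⟩, ?_⟩
  · intro i j hij
    have hπij : π i ≠ π j := fun e => hij (π.injective e)
    rw [bonds_eq D hD _ _ hπij, bonds_eq D hD i j hij, hbond i j hij]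
  · intro g i t
    have hsl := simple_lt D hD (π i)
    have hnl := neg_simple_lt D hD (π i)
    constructor
    · intro hg
      have e1 : g = xs D i t := eq_xg D hD g _ t hg
      have e2 : ((f.symm.trans β).trans d.symm) g =
          xs D (π i) (t ^ D.graphExp (ringChar F) i (π i)) := by
        rw [e1]
        show d.symm (β (f.symm (xs D i t))) = _
        rw [MulEquiv.symm_apply_eq]
        have e3 : f.symm (xs D i t) = xs D i (σ.symm t) := hfinv _ (simple_lt D hD i) t
        rw [e3, hx i, RingEquiv.apply_symm_apply]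
        show _ = d (xg D (D.simple (π i)) _)
        rw [hdx _ hsl, hχc (π i), perm_inv_apply, ex_eq]
        rfl
      rw [e2]
      exact xg_val D hD _ _
    · intro hg
      have e1 : g = ys D i t := eq_xg D hD g _ t hg
      have e2 : ((f.symm.trans β).trans d.symm) g =
          ys D (π i) (t ^ D.graphExp (ringChar F) i (π i)) := by
        rw [e1]
        show d.symm (β (f.symm (ys D i t))) = _
        rw [MulEquiv.symm_apply_eq]
        have e3 : f.symm (ys D i t) = ys D i (σ.symm t) := hfinv _ (neg_simple_lt D hD i) t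
        rw [e3, hy i, RingEquiv.apply_symm_apply]
        show _ = d (xg D (D.neg (D.simple (π i))) _)
        rw [hdx _ hnl, hχ.1 _ hsl, hχc (π i), perm_inv_apply, ex_eq, Units.val_inv_eq_inv_val]
        rfl
      rw [e2]
      exact xg_val D hD _ _
  · intro y
    show θ y = g0 * d (d.symm (β (f.symm (f y)))) * g0⁻¹
    rw [MulEquiv.apply_symm_apply, MulEquiv.symm_apply_apply, hβ, MulAut.mul_apply,
      MulAut.conj_inv_apply]
    group

end Cfsg.Agent.Lib.Helper27.ChevDynDec
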