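import Cfsg.Agent.Lib.Helper34.ChevDynPU
import Cfsg.Agent.Lib.Helper85.ChevDynPT1
import Cfsg.Agent.Lib.Helper57.ChevDynPT2
import Cfsg.Agent.Lib.Helper34.ChevDynPT3

/-! The torus pieces (PU, PT1, PT2, PT3), delivered by helper34, helper85, helper57, under common names. -/

set_option autoImplicit false

namespace Cfsg.Agent.Lib.Helper27.ChevDynW

open Cfsg.Lie Cfsg.Agent.Lib.Helper27.PslnOut Cfsg.Agent.Lib.Helper27.DynOut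
  Cfsg.Agent.Lib.Helper27.ChevDyn

variable {F : Type*} [Field F] (D : ChevalleyDatum)

theorem pieceU [Finite F] (hD : D ∈ lst) (φ : ↥(D.group F) ≃* ↥(D.group F)) (ρ : ℕ → ℕ)
    (hρ : ∀ r, D.IsPosRoot r → D.IsPosRoot (ρ r)) (hρ' : ∀ r, D.IsNegRoot r → D.IsNegRoot (ρ r))
    (hφ : ∀ r, r < D.nroots → ∀ a : F, ∃ a' : F, φ (xg D r a) = xg D (ρ r) a') :
    (∀ g, φ g ∈ Ug F D ↔ g ∈ Ug F D) ∧ (∀ g, φ g ∈ Vg F D ↔ g ∈ Vg F D) :=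
  Cfsg.Agent.Lib.Helper34.ChevDynP.pieceU D hD φ ρ hρ hρ' hφ

theorem pieceT_act (hD : D ∈ lst) (h : ↥(D.group F)) (hh : h ∈ Hg F D) :
    ∃ s : Fin D.rank → Fˣ, ∀ r, r < D.nroots → ∀ a : F,
      h * xg D r a * h⁻¹ =
        xg D r (((∏ j : Fin D.rank, s j ^ D.cartan j r : Fˣ) : F) * a) :=
  Cfsg.Agent.Lib.Helper85.ChevDynP.pieceT_act D hD h hh

theorem pieceT_ex (hD : D ∈ lst) (s : Fin D.rank → Fˣ) :
    ∃ h : ↥(D.group F), h ∈ Hg F D ∧ ∀ r, r < D.nroots → ∀ a : F,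
      h * xg D r a * h⁻¹ =
        xg D r (((∏ j : Fin D.rank, s j ^ D.cartan j r : Fˣ) : F) * a) :=
  Cfsg.Agent.Lib.Helper57.ChevDynP.pieceT_ex D hD s

theorem pieceT_borel (hD : D ∈ lst) (t : ↥(D.group F)) (ht : t ∈ Bg F D) :
    ∃ u ∈ Ug F D, ∃ h ∈ Hg F D, t = u * h :=
  Cfsg.Agent.Lib.Helper34.ChevDynP.pieceT_borel D hD t ht

end Cfsg.Agent.Lib.Helper27.ChevDynW
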