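import Cfsg.Agent.Lib.Helper27.ChevDynBase
import Cfsg.Agent.Lib.Helper27.ChevDynK
import Cfsg.Agent.Lib.Helper27.ChevDynT
import Cfsg.Agent.Lib.Helper27.DynOut2
import Cfsg.Agent.S1080

/-!
# The extra hypotheses `OkD.Ext` for the Chevalley groups

The torus acts on the simple root groups through scalars, and there are admissible field and
diagonal automorphisms; the diagonal automorphisms that are inner.
-/

set_option autoImplicit false
set_option linter.unusedSectionVars false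

namespace Cfsg.Agent.Lib.Helper27.DynOut

open scoped Pointwise
open Cfsg.Agent.Lib.Helper27.PslnOut

variable {F : Type*} [Field F] [Finite F] {G : Type*} [Group G] [Finite G]
  {ι : Type*} [Fintype ι] [DecidableEq ι]
variable {p : ℕ} [Fact p.Prime] {bond : ι → ι → ℕ} {long : ι → Bool}
  {x y : ι → F → G} {U V : Subgroup G} {Q : ι → Subgroup G}

namespace OkD

variable (h : OkD p bond long x y U V Q)
include h

theorem V_pgroup : IsPGroup p V := by
  obtain ⟨P, hP⟩ := h.syl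
  obtain ⟨w, ν, -, hV, -, -, -⟩ := h.w0
  rintro ⟨g, hg⟩
  have h1 : w⁻¹ * g * w ∈ P := (hP _).2 ((hV g).1 hg)
  obtain ⟨k, hk⟩ := P.isPGroup' ⟨_, h1⟩
  refine ⟨k, ?_⟩
  have h2 : (w⁻¹ * g * w) ^ p ^ k = 1 := by
    have := congrArg Subtype.val hk
    exact this
  have h3 : (w⁻¹ * g * w) ^ p ^ k = w⁻¹ * g ^ p ^ k * w := by
    have := conj_pow (a := w⁻¹) (b := g) (i := p ^ k)
    rwa [inv_inv] at this
  apply Subtype.ext
  show g ^ p ^ k = 1
  rw [h3] at h2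
  have : g ^ p ^ k = w * (w⁻¹ * g ^ p ^ k * w) * w⁻¹ := by group
  rw [this, h2]
  group

theorem nm_inf_V {g : G} (hg : g ∈ Nm U) (hgV : g ∈ V) : g = 1 := by
  obtain ⟨P, hP⟩ := h.syl
  have h1 := h.V_pgroup.inf_normalizer_sylow P
  have h2 : g ∈ V ⊓ (P : Subgroup G) := by
    rw [← h1]
    refine ⟨hgV, ?_⟩
    show g ∈ Subgroup.normalizer ((P : Subgroup G) : Set G)
    rw [Subgroup.mem_normalizer_iff]
    intro k
    show k ∈ P ↔ g * k * g⁻¹ ∈ P
    rw [hP, hP]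
    exact (hg k).symm
  exact h.opp_inf g ((hP g).1 h2.2) h2.1

theorem U_inf_NmV {u : G} (hu : u ∈ U) (hn : u ∈ Nm V) : u = 1 := by
  obtain ⟨w, ν, -, hV, hU, -, -⟩ := h.w0
  have h1 : w⁻¹ * u * w ∈ V := (hU u).1 hu
  have h2 : w⁻¹ * u * w ∈ Nm U := by
    intro k
    have e : (w⁻¹ * u * w) * k * (w⁻¹ * u * w)⁻¹ = w⁻¹ * (u * (w * k * w⁻¹) * u⁻¹) * w := by
      group
    have e2 : w⁻¹ * (w * k * w⁻¹) * w = k := by group
    rw [e, ← hV, hn (w * k * w⁻¹), hV, e2]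
  have h3 := h.nm_inf_V h2 h1
  have : u = w * (w⁻¹ * u * w) * w⁻¹ := by group
  rw [this, h3]
  group

end OkD

end Cfsg.Agent.Lib.Helper27.DynOut

namespace Cfsg.Agent.Lib.Helper27.ChevDynExt

open Cfsg.Lie Cfsg.Agent.Lib.Helper27.PslnOut Cfsg.Agent.Lib.Helper27.DynOut
  Cfsg.Agent.Lib.Helper27.ChevDyn Cfsg.Agent.Lib.Helper27.ChevDynI
  Cfsg.Agent.Lib.Helper27.ChevDynW

variable {F : Type*} [Field F] (D : ChevalleyDatum)

/-- conjugation by an element of `H` preserves `U` and `V` -/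
theorem conjH_adm [Finite F] (hD : D ∈ lst) (h : ↥(D.group F)) (hh : h ∈ Hg F D) :
    (∀ g, h * g * h⁻¹ ∈ Ug F D ↔ g ∈ Ug F D) ∧ (∀ g, h * g * h⁻¹ ∈ Vg F D ↔ g ∈ Vg F D) := by
  obtain ⟨s, hs⟩ := pieceT_act D hD h hh
  exact pieceU D hD (MulAut.conj h) id (fun r hr => hr) (fun r hr => hr)
    (fun r hr a => ⟨_, hs r hr a⟩)

/-- `N(U) ∩ N(V) = H` (one inclusion) -/
theorem tor_mem [Fintype F] (hD : D ∈ lst) (p : ℕ) [Fact p.Prime] [CharP F p] (t : ↥(D.group F))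
    (hU : t ∈ Nm (Ug F D)) (hV : t ∈ Nm (Vg F D)) : t ∈ Hg F D := by
  have hok := okD (F := F) D hD p
  rw [pieceB_nm D hD] at hU
  obtain ⟨u, hu, h, hh, rfl⟩ := pieceT_borel D hD t hU
  obtain ⟨h1, h2⟩ := conjH_adm D hD h hh
  have hhV : h ∈ Nm (Vg F D) := fun k => h2 k
  have huV : u ∈ Nm (Vg F D) := by
    have := (Nm (Vg F D)).mul_mem hV ((Nm (Vg F D)).inv_mem hhV)
    rwa [mul_inv_cancel_right] at this
  rw [hok.U_inf_NmV hu huV, one_mul]
  exact hh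

theorem extD [Fintype F] (hD : D ∈ lst) (p : ℕ) [Fact p.Prime] [CharP F p] :
    (okD (F := F) D hD p).Ext := by
  refine ⟨?_, ?_, ?_⟩
  · intro t hU hV i
    obtain ⟨s, hs⟩ := pieceT_act D hD t (tor_mem D hD p t hU hV)
    exact ⟨∏ j : Fin D.rank, s j ^ D.cartan j (D.simple i), fun a => hs _ (simple_lt D hD i) a⟩
  · intro σ
    obtain ⟨f, hf⟩ := Cfsg.Agent.S1080.result (F := F) D hD σ
    have hfx := field_xg D hD σ f hf
    exact ⟨f, pieceU D hD f id (fun r hr => hr) (fun r hr => hr) (fun r hr a => ⟨_, hfx r hr a⟩),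
      fun i a => hfx _ (simple_lt D hD i) a⟩
  · intro d
    obtain ⟨χ, hχ, hχc⟩ := pieceK1 (F := F) D hD d
    obtain ⟨φ, -, hφx⟩ := pieceK2 D hD χ hχ
    refine ⟨φ, pieceU D hD φ id (fun r hr => hr) (fun r hr => hr)
      (fun r hr a => ⟨_, hφx r hr a⟩), fun i a => ?_⟩
    show φ (xg D (D.simple i) a) = _
    rw [hφx _ (simple_lt D hD i), hχc]
    rfl

/-- the diagonal automorphisms that are inner -/
theorem dgOut_ker_iff [Fintype F] (hD : D ∈ lst) (p : ℕ) [Fact p.Prime] [CharP F p]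
    (d : Fin D.rank → Fˣ) :
    d ∈ ((okD (F := F) D hD p).dgOut (extD D hD p)).ker ↔
      ∃ s : Fin D.rank → Fˣ, ∀ i : Fin D.rank, d i = ∏ j : Fin D.rank, s j ^ D.cartan j (D.simple i) := by
  rw [MonoidHom.mem_ker, OkD.dgOut_eq_one_iff]
  constructor
  · rintro ⟨t, hU, hV, ht⟩
    obtain ⟨s, hs⟩ := pieceT_act D hD t (tor_mem D hD p t hU hV)
    refine ⟨s, fun i => ?_⟩
    have e := (ht i 1).symm.trans (hs _ (simple_lt D hD i) 1)
    have e2 := (okD (F := F) D hD p).x_inj i e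
    rw [mul_one, mul_one] at e2
    exact Units.ext e2
  · rintro ⟨s, hs⟩
    obtain ⟨h, hh, hact⟩ := pieceT_ex D hD s
    obtain ⟨h1, h2⟩ := conjH_adm D hD h hh
    refine ⟨h, fun k => h1 k, fun k => h2 k, fun i a => ?_⟩
    rw [hs i]
    exact hact _ (simple_lt D hD i) a

end Cfsg.Agent.Lib.Helper27.ChevDynExt
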