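import Cfsg.Agent.Lib.Helper73.ChevDynPG2

/-! The piece PG2 (a reflection of the diagram of D4 as a graph automorphism), delivered by helper73, under a common name. -/

set_option autoImplicit false

namespace Cfsg.Agent.Lib.Helper27.ChevDynW

open Cfsg.Lie Cfsg.Agent.Lib.Helper27.PslnOut Cfsg.Agent.Lib.Helper27.DynOut
  Cfsg.Agent.Lib.Helper27.ChevDyn

variable {F : Type*} [Field F] (D : ChevalleyDatum)

theorem pieceG2 :
    ∃ α : ↥(chevD4.group F) ≃* ↥(chevD4.group F), ∀ (g : ↥(chevD4.group F)) (i : ℕ) (t : F),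
      i < chevD4.rank →
      (((g : GL chevD4.Idx F) : Matrix chevD4.Idx chevD4.Idx F) = chevD4.x F (chevD4.simple i) t →
        ((α g : GL chevD4.Idx F) : Matrix chevD4.Idx chevD4.Idx F) =
          chevD4.x F (chevD4.simple ([0, 1, 3, 2].getD i 0)) t) ∧
      (((g : GL chevD4.Idx F) : Matrix chevD4.Idx chevD4.Idx F) =
          chevD4.x F (chevD4.neg (chevD4.simple i)) t →
        ((α g : GL chevD4.Idx F) : Matrix chevD4.Idx chevD4.Idx F) =
          chevD4.x F (chevD4.neg (chevD4.simple ([0, 1, 3, 2].getD i 0))) t) :=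
  Cfsg.Agent.Lib.Helper73.ChevDynP.pieceG2

end Cfsg.Agent.Lib.Helper27.ChevDynW
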