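import Cfsg.Agent.Lib.Helper27.ChevDyn

/-!
# The Dynkin data of the seven Chevalley data (piece `I` of the `OkD` instance)

Symmetry and bounds of the bond numbers, compatibility with the length flags, connectedness of
the diagram, and the identification of `DynOut.cart` with the Cartan integers of the datum.
-/

set_option autoImplicit false

namespace Cfsg.Agent.Lib.Helper27.ChevDynI

open Cfsg.Lie Cfsg.Agent.Lib.Helper27.DynOut Cfsg.Agent.Lib.Helper27.ChevDyn

/-- every element of the list is joined to a later element -/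
def connChk {n : ℕ} (bond : Fin n → Fin n → ℕ) : List (Fin n) → Bool
  | [] => true
  | a :: l => connChk bond l && (l.isEmpty || l.any fun b => decide (b ≠ a) && decide (bond a b ≠ 0))

theorem conn_aux {n : ℕ} (bond : Fin n → Fin n → ℕ) (hsymm : ∀ i j, bond i j = bond j i)
    (P : Fin n → Prop) (hP : ∀ i j, i ≠ j → bond i j ≠ 0 → P i → P j) :
    ∀ L : List (Fin n), connChk bond L = true → ∀ a ∈ L, ∀ b ∈ L, (P a ↔ P b) := by
  intro L
  induction L with
  | nil => intro _ a ha; exact absurd ha (List.not_mem_nil)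
  | cons a l ih =>
    intro hL
    unfold connChk at hL
    rw [Bool.and_eq_true] at hL
    obtain ⟨h1, h2⟩ := hL
    have ih' := ih h1
    rcases Bool.or_eq_true_iff.1 h2 with h3 | h3
    · have : l = [] := List.isEmpty_iff.1 h3
      subst this
      intro x hx y hy
      rw [List.mem_singleton] at hx hy
      rw [hx, hy]
    · rw [List.any_eq_true] at h3
      obtain ⟨c, hc, hc2⟩ := h3
      rw [Bool.and_eq_true, decide_eq_true_eq, decide_eq_true_eq] at hc2
      obtain ⟨hca, hb⟩ := hc2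
      have hac : P a ↔ P c :=
        ⟨hP a c (Ne.symm hca) hb, hP c a hca (by rw [hsymm]; exact hb)⟩
      have hall : ∀ x ∈ a :: l, (P x ↔ P c) := by
        intro x hx
        rcases List.mem_cons.1 hx with rfl | hx
        · exact hac
        · exact ih' x hx c hc
      intro x hx y hy
      exact (hall x hx).trans (hall y hy).symm

theorem conn_of_list {n : ℕ} (bond : Fin n → Fin n → ℕ) (hsymm : ∀ i j, bond i j = bond j i)
    (L : List (Fin n)) (hL : connChk bond L = true) (hall : ∀ i, i ∈ L) (P : Fin n → Prop)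
    (hP : ∀ i j, i ≠ j → bond i j ≠ 0 → P i → P j) : ∀ i j, P i → P j :=
  fun i j => (conn_aux bond hsymm P hP L hL i (hall i) j (hall j)).1

/-- the data facts for one datum, given a connecting list -/
def dataChk (D : ChevalleyDatum) (L : List (Fin D.rank)) : Prop :=
  (∀ i j : Fin D.rank, bondD D i j = bondD D j i) ∧
  (∀ i j : Fin D.rank, bondD D i j ≤ 3) ∧
  (∀ i j : Fin D.rank, i ≠ j → bondD D i j = 1 → longD D i = longD D j) ∧
  (∀ i j : Fin D.rank, i ≠ j → 2 ≤ bondD D i j → longD D i ≠ longD D j) ∧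
  connChk (bondD D) L = true ∧ (∀ i, i ∈ L) ∧
  (∀ i j : Fin D.rank, cart (bondD D) (longD D) i j = D.cartan i.val (D.simple j.val)) ∧
  (∀ i j : Fin D.rank, i ≠ j → D.bonds i.val j.val = (bondD D i j : ℤ))

instance (D : ChevalleyDatum) (L : List (Fin D.rank)) : Decidable (dataChk D L) := by
  unfold dataChk
  infer_instance

theorem data_G2 : dataChk chevG2 [⟨0, by decide⟩, ⟨1, by decide⟩] := by decide +kernel
theorem data_B2 : dataChk chevB2 [⟨0, by decide⟩, ⟨1, by decide⟩] := by decide +kernel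
theorem data_D4 : dataChk chevD4 [⟨0, by decide⟩, ⟨2, by decide⟩, ⟨3, by decide⟩, ⟨1, by decide⟩] := by
  decide +kernel
theorem data_F4 : dataChk chevF4 [⟨0, by decide⟩, ⟨1, by decide⟩, ⟨2, by decide⟩, ⟨3, by decide⟩] := by
  decide +kernel
theorem data_E6 : dataChk chevE6 [⟨1, by decide⟩, ⟨0, by decide⟩, ⟨2, by decide⟩, ⟨3, by decide⟩,
    ⟨4, by decide⟩, ⟨5, by decide⟩] := by
  decide +kernel
theorem data_E7 : dataChk chevE7 [⟨1, by decide⟩, ⟨0, by decide⟩, ⟨2, by decide⟩, ⟨3, by decide⟩,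
    ⟨4, by decide⟩, ⟨5, by decide⟩, ⟨6, by decide⟩] := by
  decide +kernel
theorem data_E8 : dataChk chevE8 [⟨1, by decide⟩, ⟨0, by decide⟩, ⟨2, by decide⟩, ⟨3, by decide⟩,
    ⟨4, by decide⟩, ⟨5, by decide⟩, ⟨6, by decide⟩, ⟨7, by decide⟩] := by
  decide +kernel

theorem data_all (D : ChevalleyDatum) (hD : D ∈ lst) : ∃ L : List (Fin D.rank), dataChk D L := by
  simp only [lst, List.mem_cons, List.not_mem_nil, or_false] at hD
  rcases hD with rfl | rfl | rfl | rfl | rfl | rfl | rfl
  · exact ⟨_, data_G2⟩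
  · exact ⟨_, data_B2⟩
  · exact ⟨_, data_D4⟩
  · exact ⟨_, data_F4⟩
  · exact ⟨_, data_E6⟩
  · exact ⟨_, data_E7⟩
  · exact ⟨_, data_E8⟩

/-- piece `I` -/
theorem pieceI (D : ChevalleyDatum) (hD : D ∈ lst) :
    (∀ i j : Fin D.rank, bondD D i j = bondD D j i) ∧
    (∀ i j : Fin D.rank, bondD D i j ≤ 3) ∧
    (∀ i j : Fin D.rank, i ≠ j → bondD D i j = 1 → longD D i = longD D j) ∧
    (∀ i j : Fin D.rank, i ≠ j → 2 ≤ bondD D i j → longD D i ≠ longD D j) ∧
    (∀ P : Fin D.rank → Prop, (∀ i j, i ≠ j → bondD D i j ≠ 0 → P i → P j) → ∀ i j, P i → P j) := by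
  obtain ⟨L, h1, h2, h3, h4, h5, h6, -, -⟩ := data_all D hD
  exact ⟨h1, h2, h3, h4, fun P hP => conn_of_list (bondD D) h1 L h5 h6 P hP⟩

/-- `DynOut.cart` computes the Cartan integers of the datum -/
theorem cart_eq (D : ChevalleyDatum) (hD : D ∈ lst) (i j : Fin D.rank) :
    cart (bondD D) (longD D) i j = D.cartan i.val (D.simple j.val) := by
  obtain ⟨L, -, -, -, -, -, -, h7, -⟩ := data_all D hD
  exact h7 i j

/-- the bond numbers of the datum are those of `bondD` -/
theorem bonds_eq (D : ChevalleyDatum) (hD : D ∈ lst) (i j : Fin D.rank) (hij : i ≠ j) :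
    D.bonds i.val j.val = (bondD D i j : ℤ) := by
  obtain ⟨L, -, -, -, -, -, -, -, h8⟩ := data_all D hD
  exact h8 i j hij

end Cfsg.Agent.Lib.Helper27.ChevDynI
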