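import Cfsg.Agent.Lib.Helper27.ChevDynI
import Cfsg.Agent.Lib.Helper85.ChevDynPA
import Cfsg.Agent.Lib.Helper78.ChevDynPB1
import Cfsg.Agent.Lib.Helper34.ChevDynPB3
import Cfsg.Agent.Lib.Helper73.ChevDynPB4
import Cfsg.Agent.Lib.Helper89.ChevDynPC
import Cfsg.Agent.Lib.Helper74.ChevDynPD
import Cfsg.Agent.Lib.Helper36.ChevDynPE
import Cfsg.Agent.Lib.Helper36.ChevDynPF
import Cfsg.Agent.Lib.Helper75.ChevDynPG
import Cfsg.Agent.Lib.Helper34.ChevDynPH
import Cfsg.Agent.Lib.Helper23.ChevDynPJ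

/-!
# The Chevalley groups of the seven data satisfy `DynOut.OkD`

Assembly of the pieces PA .. PJ (delivered by helper85, helper78, helper34, helper73, helper89,
helper74, helper36, helper75, helper23) into the root datum `OkD`.
-/

set_option autoImplicit false

namespace Cfsg.Agent.Lib.Helper27.ChevDynW

open Cfsg.Lie Cfsg.Agent.Lib.Helper27.PslnOut Cfsg.Agent.Lib.Helper27.DynOut
  Cfsg.Agent.Lib.Helper27.ChevDyn

variable {F : Type*} [Field F] (D : ChevalleyDatum)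

theorem xg_val (hD : D ∈ lst) (r : ℕ) (a : F) :
    ((xg D r a : GL D.Idx F) : Matrix D.Idx D.Idx F) = D.x F r a :=
  Cfsg.Agent.Lib.Helper85.ChevDynP.xg_val D hD r a

theorem pieceB_nm [Finite F] (hD : D ∈ lst) : Nm (Ug F D) = Bg F D :=
  Cfsg.Agent.Lib.Helper78.ChevDynP.pieceB_nm D hD

theorem okD [Fintype F] (hD : D ∈ lst) (p : ℕ) [Fact p.Prime] [CharP F p] :
    OkD p (bondD D) (longD D) (xs (F := F) D) (ys D) (Ug F D) (Vg F D) (Qg F D) := by
  obtain ⟨a1, a2, a3, a4, a5, a6, a7⟩ := Cfsg.Agent.Lib.Helper85.ChevDynP.pieceA (F := F) D hD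
  have hnm := pieceB_nm (F := F) D hD
  obtain ⟨c1, c2, c3, c4, c5, c6, c7⟩ := Cfsg.Agent.Lib.Helper89.ChevDynP.pieceC (F := F) D hD
  obtain ⟨d1, d2, d3⟩ := Cfsg.Agent.Lib.Helper74.ChevDynP.pieceD (F := F) D hD
  obtain ⟨e1, e2⟩ := Cfsg.Agent.Lib.Helper36.ChevDynP.pieceE (F := F) D hD
  obtain ⟨g1, g2, g3, g4⟩ := Cfsg.Agent.Lib.Helper75.ChevDynP.pieceG (F := F) D hD
  obtain ⟨h1, h2⟩ := Cfsg.Agent.Lib.Helper34.ChevDynP.pieceH (F := F) D hD
  obtain ⟨i1, i2, i3, i4, i5⟩ := Cfsg.Agent.Lib.Helper27.ChevDynI.pieceI D hD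
  exact
    { x_add := a1, y_add := a2, x_disj := a3, y_disj := a4, x_mem := a5, y_mem := a6
      syl := Cfsg.Agent.Lib.Helper78.ChevDynP.pieceB_syl D hD p
      opp_inf := a7
      opp := by rw [hnm]; exact Cfsg.Agent.Lib.Helper34.ChevDynP.pieceB_opp D hD
      w0 := Cfsg.Agent.Lib.Helper73.ChevDynP.pieceB_w0 D hD
      ovr := by rw [hnm]; exact c1
      Q_ge := by rw [hnm]; exact c2
      Q_ne := by rw [hnm]; exact c3
      Q_y := c4, Q_inj := c5
      Q_le := by rw [hnm]; exact c6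
      Q_V := c7
      comm_xy := d1, comm_xx := d2, ncomm_xx := d3
      rk1 := e1, rk2 := e2
      tor_h := Cfsg.Agent.Lib.Helper36.ChevDynP.pieceF D hD
      b1 := g1, nb1 := g2, b2 := g3, nb2 := g4
      len2 := h1, len3 := h2
      bond_symm := i1, bond_le := i2, len_eq := i3, len_ne := i4, conn := i5
      gen := Cfsg.Agent.Lib.Helper23.ChevDynP.pieceJ D hD }

end Cfsg.Agent.Lib.Helper27.ChevDynW
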