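import Cfsg.Agent.Lib.Helper27.ChevDynGr
import Cfsg.Agent.Lib.Helper27.ChevDynX
import Cfsg.Agent.Lib.Helper27.ChevDynG2
import Cfsg.Agent.Lib.Helper27.PslOutInst
import Cfsg.Agent.S1081

/-!
# The structure of the outer automorphism group of a Chevalley group
-/

set_option autoImplicit false

namespace Cfsg.Agent.Lib.Helper27.ChevDynStr

open Cfsg.Lie Cfsg.Agent.Lib.Helper27.PslnOut Cfsg.Agent.Lib.Helper27.DynOut
  Cfsg.Agent.Lib.Helper27.ChevDyn Cfsg.Agent.Lib.Helper27.ChevDynI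
  Cfsg.Agent.Lib.Helper27.ChevDynW Cfsg.Agent.Lib.Helper27.ChevDynExt
  Cfsg.Agent.Lib.Helper27.ChevDynGr

variable {F : Type*} [Field F] (D : ChevalleyDatum)

theorem mulEquiv_ext_mat (φ ψ : ↥(D.group F) ≃* ↥(D.group F))
    (h : ∀ g, ((φ g : GL D.Idx F) : Matrix D.Idx D.Idx F) = ((ψ g : GL D.Idx F) : Matrix D.Idx D.Idx F)) :
    φ = ψ :=
  MulEquiv.ext (fun g => Subtype.ext (Units.ext (h g)))

/-- the diagonal automorphisms are the `dg d` -/
theorem diag_set [Fintype F] (hD : D ∈ lst) (p : ℕ) [Fact p.Prime] [CharP F p] :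
    {φ : MulAut ↥(D.group F) | D.IsDiagonalAut φ} =
      Set.range ((okD (F := F) D hD p).dgHom (extD D hD p)) := by
  ext φ
  constructor
  · rintro ⟨χ, hχ, hφ⟩
    obtain ⟨φ', hφ', hx'⟩ := pieceK2 D hD χ hχ
    have e : φ = φ' := mulEquiv_ext_mat D φ φ' (fun g => by rw [hφ, hφ'])
    refine ⟨fun i => χ (D.simple i), ?_⟩
    rw [OkD.dgHom_apply]
    apply (okD (F := F) D hD p).eq_of_adm ((okD (F := F) D hD p).dg_adm (extD D hD p) _)
    · rw [e]
      exact pieceU D hD φ' id (fun r hr => hr) (fun r hr => hr) (fun r hr a => ⟨_, hx' r hr a⟩)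
    · intro i a
      rw [(okD (F := F) D hD p).dg_x, e]
      exact (hx' _ (simple_lt D hD i) a).symm
  · rintro ⟨d, rfl⟩
    obtain ⟨χ, hχ, hχc⟩ := pieceK1 (F := F) D hD d
    obtain ⟨φ', hφ', hx'⟩ := pieceK2 D hD χ hχ
    have e : (okD (F := F) D hD p).dgHom (extD D hD p) d = φ' := by
      rw [OkD.dgHom_apply]
      apply (okD (F := F) D hD p).eq_of_adm ((okD (F := F) D hD p).dg_adm (extD D hD p) _)
        (pieceU D hD φ' id (fun r hr => hr) (fun r hr => hr) (fun r hr a => ⟨_, hx' r hr a⟩))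
      intro i a
      rw [(okD (F := F) D hD p).dg_x]
      show _ = φ' (xg D (D.simple i) a)
      rw [hx' _ (simple_lt D hD i), hχc]
      rfl
    show D.IsDiagonalAut _
    rw [e]
    exact ⟨χ, hχ, hφ'⟩

/-- the field automorphisms are the `fd σ` -/
theorem field_set [Fintype F] (hD : D ∈ lst) (p : ℕ) [Fact p.Prime] [CharP F p] :
    {φ : MulAut ↥(D.group F) | D.IsFieldAut φ} =
      Set.range ((okD (F := F) D hD p).fdHom (extD D hD p)) := by
  ext φ
  constructor
  · rintro ⟨σ, hφ⟩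
    have hx := field_xg D hD σ φ hφ
    refine ⟨σ, ?_⟩
    rw [OkD.fdHom_apply]
    apply (okD (F := F) D hD p).eq_of_adm ((okD (F := F) D hD p).fd_adm (extD D hD p) _)
      (pieceU D hD φ id (fun r hr => hr) (fun r hr => hr) (fun r hr a => ⟨_, hx r hr a⟩))
    intro i a
    rw [(okD (F := F) D hD p).fd_x]
    exact (hx _ (simple_lt D hD i) a).symm
  · rintro ⟨σ, rfl⟩
    obtain ⟨f, hf⟩ := Cfsg.Agent.S1080.result (F := F) D hD σ
    have hx := field_xg D hD σ f hf
    have e : (okD (F := F) D hD p).fdHom (extD D hD p) σ = f := by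
      rw [OkD.fdHom_apply]
      apply (okD (F := F) D hD p).eq_of_adm ((okD (F := F) D hD p).fd_adm (extD D hD p) _)
        (pieceU D hD f id (fun r hr => hr) (fun r hr => hr) (fun r hr a => ⟨_, hx r hr a⟩))
      intro i a
      rw [(okD (F := F) D hD p).fd_x]
      exact (hx _ (simple_lt D hD i) a).symm
    show D.IsFieldAut _
    rw [e]
    exact ⟨σ, hf⟩

/-- the common part of the structure statement -/
theorem str_common [Fintype F] (hD : D ∈ lst) (p : ℕ) [Fact p.Prime] [CharP F p]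
    (Dbar Fbar : Subgroup (Cfsg.Out ↥(D.group F)))
    (hDbar : Dbar = (Subgroup.closure {φ : MulAut ↥(D.group F) | D.IsDiagonalAut φ}).map
      (QuotientGroup.mk' (Cfsg.Inn ↥(D.group F))))
    (hFbar : Fbar = (Subgroup.closure {φ : MulAut ↥(D.group F) | D.IsFieldAut φ}).map
      (QuotientGroup.mk' (Cfsg.Inn ↥(D.group F)))) :
    Dbar.Normal ∧ IsMulCommutative ↥Dbar ∧ IsCyclic ↥Fbar ∧ (Dbar ⊔ Fbar).Normal ∧
      Dbar ⊔ Fbar = ((okD (F := F) D hD p).outTy (extD D hD p)).ker := by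
  have e1 : Dbar = ((okD (F := F) D hD p).dgOut (extD D hD p)).range := by
    rw [hDbar, diag_set D hD p, ← MonoidHom.coe_range, Subgroup.closure_eq, MonoidHom.map_range]
    rfl
  have e2 : Fbar = ((okD (F := F) D hD p).fdOut (extD D hD p)).range := by
    rw [hFbar, field_set D hD p, ← MonoidHom.coe_range, Subgroup.closure_eq, MonoidHom.map_range]
    rfl
  obtain ⟨n, -, hn⟩ := FiniteField.card F p
  have hcyc := (PslOutInst.ringAut_cyclic hn).1
  have e3 : Dbar ⊔ Fbar = ((okD (F := F) D hD p).outTy (extD D hD p)).ker := by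
    rw [e1, e2]
    exact (okD (F := F) D hD p).sup_eq_ker (extD D hD p)
  refine ⟨?_, ?_, ?_, ?_, e3⟩
  · rw [e1]
    exact (okD (F := F) D hD p).ds_normal (extD D hD p)
  · rw [e1]
    exact ⟨⟨fun a b => Subtype.ext
      ((okD (F := F) D hD p).ds_comm (extD D hD p) a.1 b.1 a.2 b.2)⟩⟩
  · rw [e2]
    exact (okD (F := F) D hD p).fs_cyclic (extD D hD p) hcyc
  · rw [e3]
    exact MonoidHom.normal_ker _

/-- at most one nontrivial graph part outside `D₄` -/
theorem range_le_two [Fintype F] (hD : D ∈ lst) (p : ℕ) [Fact p.Prime] [CharP F p]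
    (hne : D ≠ chevD4) :
    Nat.card ↥((okD (F := F) D hD p).outTy (extD D hD p)).range = 1 ∨
      Nat.card ↥((okD (F := F) D hD p).outTy (extD D hD p)).range = 2 := by
  have key : ∀ π ∈ ((okD (F := F) D hD p).outTy (extD D hD p)).range,
      ∀ π' ∈ ((okD (F := F) D hD p).outTy (extD D hD p)).range, π = 1 ∨ π' = 1 ∨ π = π' :=
    fun π hπ π' hπ' => (pieceN D hD π (fun i j hij =>
      (okD (F := F) D hD p).range_outTy_bond (extD D hD p) hπ i j hij)).2.1 hne π' (fun i j hij =>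
      (okD (F := F) D hD p).range_outTy_bond (extD D hD p) hπ' i j hij)
  by_cases hb : ((okD (F := F) D hD p).outTy (extD D hD p)).range = ⊥
  · left
    rw [hb, Subgroup.card_bot]
  · right
    obtain ⟨⟨π₁, hπ₁⟩, hne1⟩ := (Subgroup.ne_bot_iff_exists_ne_one).1 hb
    have hne1' : π₁ ≠ 1 := fun e => hne1 (Subtype.ext e)
    rw [Nat.card_eq_two_iff]
    refine ⟨⟨π₁, hπ₁⟩, 1, hne1, ?_⟩
    rw [Set.eq_univ_iff_forall]
    rintro ⟨π, hπ⟩
    rcases key π hπ π₁ hπ₁ with h1 | h1 | h1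
    · right
      exact Subtype.ext h1
    · exact absurd h1 hne1'
    · left
      exact Subtype.ext h1

/-! ### `D₄` -/

theorem hD4 : chevD4 ∈ lst := by simp [lst]

/-- the rotation of the diagram of `D₄` -/
def tauD4 : Equiv.Perm (Fin chevD4.rank) where
  toFun i := ⟨[2, 1, 3, 0].getD i.val 0, by revert i; decide⟩
  invFun i := ⟨[3, 1, 0, 2].getD i.val 0, by revert i; decide⟩
  left_inv := by decide
  right_inv := by decide

/-- a reflection of the diagram of `D₄` -/
def sD4 : Equiv.Perm (Fin chevD4.rank) where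
  toFun i := ⟨[0, 1, 3, 2].getD i.val 0, by revert i; decide⟩
  invFun i := ⟨[0, 1, 3, 2].getD i.val 0, by revert i; decide⟩
  left_inv := by decide
  right_inv := by decide

theorem tauD4_sym : chevD4.IsDiagramSymmetry tauD4 := by
  unfold ChevalleyDatum.IsDiagramSymmetry
  decide

theorem sD4_sym : chevD4.IsDiagramSymmetry sD4 := by
  unfold ChevalleyDatum.IsDiagramSymmetry
  decide

theorem tauD4_mem [Fintype F] (p : ℕ) [Fact p.Prime] [CharP F p] :
    tauD4 ∈ ((okD (F := F) chevD4 hD4 p).outTy (extD chevD4 hD4 p)).range := by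
  obtain ⟨α, hα⟩ := Cfsg.Agent.S1081.result (F := F) (chevD4, [2, 1, 3, 0]) (by simp)
  exact graph_mem chevD4 hD4 (by simp) p tauD4 tauD4_sym [2, 1, 3, 0] (fun _ => rfl) α hα

theorem sD4_mem [Fintype F] (p : ℕ) [Fact p.Prime] [CharP F p] :
    sD4 ∈ ((okD (F := F) chevD4 hD4 p).outTy (extD chevD4 hD4 p)).range := by
  obtain ⟨α, hα⟩ := pieceG2 (F := F)
  exact graph_mem chevD4 hD4 (by simp) p sD4 sD4_sym [0, 1, 3, 2] (fun _ => rfl) α hα

theorem card_stab :
    Nat.card {π : Equiv.Perm (Fin chevD4.rank) // π ⟨1, by decide⟩ = ⟨1, by decide⟩} = 6 := by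
  rw [Nat.card_eq_fintype_card]
  decide

theorem range_D4 [Fintype F] (p : ℕ) [Fact p.Prime] [CharP F p] :
    Nat.card ↥((okD (F := F) chevD4 hD4 p).outTy (extD chevD4 hD4 p)).range = 6 := by
  have hle : Nat.card ↥((okD (F := F) chevD4 hD4 p).outTy (extD chevD4 hD4 p)).range ≤ 6 := by
    rw [← card_stab]
    refine Nat.card_le_card_of_injective (fun π => ⟨π.1, ?_⟩) ?_
    · exact (pieceN chevD4 hD4 π.1 (fun i j hij =>
        (okD (F := F) chevD4 hD4 p).range_outTy_bond (extD chevD4 hD4 p) π.2 i j hij)).2.2 rfl _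
    · intro a b hab
      have h' : a.1 = b.1 := congrArg (fun z => (z.1 : Equiv.Perm (Fin chevD4.rank))) hab
      exact Subtype.ext h'
  have h2 : 2 ∣ Nat.card ↥((okD (F := F) chevD4 hD4 p).outTy (extD chevD4 hD4 p)).range := by
    have ho : orderOf (⟨sD4, sD4_mem p⟩ :
        ↥((okD (F := F) chevD4 hD4 p).outTy (extD chevD4 hD4 p)).range) = 2 := by
      apply orderOf_eq_prime
      · apply Subtype.ext
        show sD4 ^ 2 = 1
        decide
      · intro e
        have : sD4 = 1 := congrArg Subtype.val e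
        revert this
        decide
    rw [← ho]
    exact orderOf_dvd_natCard _
  have h3 : 3 ∣ Nat.card ↥((okD (F := F) chevD4 hD4 p).outTy (extD chevD4 hD4 p)).range := by
    have ho : orderOf (⟨tauD4, tauD4_mem p⟩ :
        ↥((okD (F := F) chevD4 hD4 p).outTy (extD chevD4 hD4 p)).range) = 3 := by
      have : Fact (Nat.Prime 3) := ⟨by norm_num⟩
      apply orderOf_eq_prime
      · apply Subtype.ext
        show tauD4 ^ 3 = 1
        decide
      · intro e
        have : tauD4 = 1 := congrArg Subtype.val e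
        revert this
        decide
    rw [← ho]
    exact orderOf_dvd_natCard _
  have h6 : 6 ∣ Nat.card ↥((okD (F := F) chevD4 hD4 p).outTy (extD chevD4 hD4 p)).range :=
    Nat.Coprime.mul_dvd_of_dvd_of_dvd (by norm_num) h2 h3
  have hpos : 0 < Nat.card ↥((okD (F := F) chevD4 hD4 p).outTy (extD chevD4 hD4 p)).range :=
    Nat.card_pos
  exact le_antisymm hle (Nat.le_of_dvd hpos h6)

theorem not_comm_D4 [Fintype F] (p : ℕ) [Fact p.Prime] [CharP F p] :
    ¬ commutator (Cfsg.Out ↥(chevD4.group F)) ≤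
      ((okD (F := F) chevD4 hD4 p).outTy (extD chevD4 hD4 p)).ker := by
  intro hle
  obtain ⟨a, ha⟩ := sD4_mem (F := F) p
  obtain ⟨b, hb⟩ := tauD4_mem (F := F) p
  have h1 : a * b * a⁻¹ * b⁻¹ ∈ commutator (Cfsg.Out ↥(chevD4.group F)) :=
    Subgroup.commutator_mem_commutator (Subgroup.mem_top a) (Subgroup.mem_top b)
  have h2 := hle h1
  rw [MonoidHom.mem_ker, map_mul, map_mul, map_mul, map_inv, map_inv, ha, hb] at h2
  revert h2
  decide

/-- the structure statement -/
theorem structure_thm [Finite F] (hD : D ∈ lst)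
    (Dbar Fbar : Subgroup (Cfsg.Out ↥(D.group F)))
    (hDbar : Dbar = (Subgroup.closure {φ : MulAut ↥(D.group F) | D.IsDiagonalAut φ}).map
      (QuotientGroup.mk' (Cfsg.Inn ↥(D.group F))))
    (hFbar : Fbar = (Subgroup.closure {φ : MulAut ↥(D.group F) | D.IsFieldAut φ}).map
      (QuotientGroup.mk' (Cfsg.Inn ↥(D.group F)))) :
    Dbar.Normal ∧ IsMulCommutative ↥Dbar ∧ IsCyclic ↥Fbar ∧ (Dbar ⊔ Fbar).Normal ∧
      ((Dbar ⊔ Fbar).index = 1 ∨ (Dbar ⊔ Fbar).index = 2 ∨
        ((Dbar ⊔ Fbar).index = 6 ∧ ¬ commutator (Cfsg.Out ↥(D.group F)) ≤ Dbar ⊔ Fbar)) := by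
  classical
  let _ : Fintype F := Fintype.ofFinite F
  have hp : Fact (ringChar F).Prime := ⟨CharP.char_is_prime F (ringChar F)⟩
  obtain ⟨c1, c2, c3, c4, c5⟩ := str_common D hD (ringChar F) Dbar Fbar hDbar hFbar
  refine ⟨c1, c2, c3, c4, ?_⟩
  rw [c5, Subgroup.index_ker]
  by_cases h4 : D = chevD4
  · subst h4
    right; right
    exact ⟨range_D4 (F := F) (ringChar F), not_comm_D4 (F := F) (ringChar F)⟩
  · rcases range_le_two (F := F) D hD (ringChar F) h4 with h | h
    · exact Or.inl h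
    · exact Or.inr (Or.inl h)

end Cfsg.Agent.Lib.Helper27.ChevDynStr
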