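import Cfsg.Prelude.Def_ChevF4
import Cfsg.Prelude.Def_ChevG2
import Cfsg.Agent.Lib.Helper27.ChevDyn

/-!
# Exceptional isogenies of `G₂` (characteristic 3) and `F₄` (characteristic 2): definitions

In characteristic `p` (`p = 3` for `G₂`, `p = 2` for `F₄`) the short root vectors and the
fundamental coroots of the short nodes span a submodule `I` of the adjoint module that is stable
under the Chevalley group, and the quotient by `I` is isomorphic to `I` twisted by the exceptional
graph automorphism `x_r(t) ↦ x_{ρ r}(t ^ λ r)` (`λ r = p` for `r` short, `1` for `r` long).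
This file holds the data (`IsoData`, `isoG2`, `isoF4`) and the entries of `x_r(t)` as explicit
polynomials (`entryP`, `evalP`); the theorems are proved elsewhere.
-/

set_option autoImplicit false

namespace Cfsg.Agent.Lib.Helper27.ChevIso

open Cfsg.Lie

/-- polynomials as lists of (exponent, integer coefficient) -/
abbrev PL := List (ℕ × ℤ)

/-- the entry of `x_r(t)` at (`row`, `col`), indices as natural numbers (`inl` = fundamental
coroots, `inr` = root vectors) -/
def entryP (D : ChevalleyDatum) (r : ℕ) (row col : ℕ ⊕ ℕ) : PL :=
  match col with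
  | Sum.inl i =>
    (match row with
     | Sum.inl i' => if i' = i then [(0, 1)] else []
     | Sum.inr u => if u = r then [(1, - ((D.cartanSR.getD i #[]).getD r 0))] else [])
  | Sum.inr s =>
    if s = r then (match row with | Sum.inr u => if u = r then [(0, 1)] else [] | Sum.inl _ => [])
    else if s = D.negIdx.getD r 0 then
      (match row with
       | Sum.inl i => [(1, (D.coroot.getD r #[]).getD i 0)]
       | Sum.inr u => if u = s then [(0, 1)] else if u = r then [(2, -1)] else [])
    else
      (match row with
       | Sum.inl _ => []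
       | Sum.inr u => (if u = s then [(0, 1)] else []) ++ D.chainCoeff r s u)

/-- the value of a polynomial -/
def evalP {F : Type*} [Field F] (f : PL) (t : F) : F :=
  (f.map fun q => ((q.2 : ℤ) : F) * t ^ q.1).sum

/-- substitution `t ↦ t ^ lam` -/
def substP (lam : ℕ) (f : PL) : PL := f.map fun q => (q.1 * lam, q.2)

/-- the coefficients of degree `< 10`, reduced modulo `p` -/
def nrmP (p : ℕ) (f : PL) : List ℤ :=
  (List.range 10).map fun k => ((f.filter (fun q => q.1 = k)).map (·.2)).sum % (p : ℤ)

/-- the index of the adjoint module as a natural-number index -/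
def idxN (D : ChevalleyDatum) (x : D.Idx) : ℕ ⊕ ℕ := Sum.map Fin.val Fin.val x

/-- the data of an exceptional isogeny: the datum, the characteristic, the map `ρ` of the roots,
the exponents `λ`, the short roots, the map of the nodes, the short nodes -/
structure IsoData where
  D : ChevalleyDatum
  p : ℕ
  rho : List ℕ
  lam : List ℕ
  sh : List Bool
  pi : List ℕ
  shN : List Bool

/-- the indices of the submodule `I` -/
def IsoData.isS (d : IsoData) (x : ℕ ⊕ ℕ) : Bool :=
  match x with
  | Sum.inl i => d.shN.getD i false
  | Sum.inr r => d.sh.getD r false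

/-- the bijection between the indices outside `I` and those of `I` (an involution) -/
def IsoData.beta (d : IsoData) (x : ℕ ⊕ ℕ) : ℕ ⊕ ℕ :=
  match x with
  | Sum.inl i => Sum.inl (d.pi.getD i 0)
  | Sum.inr r => Sum.inr (d.rho.getD r 0)

/-- `G₂`, characteristic 3 -/
def isoG2 : IsoData where
  D := chevG2
  p := 3
  rho := [2, 3, 0, 1, 5, 4, 7, 6, 10, 11, 8, 9]
  lam := [1, 1, 3, 3, 3, 1, 1, 3, 3, 3, 1, 1]
  sh := [false, false, true, true, true, false, false, true, true, true, false, false]
  pi := [1, 0]
  shN := [true, false]

/-- `F₄`, characteristic 2 -/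
def isoF4 : IsoData where
  D := chevF4
  p := 2
  rho := [3, 7, 8, 0, 9, 11, 18, 1, 2, 4, 15, 5, 16, 21, 23, 10, 12, 19, 6, 17, 22, 13, 20, 14,
    33, 27, 34, 25, 30, 41, 28, 35, 37, 24, 26, 31, 42, 32, 43, 45, 46, 29, 36, 38, 47, 39, 40, 44]
  lam := [1, 1, 1, 2, 1, 1, 1, 2, 2, 2, 2, 2, 2, 2, 2, 1, 1, 1, 2, 2, 2, 1, 1, 1,
    1, 1, 1, 2, 2, 2, 1, 1, 1, 2, 2, 2, 2, 2, 2, 2, 2, 1, 1, 1, 2, 1, 1, 1]
  sh := [false, false, false, true, false, false, false, true, true, true, true, true, true, true,
    true, false, false, false, true, true, true, false, false, false,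
    false, false, false, true, true, true, false, false, false, true, true, true, true, true, true,
    true, true, false, false, false, true, false, false, false]
  pi := [3, 2, 1, 0]
  shN := [true, true, false, false]

end Cfsg.Agent.Lib.Helper27.ChevIso
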