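import Mathlib
import Cfsg.Prelude.Def_LieTypeDatum
import Cfsg.Agent.Lib.Helper27.PslnFinal

/-!
# Every automorphism of `PSL_n(q)` is inner-diagonal * field * (graph or trivial)
-/

set_option autoImplicit false
set_option linter.unusedSectionVars false

namespace Cfsg.Agent.Lib.Helper27.PslnDecomp

open Matrix Cfsg.Agent.Lib.Helper27.PslnMat Cfsg.Agent.Lib.Helper27.PslnAut
  Cfsg.Agent.Lib.Helper27.PslnOut Cfsg.Agent.Lib.Helper27.PslnInst

section general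

variable {F : Type*} [Field F] {n : ℕ}

theorem innerDiag_desc (g : GL (Fin n) F) :
    Cfsg.IsInnerDiagonalAutPSL (desc (glConj g) : MulAut (PSLn n F)) := by
  refine ⟨g, fun s s' hs => ?_⟩
  have : s' = glConj g s := Subtype.ext hs
  rw [this]
  rfl

theorem innerDiag_mul {β₁ β₂ : MulAut (PSLn n F)} (h₁ : Cfsg.IsInnerDiagonalAutPSL β₁)
    (h₂ : Cfsg.IsInnerDiagonalAutPSL β₂) : Cfsg.IsInnerDiagonalAutPSL (β₁ * β₂) := by
  obtain ⟨g₁, hg₁⟩ := h₁
  obtain ⟨g₂, hg₂⟩ := h₂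
  refine ⟨g₁ * g₂, fun s s' hs => ?_⟩
  rw [MulAut.mul_apply, hg₂ s (glConj g₂ s) (glConj_coe g₂ s)]
  apply hg₁
  rw [hs, glConj_coe, _root_.mul_inv_rev, Units.val_mul, Units.val_mul]
  simp only [Matrix.mul_assoc]

theorem innerDiag_one : Cfsg.IsInnerDiagonalAutPSL (1 : MulAut (PSLn n F)) := by
  refine ⟨1, fun s s' hs => ?_⟩
  have : s' = s := by
    apply Subtype.ext
    rw [hs, inv_one, Units.val_one, Matrix.one_mul, Matrix.mul_one]
  rw [this]
  rfl

theorem innerDiag_conj (k : PSLn n F) : Cfsg.IsInnerDiagonalAutPSL (MulAut.conj k) := by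
  obtain ⟨k₀, rfl⟩ := pr_surj k
  refine ⟨Matrix.SpecialLinearGroup.toGL k₀, fun s s' hs => ?_⟩
  have : s' = k₀ * s * k₀⁻¹ := by
    apply Subtype.ext
    rw [hs, ← map_inv]
    rfl
  rw [this]
  rfl

theorem stdField_desc (σ : F ≃+* F) :
    Cfsg.IsStdFieldAutPSL σ (desc (fAut σ) : MulAut (PSLn n F)) := by
  intro s s' hs
  have : s' = fAut σ s := Subtype.ext hs
  rw [this]
  rfl

theorem invTr_desc : Cfsg.IsInverseTransposeAutPSL (desc tInv : MulAut (PSLn n F)) := by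
  intro s s' hs
  have : s' = tInv s := Subtype.ext hs
  rw [this]
  rfl

theorem fAut_coe (σ : F ≃+* F) (s : SLn n F) :
    (fAut σ s : Matrix (Fin n) (Fin n) F) = (s : Matrix (Fin n) (Fin n) F).map σ := rfl

/-- a field automorphism commutes with conjugation by a matrix it fixes -/
theorem fAut_glConj (σ : F ≃+* F) (g : GL (Fin n) F)
    (hg : (g : Matrix (Fin n) (Fin n) F).map σ = g) (s : SLn n F) :
    fAut σ (glConj g s) = glConj g (fAut σ s) := by
  have h1 : ((g⁻¹ : GL (Fin n) F) : Matrix (Fin n) (Fin n) F).map σ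
      = ((g⁻¹ : GL (Fin n) F) : Matrix (Fin n) (Fin n) F) := by
    have e1 : (g : Matrix (Fin n) (Fin n) F) * ((g⁻¹ : GL (Fin n) F) : Matrix (Fin n) (Fin n) F) = 1 := by
      rw [← Units.val_mul, mul_inv_cancel, Units.val_one]
    have e2 : ((g⁻¹ : GL (Fin n) F) : Matrix (Fin n) (Fin n) F) * (g : Matrix (Fin n) (Fin n) F) = 1 := by
      rw [← Units.val_mul, inv_mul_cancel, Units.val_one]
    have e3 : (g : Matrix (Fin n) (Fin n) F) * ((g⁻¹ : GL (Fin n) F) : Matrix (Fin n) (Fin n) F).map σ = 1 := by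
      have := congrArg (fun M : Matrix (Fin n) (Fin n) F => M.map σ) e1
      simp only [Matrix.map_mul, hg] at this
      rw [this]
      ext i j
      simp [Matrix.map_apply, Matrix.one_apply]
    calc ((g⁻¹ : GL (Fin n) F) : Matrix (Fin n) (Fin n) F).map σ
        = (((g⁻¹ : GL (Fin n) F) : Matrix (Fin n) (Fin n) F) * (g : Matrix (Fin n) (Fin n) F))
          * ((g⁻¹ : GL (Fin n) F) : Matrix (Fin n) (Fin n) F).map σ := by rw [e2, Matrix.one_mul]
      _ = ((g⁻¹ : GL (Fin n) F) : Matrix (Fin n) (Fin n) F) := by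
          rw [Matrix.mul_assoc, e3, Matrix.mul_one]
  apply Subtype.ext
  rw [fAut_coe, glConj_coe, glConj_coe, fAut_coe, Matrix.map_mul, Matrix.map_mul, hg, h1]

theorem desc_fAut_glConj (σ : F ≃+* F) (g : GL (Fin n) F)
    (hg : (g : Matrix (Fin n) (Fin n) F).map σ = g) :
    (desc (fAut σ) : MulAut (PSLn n F)) * desc (glConj g) = desc (glConj g) * desc (fAut σ) := by
  ext k
  obtain ⟨k₀, rfl⟩ := pr_surj k
  rw [MulAut.mul_apply, MulAut.mul_apply, desc_pr, desc_pr, desc_pr, desc_pr, fAut_glConj σ g hg]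

theorem pGL_map (σ : F ≃+* F) (τ : Equiv.Perm (Fin n)) :
    ((Cfsg.Agent.Lib.Helper48.pGL τ : GL (Fin n) F) : Matrix (Fin n) (Fin n) F).map σ
      = ((Cfsg.Agent.Lib.Helper48.pGL τ : GL (Fin n) F) : Matrix (Fin n) (Fin n) F) := by
  ext i j
  rw [Matrix.map_apply, Cfsg.Agent.Lib.Helper48.pGL_coe, Cfsg.Agent.Lib.Helper48.pMat_apply]
  split_ifs <;> simp

end general

section ge3

variable {F : Type*} [Field F] [Finite F] {m : ℕ}

theorem field_x (σ : F ≃+* F) (i : Fin m) (a : F) :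
    desc (fAut σ) (xg i a) = xg i (σ a) := by
  show desc (fAut σ) (pr (xs i a)) = pr (xs i (σ a))
  rw [desc_pr, xs, fAut_tv σ (cs_ne i)]
  rfl

theorem field_U (σ : F ≃+* F) (g : PSLn (m + 1) F) :
    desc (fAut σ) g ∈ (Ug : Subgroup (PSLn (m + 1) F)) ↔ g ∈ (Ug : Subgroup (PSLn (m + 1) F)) :=
  desc_mem_map_iff (fAut σ) Uo Uo (fAut_mem_utS σ _ _) g

theorem field_V (σ : F ≃+* F) (g : PSLn (m + 1) F) :
    desc (fAut σ) g ∈ (Vg : Subgroup (PSLn (m + 1) F)) ↔ g ∈ (Vg : Subgroup (PSLn (m + 1) F)) :=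
  desc_mem_map_iff (fAut σ) Vo Vo (fAut_mem_utS σ _ _) g

theorem diag_x (d : Fin m → Fˣ) (i : Fin m) (a : F) :
    desc (glConj (dGL (eprod d))) (xg i a) = xg i (d i * a) := by
  show desc _ (pr (xs i a)) = pr (xs i _)
  rw [desc_pr, xs, glConj_tv (dGL_mono _) (fun j => Units.ne_zero _) (cs_ne i), eprod_step,
    Units.val_mul, xs]
  have hz : ((eprod d i.succ : Fˣ) : F) ≠ 0 := Units.ne_zero _
  have e : (d i : F) * ((eprod d i.succ : Fˣ) : F) * a / ((eprod d i.succ : Fˣ) : F) = (d i : F) * a := by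
    field_simp
  rw [e]
  rfl

theorem diag_U (δ : Fin (m + 1) → Fˣ) (g : PSLn (m + 1) F) :
    desc (glConj (dGL δ)) g ∈ (Ug : Subgroup (PSLn (m + 1) F)) ↔ g ∈ (Ug : Subgroup (PSLn (m + 1) F)) :=
  desc_mem_map_iff _ Uo Uo (glConj_mem_ut _ _ _) g

theorem diag_V (δ : Fin (m + 1) → Fˣ) (g : PSLn (m + 1) F) :
    desc (glConj (dGL δ)) g ∈ (Vg : Subgroup (PSLn (m + 1) F)) ↔ g ∈ (Vg : Subgroup (PSLn (m + 1) F)) :=
  desc_mem_map_iff _ Vo Vo (glConj_mem_ut _ _ _) g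

/-- the standard graph automorphism: inverse transpose followed by the longest element -/
noncomputable def gam : MulAut (PSLn (m + 1) F) :=
  desc (tInv.trans (glConj (Cfsg.Agent.Lib.Helper48.pGL Fin.revPerm)))

theorem gam_eq : (gam : MulAut (PSLn (m + 1) F))
    = desc (glConj (Cfsg.Agent.Lib.Helper48.pGL Fin.revPerm)) * desc tInv :=
  desc_trans _ _

theorem gam_x (i : Fin m) (a : F) :
    (gam : MulAut (PSLn (m + 1) F)) (xg i a) = xg (Fin.rev i) (-a) := by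
  have hP := pGL_mono (F := F) (Fin.revPerm : Equiv.Perm (Fin (m + 1)))
  show desc _ (pr (xs i a)) = pr (xs (Fin.rev i) (-a))
  rw [desc_pr]
  show pr (glConj (Cfsg.Agent.Lib.Helper48.pGL Fin.revPerm) (tInv (xs i a))) = _
  rw [xs, tInv_tv (cs_ne i), glConj_tv hP (fun _ => one_ne_zero) (cs_ne i).symm, one_mul, div_one,
    Fin.revPerm_apply, Fin.revPerm_apply, Fin.rev_succ, Fin.rev_castSucc]
  rfl

theorem gam_U (g : PSLn (m + 1) F) :
    (gam : MulAut (PSLn (m + 1) F)) g ∈ (Ug : Subgroup (PSLn (m + 1) F))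
      ↔ g ∈ (Ug : Subgroup (PSLn (m + 1) F)) := by
  have hP := pGL_mono (F := F) (Fin.revPerm : Equiv.Perm (Fin (m + 1)))
  have h1 : ∀ s : SLn (m + 1) F,
      glConj (Cfsg.Agent.Lib.Helper48.pGL Fin.revPerm) s ∈ (Uo : Subgroup (SLn (m + 1) F))
        ↔ s ∈ (Vo : Subgroup (SLn (m + 1) F)) := fun s =>
    hP.rel_ut (fun _ => one_ne_zero) (glConj_key _ s) _ _ _ _ (fun k l => by
      rw [OrderDual.toDual_lt_toDual]
      exact Fin.rev_lt_rev)
  exact desc_mem_map_iff _ Uo Uo (fun s => (h1 (tInv s)).trans (tInv_mem_Vo s)) g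

theorem gam_V (g : PSLn (m + 1) F) :
    (gam : MulAut (PSLn (m + 1) F)) g ∈ (Vg : Subgroup (PSLn (m + 1) F))
      ↔ g ∈ (Vg : Subgroup (PSLn (m + 1) F)) := by
  have hP := pGL_mono (F := F) (Fin.revPerm : Equiv.Perm (Fin (m + 1)))
  have h2 : ∀ s : SLn (m + 1) F,
      glConj (Cfsg.Agent.Lib.Helper48.pGL Fin.revPerm) s ∈ (Vo : Subgroup (SLn (m + 1) F))
        ↔ s ∈ (Uo : Subgroup (SLn (m + 1) F)) := fun s =>
    hP.rel_ut (fun _ => one_ne_zero) (glConj_key _ s) _ _ _ _ (fun k l => by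
      rw [OrderDual.toDual_lt_toDual]
      exact Fin.rev_lt_rev)
  exact desc_mem_map_iff _ Vo Vo (fun s => (h2 (tInv s)).trans (tInv_mem_Uo s)) g

/-- **Explicit decomposition of automorphisms of `PSL_n(q)`**, `n = m + 1 ≥ 3`:
`β = conj k * diag * field * (graph or 1)`. -/
theorem decomp_explicit (p : ℕ) [Fact p.Prime] [CharP F p] (hm : 2 ≤ m)
    (β : MulAut (PSLn (m + 1) F)) :
    ∃ (k : PSLn (m + 1) F) (d : Fin m → Fˣ) (σ : F ≃+* F) (e : Bool),
      β = MulAut.conj k * desc (glConj (dGL (eprod d))) * desc (fAut σ)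
        * (if e = true then gam else 1) := by
  have hok := okA (F := F) p hm
  obtain ⟨k, d, σ, e, hdec⟩ := hok.decomp β
  exact ⟨k, d, σ, e, hdec _ _ _ ⟨diag_U _, diag_V _⟩ (diag_x d) ⟨field_U σ, field_V σ⟩ (field_x σ)
    ⟨gam_U, gam_V⟩ gam_x⟩

/-- `β = δ φ γ` with `δ` inner-diagonal, `φ` a standard field automorphism, `γ` trivial or
inverse-transpose, for `n = m + 1 ≥ 3` -/
theorem decomp_ge3 (p : ℕ) [Fact p.Prime] [CharP F p] (hm : 2 ≤ m)
    (β : MulAut (PSLn (m + 1) F)) :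
    ∃ (δ φ γ : MulAut (PSLn (m + 1) F)) (σ : F ≃+* F), Cfsg.IsInnerDiagonalAutPSL δ ∧
      Cfsg.IsStdFieldAutPSL σ φ ∧ (γ = 1 ∨ Cfsg.IsInverseTransposeAutPSL γ) ∧ β = δ * φ * γ := by
  obtain ⟨k, d, σ, e, hβ⟩ := decomp_explicit p hm β
  cases e with
  | false =>
    refine ⟨MulAut.conj k * desc (glConj (dGL (eprod d))), desc (fAut σ), 1, σ,
      innerDiag_mul (innerDiag_conj k) (innerDiag_desc _), stdField_desc σ, Or.inl rfl, ?_⟩
    rw [hβ, if_neg (by simp)]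
  | true =>
    refine ⟨MulAut.conj k * desc (glConj (dGL (eprod d)))
        * desc (glConj (Cfsg.Agent.Lib.Helper48.pGL Fin.revPerm)), desc (fAut σ), desc tInv, σ,
      innerDiag_mul (innerDiag_mul (innerDiag_conj k) (innerDiag_desc _)) (innerDiag_desc _),
      stdField_desc σ, Or.inr invTr_desc, ?_⟩
    rw [hβ, if_pos rfl, gam_eq]
    have hc := desc_fAut_glConj (n := m + 1) σ (Cfsg.Agent.Lib.Helper48.pGL Fin.revPerm)
      (pGL_map σ _)
    simp only [mul_assoc]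
    rw [← mul_assoc (desc (fAut σ)), hc]
    simp only [mul_assoc]

end ge3

section two

variable {F : Type*} [Field F]

open Cfsg.Agent.Lib.Helper7
open Cfsg.Agent.Lib.Helper27.PslOutInst (SL2 PSL2 hS wS hS_coe wS_coe)

theorem dGL_coe {n : ℕ} (δ : Fin n → Fˣ) : ((dGL δ : GL (Fin n) F) : Matrix (Fin n) (Fin n) F)
    = Matrix.diagonal (fun i => (δ i : F)) := rfl

theorem dGL_inv_coe {n : ℕ} (δ : Fin n → Fˣ) :
    (((dGL δ)⁻¹ : GL (Fin n) F) : Matrix (Fin n) (Fin n) F)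
      = Matrix.diagonal (fun i => (((δ i)⁻¹ : Fˣ) : F)) := rfl

theorem glConj_tu (c : Fˣ) (a : F) : glConj (dGL ![c, 1]) (tu a) = tu (c * a) := by
  apply Subtype.ext
  rw [glConj_coe, dGL_coe, dGL_inv_coe, tu_coe, tu_coe]
  ext i j
  fin_cases i <;> fin_cases j <;>
    simp [Matrix.mul_apply, Matrix.diagonal_apply]

theorem glConj_wS (c : Fˣ) : glConj (dGL ![c, 1]) (wS : SL2 F) = hS c * wS := by
  apply Subtype.ext
  rw [glConj_coe, dGL_coe, dGL_inv_coe, Matrix.SpecialLinearGroup.coe_mul, wS_coe, hS_coe]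
  ext i j
  fin_cases i <;> fin_cases j <;>
    simp [Matrix.mul_apply, Fin.sum_univ_two, Matrix.diagonal_apply]

theorem fAut_tu (σ : F ≃+* F) (a : F) : fAut σ (tu a) = tu (σ a) := by
  apply Subtype.ext
  ext i j
  have := fAut_apply σ (tu a) i j
  fin_cases i <;> fin_cases j <;> simp_all [tu_coe]

theorem fAut_wS (σ : F ≃+* F) : fAut σ (wS : SL2 F) = wS := by
  apply Subtype.ext
  ext i j
  have := fAut_apply σ (wS : SL2 F) i j
  fin_cases i <;> fin_cases j <;> simp_all [wS_coe]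

/-- **Explicit decomposition of automorphisms of `PSL_2(q)`**, `q ≥ 4`:
`β = conj k * diag * field`. -/
theorem decomp_explicit_two [Fintype F] (p : ℕ) [Fact p.Prime] [CharP F p]
    (h4 : 4 ≤ Fintype.card F) (β : MulAut (PSLn 2 F)) :
    ∃ (k : PSLn 2 F) (c : Fˣ) (σ : F ≃+* F),
      β = MulAut.conj k * desc (glConj (dGL ![c, 1])) * desc (fAut σ) := by
  have hok := PslOutInst.ok (F := F) p h4
  obtain ⟨g, hg⟩ := hok.exists_adm β
  obtain ⟨c, σ, hc, hcσ⟩ := hok.adm_semilinear hg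
  have hD_T : ∀ a : F, desc (glConj (dGL ![Units.mk0 c hc, 1])) (QuotientGroup.mk (tu a) : PSL2 F)
      = QuotientGroup.mk (tu (c * a)) := by
    intro a
    have := glConj_tu (Units.mk0 c hc) a
    rw [Units.val_mk0] at this
    rw [← this]
    rfl
  have hD_w : desc (glConj (dGL ![Units.mk0 c hc, 1])) (QuotientGroup.mk wS : PSL2 F)
      = QuotientGroup.mk (hS (Units.mk0 c hc)) * QuotientGroup.mk wS := by
    rw [← QuotientGroup.mk_mul, ← glConj_wS]
    rfl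
  have hD : hok.Adm (desc (glConj (dGL ![Units.mk0 c hc, 1]))) := by
    refine hok.adm_of (β := fun a => c * a) ?_ hD_T (hok.H_mem (Units.mk0 c hc)) hD_w
    intro a
    exact ⟨c⁻¹ * a, by field_simp⟩
  have hΦ_T : ∀ a : F, desc (fAut σ) (QuotientGroup.mk (tu a) : PSL2 F)
      = QuotientGroup.mk (tu (σ a)) := by
    intro a
    rw [← fAut_tu]
    rfl
  have hΦ_w : desc (fAut σ) (QuotientGroup.mk wS : PSL2 F) = 1 * QuotientGroup.mk wS := by
    rw [one_mul]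
    conv_rhs => rw [← fAut_wS σ]
    rfl
  have hΦ : hok.Adm (desc (fAut σ)) :=
    hok.adm_of (β := σ) σ.surjective hΦ_T (one_mem _) hΦ_w
  have e1 : (MulAut.conj g)⁻¹ * β = desc (glConj (dGL ![Units.mk0 c hc, 1])) * desc (fAut σ) := by
    apply hok.eq_of_adm hg (hok.adm_mul hD hΦ)
    intro b
    rw [hcσ, MulAut.mul_apply, hΦ_T, hD_T]
  refine ⟨g, Units.mk0 c hc, σ, ?_⟩
  rw [mul_assoc, ← e1]
  group

theorem decomp_two [Fintype F] (p : ℕ) [Fact p.Prime] [CharP F p]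
    (h4 : 4 ≤ Fintype.card F) (β : MulAut (PSLn 2 F)) :
    ∃ (δ φ γ : MulAut (PSLn 2 F)) (σ : F ≃+* F), Cfsg.IsInnerDiagonalAutPSL δ ∧
      Cfsg.IsStdFieldAutPSL σ φ ∧ (γ = 1 ∨ Cfsg.IsInverseTransposeAutPSL γ) ∧ β = δ * φ * γ := by
  obtain ⟨k, c, σ, hβ⟩ := decomp_explicit_two p h4 β
  refine ⟨MulAut.conj k * desc (glConj (dGL ![c, 1])), desc (fAut σ), 1, σ,
    innerDiag_mul (innerDiag_conj k) (innerDiag_desc _), stdField_desc σ, Or.inl rfl, ?_⟩
  rw [hβ, mul_one]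

end two

/-- **Every automorphism of `PSL_n(q)` is `δ φ γ`**: inner-diagonal, standard field, and trivial or
inverse-transpose. -/
theorem decomp_all {F : Type*} [Field F] [Fintype F] {p f : ℕ} [Fact p.Prime]
    (hF : Fintype.card F = p ^ f) {n : ℕ} (hn : 2 ≤ n) (hs : n = 2 → 4 ≤ Fintype.card F)
    (β : MulAut (Matrix.ProjectiveSpecialLinearGroup (Fin n) F)) :
    ∃ (δ φ γ : MulAut (Matrix.ProjectiveSpecialLinearGroup (Fin n) F)) (σ : F ≃+* F),
      Cfsg.IsInnerDiagonalAutPSL δ ∧ Cfsg.IsStdFieldAutPSL σ φ ∧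
        (γ = 1 ∨ Cfsg.IsInverseTransposeAutPSL γ) ∧ β = δ * φ * γ := by
  have hchar : CharP F p := PslOutInst.charP_of_card hF
  obtain ⟨m, rfl⟩ : ∃ m, n = m + 1 := ⟨n - 1, by omega⟩
  by_cases h : m + 1 = 2
  · obtain rfl : m = 1 := by omega
    exact decomp_two p (hs rfl) β
  · exact decomp_ge3 p (by omega) β

end Cfsg.Agent.Lib.Helper27.PslnDecomp
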