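import Mathlib
import Cfsg.Prelude.Def_LieRecognition

set_option autoImplicit false

namespace Cfsg.Agent.Lib.Helper27

variable {G Ω : Type*} [Group G] [MulAction G Ω] {a : Ω} {t : G} {Q : Subgroup G}

theorem rankOne_t_inv (hS : Cfsg.IsRankOneSetup G Ω a t Q) : t⁻¹ = t :=
  inv_eq_of_mul_eq_one_left hS.mul_self

theorem rankOne_t_smul (hS : Cfsg.IsRankOneSetup G Ω a t Q) : t • t • a = a := by
  rw [← mul_smul, hS.mul_self, one_smul]

/-- `t` normalises the two-point stabiliser `D`. -/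
theorem rankOne_conj_mem_D (hS : Cfsg.IsRankOneSetup G Ω a t Q) {d : G}
    (hd : d ∈ MulAction.stabilizer G a ⊓ MulAction.stabilizer G (t • a)) :
    t * d * t ∈ MulAction.stabilizer G a ⊓ MulAction.stabilizer G (t • a) := by
  obtain ⟨h1, h2⟩ := Subgroup.mem_inf.mp hd
  rw [MulAction.mem_stabilizer_iff] at h1 h2
  refine Subgroup.mem_inf.mpr ⟨?_, ?_⟩
  · rw [MulAction.mem_stabilizer_iff, mul_smul, mul_smul, h2, rankOne_t_smul hS]
  · rw [MulAction.mem_stabilizer_iff, mul_smul, mul_smul, rankOne_t_smul hS, h1]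

theorem rankOne_D_le (_hS : Cfsg.IsRankOneSetup G Ω a t Q) {d : G}
    (hd : d ∈ MulAction.stabilizer G a ⊓ MulAction.stabilizer G (t • a)) :
    d ∈ MulAction.stabilizer G a := (Subgroup.mem_inf.mp hd).1

/-- If `q ∈ Q` and `t q t` fixes `a`, then `q = 1`. -/
theorem rankOne_eq_one_of_conj_mem (hS : Cfsg.IsRankOneSetup G Ω a t Q) {q : G} (hq : q ∈ Q)
    (h : t * q * t ∈ MulAction.stabilizer G a) : q = 1 := by
  have h1 : q ∈ Q ⊓ MulAction.stabilizer G (t • a) := by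
    refine Subgroup.mem_inf.mpr ⟨hq, ?_⟩
    rw [MulAction.mem_stabilizer_iff] at h ⊢
    have h2 : t • (t * q * t) • a = t • a := by rw [h]
    rw [← mul_smul] at h2
    have e : t * (t * q * t) = q * t := by
      calc t * (t * q * t) = (t * t) * q * t := by group
        _ = q * t := by rw [hS.mul_self, one_mul]
    rw [e, mul_smul] at h2
    exact h2
  rw [hS.inf_eq_bot, Subgroup.mem_bot] at h1
  exact h1

/-- Uniqueness of the canonical form `g h t f` with `g, f ∈ Q`, `h ∈ D`. -/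
theorem rankOne_unique (hS : Cfsg.IsRankOneSetup G Ω a t Q) {g h f g' h' f' : G}
    (hg : g ∈ Q) (hh : h ∈ MulAction.stabilizer G a ⊓ MulAction.stabilizer G (t • a)) (hf : f ∈ Q)
    (hg' : g' ∈ Q) (hh' : h' ∈ MulAction.stabilizer G a ⊓ MulAction.stabilizer G (t • a))
    (hf' : f' ∈ Q) (e : g * h * t * f = g' * h' * t * f') : f = f' ∧ h = h' := by
  have hti := rankOne_t_inv hS
  -- t (f f'⁻¹) t = h⁻¹ g⁻¹ g' h'
  have e1 : t * (f * f'⁻¹) * t = h⁻¹ * g⁻¹ * g' * h' := by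
    have e2 : t * f = h⁻¹ * g⁻¹ * (g' * h' * t * f') := by
      rw [← e]; group
    calc t * (f * f'⁻¹) * t = (t * f) * f'⁻¹ * t := by group
      _ = h⁻¹ * g⁻¹ * (g' * h' * t * f') * f'⁻¹ * t := by rw [e2]
      _ = h⁻¹ * g⁻¹ * g' * h' * (t * t) := by group
      _ = h⁻¹ * g⁻¹ * g' * h' := by rw [hS.mul_self, mul_one]
  have hmem : h⁻¹ * g⁻¹ * g' * h' ∈ MulAction.stabilizer G a :=
    mul_mem (mul_mem (mul_mem (inv_mem (rankOne_D_le hS hh)) (inv_mem (hS.le hg))) (hS.le hg'))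
      (rankOne_D_le hS hh')
  rw [← e1] at hmem
  have hq : f * f'⁻¹ = 1 := rankOne_eq_one_of_conj_mem hS (Q.mul_mem hf (Q.inv_mem hf')) hmem
  have hff : f = f' := by
    calc f = (f * f'⁻¹) * f' := by group
      _ = f' := by rw [hq, one_mul]
  refine ⟨hff, ?_⟩
  subst hff
  have e3 : g * h = g' * h' := by
    have : g * h * (t * f) = g' * h' * (t * f) := by
      simpa [mul_assoc] using e
    exact mul_right_cancel this
  -- g'⁻¹ g = h' h⁻¹ ∈ Q ∩ D
  have e4 : g'⁻¹ * g = h' * h⁻¹ := by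
    calc g'⁻¹ * g = g'⁻¹ * (g * h) * h⁻¹ := by group
      _ = g'⁻¹ * (g' * h') * h⁻¹ := by rw [e3]
      _ = h' * h⁻¹ := by group
  have h5 : h' * h⁻¹ ∈ Q ⊓ MulAction.stabilizer G (t • a) := by
    refine Subgroup.mem_inf.mpr ⟨?_, ?_⟩
    · rw [← e4]; exact Q.mul_mem (Q.inv_mem hg') hg
    · exact mul_mem (Subgroup.mem_inf.mp hh').2 (inv_mem (Subgroup.mem_inf.mp hh).2)
  rw [hS.inf_eq_bot, Subgroup.mem_bot] at h5
  calc h = (h' * h⁻¹)⁻¹ * h' := by group
    _ = h' := by rw [h5, inv_one, one_mul]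

end Cfsg.Agent.Lib.Helper27
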