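import Mathlib

/-!
# Outer automorphisms of a group with a Ree-type rank-one presentation (abstract part)

`Ok θ T H w`: a finite group `G` with elements `T t u v` (`t u v : F`), `H s` (`s : Fˣ`), `w`
satisfying the relations of the Ree group `²G₂` over the finite field `F` of characteristic three
with the Tits endomorphism `θ` (`θ² = Frobenius`), a Bruhat decomposition, the `T t u v` forming a
Sylow 3-subgroup, and field automorphisms.  Conclusion (`Ok.card_out`): `Aut G / Inn G` is in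
bijection with the ring automorphisms of `F`.
-/

set_option autoImplicit false
set_option linter.unusedSectionVars false

namespace Cfsg.Agent.Lib.Helper27.ReeOut

open scoped Pointwise

variable {F : Type*} [Field F] [Finite F] [CharP F 3] {G : Type*} [Group G] [Finite G]

/-- the hypotheses -/
structure Ok (θ : F →+* F) (T : F → F → F → G) (H : Fˣ → G) (w : G) : Prop where
  θθ : ∀ x, θ (θ x) = x ^ 3
  θne : ∃ a, θ a ≠ a
  T_mul : ∀ t u v t' u' v', T t u v * T t' u' v' =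
    T (t + t') (u + u' - t * θ t') (v + v' - t' * u + t * t' * θ t' - t ^ 2 * θ t')
  T_inj : ∀ t u v t' u' v', T t u v = T t' u' v' → t = t' ∧ u = u' ∧ v = v'
  H_mul : ∀ s s', H (s * s') = H s * H s'
  H_inj : ∀ s, H s = 1 → s = 1
  HT : ∀ (s : Fˣ) (t u v : F),
    H s * T t u v = T (s * t) (θ s * s * u) (θ s * (s : F) ^ 2 * v) * H s
  w_sq : w * w = 1
  wH : ∀ s, ∃ s', w * H s * w = H s'
  cases : ∀ g : G, (∃ t u v s, g = T t u v * H s) ∨
    ∃ t u v t' u' v' s, g = T t u v * w * (T t' u' v' * H s)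
  uniq : ∀ t u v t' u' v' s, T t u v * w * (T t' u' v' * H s) = w → t = 0 ∧ u = 0 ∧ v = 0
  syl : ∃ P : Sylow 3 G, ∀ g, g ∈ P ↔ ∃ t u v, g = T t u v
  field : ∀ σ : F ≃+* F, ∃ φ : MulAut G, (∀ t u v, φ (T t u v) = T (σ t) (σ u) (σ v)) ∧ φ w = w

variable {θ : F →+* F} {T : F → F → F → G} {H : Fˣ → G} {w : G}

theorem T_congr {T : F → F → F → G} {a b c a' b' c' : F} (h1 : a = a') (h2 : b = b')
    (h3 : c = c') : T a b c = T a' b' c' := by
  subst h1 h2 h3
  rfl

theorem three_eq : (3 : F) = 0 := by exact_mod_cast CharP.cast_eq_zero F 3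

theorem eq_zero_of_eq_neg {x : F} (hx : x = -x) : x = 0 := by
  have h3 : (3 : F) = 0 := three_eq
  linear_combination (-1 : F) * hx + x * h3

namespace Ok

variable (h : Ok θ T H w)
include h

theorem T_zero : T 0 0 0 = 1 := by
  have e : T 0 0 0 * T 0 0 0 = T 0 0 0 := by
    rw [h.T_mul]
    exact T_congr (by simp) (by simp) (by simp)
  exact mul_left_cancel (e.trans (mul_one _).symm)

theorem T_split (t u v : F) : T t u v = T t 0 0 * T 0 u v := by
  rw [h.T_mul]
  exact T_congr (by simp) (by simp) (by simp)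

theorem T0_mul (u v u' v' : F) : T 0 u v * T 0 u' v' = T 0 (u + u') (v + v') := by
  rw [h.T_mul]
  exact T_congr (by simp) (by simp) (by simp)

theorem T0_mul_T (a b t u v : F) : T 0 a b * T t u v = T t (a + u) (b + v - t * a) := by
  rw [h.T_mul]
  exact T_congr (by ring) (by ring) (by ring)

theorem T_mul_T0 (t u v a b : F) : T t u v * T 0 a b = T t (u + a) (v + b) := by
  rw [h.T_mul]
  exact T_congr (by simp) (by simp) (by simp)

theorem T_inv (t u v : F) : ∃ u' v', (T t u v)⁻¹ = T (-t) u' v' := by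
  refine ⟨-u + t * θ (-t), -v + (-t) * u - t * (-t) * θ (-t) + t ^ 2 * θ (-t), ?_⟩
  apply inv_eq_of_mul_eq_one_right
  rw [h.T_mul, ← h.T_zero]
  exact T_congr (by ring) (by ring) (by ring)

theorem T_cube (t u v : F) : T t u v * T t u v * T t u v = T 0 0 (-(t ^ 2 * θ t)) := by
  have h3 : (3 : F) = 0 := three_eq
  rw [h.T_mul, h.T_mul]
  exact T_congr (by linear_combination t * h3) (by linear_combination (u - t * θ t) * h3)
    (by linear_combination (v - t * u) * h3)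

theorem H_one : H 1 = 1 := by
  have := h.H_mul 1 1
  rw [mul_one] at this
  exact mul_left_cancel (this.symm.trans (mul_one _).symm)

theorem H_inv (s : Fˣ) : (H s)⁻¹ = H s⁻¹ := by
  apply inv_eq_of_mul_eq_one_right
  rw [← h.H_mul, mul_inv_cancel, h.H_one]

theorem H_injective : Function.Injective H := by
  intro s s' e
  have : H (s * s'⁻¹) = 1 := by
    rw [h.H_mul, ← h.H_inv, e, mul_inv_cancel]
  have := h.H_inj _ this
  exact mul_inv_eq_one.1 this

theorem θ_inj : Function.Injective θ := θ.injective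

theorem θ_fix_of_cube {d : F} (hd : d ^ 3 = d) : θ d = d := by
  have e : d * (d - 1) * (d + 1) = 0 := by linear_combination hd
  rcases mul_eq_zero.1 e with e1 | e1
  · rcases mul_eq_zero.1 e1 with e2 | e2
    · rw [e2, map_zero]
    · have : d = 1 := by linear_combination e2
      rw [this, map_one]
  · have : d = -1 := by linear_combination e1
    rw [this, map_neg, map_one]

/-- `c ↦ c + θ c` is onto -/
theorem θadd_surj (x : F) : ∃ c, c + θ c = x := by
  have hinj : Function.Injective (fun c : F => c + θ c) := by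
    intro c c' e
    have e' : c + θ c = c' + θ c' := e
    have hd : θ (c - c') = -(c - c') := by
      rw [map_sub]
      linear_combination e'
    have hd3 : (c - c') ^ 3 = c - c' := by
      rw [← h.θθ, hd, map_neg, hd]
      ring
    have := h.θ_fix_of_cube hd3
    rw [hd] at this
    have h0 := eq_zero_of_eq_neg this.symm
    linear_combination h0
  exact Finite.injective_iff_surjective.1 hinj x

theorem κ_eq_one {s : F} (hs : θ s * s ^ 2 = 1) : s = 1 := by
  have hB : s ^ 3 * θ s ^ 2 = 1 := by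
    have := congrArg θ hs
    rw [map_mul, h.θθ, map_pow, map_one] at this
    exact this
  linear_combination (-s) * hB + (θ s * s ^ 2 + 1) * hs

theorem κ_surj (k : F) : ∃ c : F, θ c * c ^ 2 = k := by
  have hinj : Function.Injective (fun c : F => θ c * c ^ 2) := by
    intro c c' e
    have e' : θ c * c ^ 2 = θ c' * c' ^ 2 := e
    by_cases hc' : c' = 0
    · rw [hc', map_zero, zero_mul] at e'
      rcases mul_eq_zero.1 e' with e1 | e1
      · rw [hc']
        exact (map_eq_zero θ).1 e1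
      · rw [hc']
        exact pow_eq_zero_iff (two_ne_zero) |>.1 e1
    · have hne : θ c' * c' ^ 2 ≠ 0 :=
        mul_ne_zero (fun e1 => hc' ((map_eq_zero θ).1 e1)) (pow_ne_zero 2 hc')
      have e2 : θ (c / c') * (c / c') ^ 2 = 1 := by
        rw [map_div₀, div_pow, div_mul_div_comm, e', div_self hne]
      have := h.κ_eq_one e2
      exact (div_eq_one_iff_eq hc').1 this
  exact Finite.injective_iff_surjective.1 hinj k

theorem κ_surj_unit {k : F} (hk : k ≠ 0) : ∃ s : Fˣ, θ (s : F) * (s : F) ^ 2 = k := by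
  obtain ⟨c, hc⟩ := h.κ_surj k
  have hc0 : c ≠ 0 := by
    rintro rfl
    rw [map_zero, zero_mul] at hc
    exact hk hc.symm
  exact ⟨Units.mk0 c hc0, hc⟩

/-- the unipotent subgroup -/
def Qs : Subgroup G where
  carrier := {g | ∃ t u v, g = T t u v}
  mul_mem' := by
    rintro x y ⟨t, u, v, rfl⟩ ⟨t', u', v', rfl⟩
    exact ⟨_, _, _, h.T_mul t u v t' u' v'⟩
  one_mem' := ⟨0, 0, 0, h.T_zero.symm⟩
  inv_mem' := by
    rintro x ⟨t, u, v, rfl⟩
    obtain ⟨u', v', e⟩ := h.T_inv t u v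
    exact ⟨_, _, _, e⟩

theorem mem_Qs (g : G) : g ∈ h.Qs ↔ ∃ t u v, g = T t u v := Iff.rfl

theorem T_mem (t u v : F) : T t u v ∈ h.Qs := ⟨t, u, v, rfl⟩

theorem H_conj_T (s : Fˣ) (t u v : F) :
    H s * T t u v * (H s)⁻¹ = T (s * t) (θ s * s * u) (θ s * (s : F) ^ 2 * v) := by
  rw [h.HT, mul_assoc, mul_inv_cancel, mul_one]

/-- the Borel subgroup -/
def Bs : Subgroup G where
  carrier := {g | ∃ t u v s, g = T t u v * H s}
  mul_mem' := by
    rintro x y ⟨t, u, v, s, rfl⟩ ⟨t', u', v', s', rfl⟩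
    have e : T t u v * H s * (T t' u' v' * H s') =
        T t u v * T (s * t') (θ s * s * u') (θ s * (s : F) ^ 2 * v') * H (s * s') := by
      rw [mul_assoc, ← mul_assoc (H s), h.HT, mul_assoc, ← h.H_mul, ← mul_assoc]
    rw [h.T_mul] at e
    exact ⟨_, _, _, _, e⟩
  one_mem' := ⟨0, 0, 0, 1, by rw [h.T_zero, h.H_one, mul_one]⟩
  inv_mem' := by
    rintro x ⟨t, u, v, s, rfl⟩
    obtain ⟨u', v', e⟩ := h.T_inv t u v
    have e2 : (T t u v * H s)⁻¹ = H s⁻¹ * T (-t) u' v' := by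
      rw [mul_inv_rev, e, h.H_inv]
    rw [h.HT] at e2
    exact ⟨_, _, _, _, e2⟩

theorem mem_Bs (g : G) : g ∈ h.Bs ↔ ∃ t u v s, g = T t u v * H s := Iff.rfl

theorem Qs_le_Bs : h.Qs ≤ h.Bs := by
  rintro x ⟨t, u, v, rfl⟩
  exact ⟨t, u, v, 1, by rw [h.H_one, mul_one]⟩

theorem H_mem (s : Fˣ) : H s ∈ h.Bs := ⟨0, 0, 0, s, by rw [h.T_zero, one_mul]⟩

theorem w_inv : w⁻¹ = w := inv_eq_of_mul_eq_one_right h.w_sq

/-- the Borel subgroup normalises the unipotent subgroup -/
theorem conj_mem_Qs {x u : G} (hx : x ∈ h.Bs) (hu : u ∈ h.Qs) : x * u * x⁻¹ ∈ h.Qs := by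
  obtain ⟨a, b, c, s, rfl⟩ := hx
  obtain ⟨d, e', f, rfl⟩ := hu
  have e : T a b c * H s * T d e' f * (T a b c * H s)⁻¹
      = T a b c * (H s * T d e' f * (H s)⁻¹) * (T a b c)⁻¹ := by group
  rw [e, h.H_conj_T]
  exact h.Qs.mul_mem (h.Qs.mul_mem (h.T_mem a b c) (h.T_mem _ _ _))
    (h.Qs.inv_mem (h.T_mem a b c))

theorem conj_mem_Qs_iff {x u : G} (hx : x ∈ h.Bs) : x * u * x⁻¹ ∈ h.Qs ↔ u ∈ h.Qs := by
  constructor
  · intro hu
    have := h.conj_mem_Qs (h.Bs.inv_mem hx) hu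
    have e : x⁻¹ * (x * u * x⁻¹) * x⁻¹⁻¹ = u := by group
    rwa [e] at this
  · exact h.conj_mem_Qs hx

/-- `w u w ∈ B` forces `u = 1` -/
theorem eq_one_of_wuw {u : G} (hu : u ∈ h.Qs) (hb : w * u * w ∈ h.Bs) : u = 1 := by
  obtain ⟨a, b, c, rfl⟩ := hu
  obtain ⟨d, e', f, s, hcd⟩ := h.Bs.inv_mem hb
  have e : T a b c * w * (T d e' f * H s) = w := by
    rw [← hcd]
    have : T a b c * w * (w * T a b c * w)⁻¹ = w⁻¹ := by group
    rw [this, h.w_inv]
  obtain ⟨rfl, rfl, rfl⟩ := h.uniq a b c d e' f s e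
  exact h.T_zero

theorem T1_ne_one : T 1 0 0 ≠ 1 := by
  intro e
  rw [← h.T_zero] at e
  exact one_ne_zero (h.T_inj _ _ _ _ _ _ e).1

/-- an element conjugating a non-identity element of `Q` into `Q` lies in `B` -/
theorem mem_Bs_of_conj {x u : G} (hu : u ∈ h.Qs) (hu1 : u ≠ 1) (hx : x * u * x⁻¹ ∈ h.Qs) :
    x ∈ h.Bs := by
  rcases h.cases x with ⟨a, b, c, s, rfl⟩ | ⟨a, b, c, d, e', f, s, rfl⟩
  · exact ⟨a, b, c, s, rfl⟩
  · exfalso
    have hb : T d e' f * H s ∈ h.Bs := ⟨d, e', f, s, rfl⟩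
    have hu2 : (T d e' f * H s) * u * (T d e' f * H s)⁻¹ ∈ h.Qs := h.conj_mem_Qs hb hu
    have e : w * ((T d e' f * H s) * u * (T d e' f * H s)⁻¹) * w
        = (T a b c)⁻¹ * (T a b c * w * (T d e' f * H s) * u *
          (T a b c * w * (T d e' f * H s))⁻¹) * T a b c := by
      have : w * ((T d e' f * H s) * u * (T d e' f * H s)⁻¹) * w
          = w * ((T d e' f * H s) * u * (T d e' f * H s)⁻¹) * w⁻¹ := by rw [h.w_inv]
      rw [this]
      group
    have h3 : w * ((T d e' f * H s) * u * (T d e' f * H s)⁻¹) * w ∈ h.Bs := by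
      rw [e]
      exact h.Qs_le_Bs (h.Qs.mul_mem (h.Qs.mul_mem (h.Qs.inv_mem (h.T_mem a b c)) hx)
        (h.T_mem a b c))
    have h4 := h.eq_one_of_wuw hu2 h3
    apply hu1
    have : u = (T d e' f * H s)⁻¹ * ((T d e' f * H s) * u * (T d e' f * H s)⁻¹) *
        (T d e' f * H s) := by group
    rw [this, h4]
    group

/-- `B ∩ wBw` is the torus -/
theorem exists_H_of_mem {x : G} (hx : x ∈ h.Bs) (hx' : w * x * w ∈ h.Bs) : ∃ s, x = H s := by
  obtain ⟨a, b, c, s, rfl⟩ := hx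
  obtain ⟨s', hs'⟩ := h.wH s
  have e : w * T a b c * w = w * (T a b c * H s) * w * (H s')⁻¹ := by
    rw [← hs']
    have : w * (T a b c * H s) * w * (w * H s * w)⁻¹ = w * T a b c * w⁻¹ := by group
    rw [this, h.w_inv]
  have h1 : w * T a b c * w ∈ h.Bs := by
    rw [e]
    exact h.Bs.mul_mem hx' (h.Bs.inv_mem (h.H_mem _))
  have h2 := h.eq_one_of_wuw (h.T_mem a b c) h1
  exact ⟨s, by rw [h2, one_mul]⟩

theorem wH' (s : Fˣ) : ∃ s', w * H s * w⁻¹ = H s' := by
  rw [h.w_inv]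
  exact h.wH s

theorem eq_one_of_wuw' {u : G} (hu : u ∈ h.Qs) (hb : w * u * w⁻¹ ∈ h.Bs) : u = 1 := by
  rw [h.w_inv] at hb
  exact h.eq_one_of_wuw hu hb

theorem exists_H_of_mem' {x : G} (hx : x ∈ h.Bs) (hx' : w * x * w⁻¹ ∈ h.Bs) : ∃ s, x = H s := by
  rw [h.w_inv] at hx'
  exact h.exists_H_of_mem hx hx'

/-- admissible automorphisms: those preserving `Q` and `w Q w⁻¹` -/
def Adm (α : MulAut G) : Prop :=
  (∀ g, α g ∈ h.Qs ↔ g ∈ h.Qs) ∧ (∀ g, w * α g * w⁻¹ ∈ h.Qs ↔ w * g * w⁻¹ ∈ h.Qs)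

theorem adm_mul {α β : MulAut G} (hα : h.Adm α) (hβ : h.Adm β) : h.Adm (α * β) :=
  ⟨fun g => by rw [MulAut.mul_apply, hα.1, hβ.1], fun g => by rw [MulAut.mul_apply, hα.2, hβ.2]⟩

theorem adm_inv {α : MulAut G} (hα : h.Adm α) : h.Adm α⁻¹ :=
  ⟨fun g => by rw [← hα.1 (α⁻¹ g), MulAut.apply_inv_self],
   fun g => by rw [← hα.2 (α⁻¹ g), MulAut.apply_inv_self]⟩

theorem adm_conj_H (s : Fˣ) : h.Adm (MulAut.conj (H s)) := by
  constructor
  · intro g
    rw [MulAut.conj_apply]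
    exact h.conj_mem_Qs_iff (h.H_mem s)
  · intro g
    rw [MulAut.conj_apply]
    have e : w * (H s * g * (H s)⁻¹) * w⁻¹ = (w * H s * w⁻¹) * (w * g * w⁻¹) * (w * H s * w⁻¹)⁻¹ := by
      group
    obtain ⟨s', hs'⟩ := h.wH' s
    rw [e, hs']
    exact h.conj_mem_Qs_iff (h.H_mem _)

theorem adm_Bs {α : MulAut G} (hα : h.Adm α) {x : G} (hx : x ∈ h.Bs) : α x ∈ h.Bs := by
  apply h.mem_Bs_of_conj (u := α (T 1 0 0)) ((hα.1 _).2 (h.T_mem 1 0 0))
  · intro e
    exact h.T1_ne_one ((map_eq_one_iff α α.injective).1 e)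
  · rw [← map_inv, ← map_mul, ← map_mul, hα.1]
    exact h.conj_mem_Qs hx (h.T_mem 1 0 0)

theorem adm_Bs' {α : MulAut G} (hα : h.Adm α) {x : G} (hx : w * x * w⁻¹ ∈ h.Bs) :
    w * α x * w⁻¹ ∈ h.Bs := by
  have hu : w * α (w⁻¹ * T 1 0 0 * w) * w⁻¹ ∈ h.Qs := by
    rw [hα.2]
    have : w * (w⁻¹ * T 1 0 0 * w) * w⁻¹ = T 1 0 0 := by group
    rw [this]
    exact h.T_mem 1 0 0
  apply h.mem_Bs_of_conj hu
  · intro e
    have e1 : α (w⁻¹ * T 1 0 0 * w) = 1 := by
      have : α (w⁻¹ * T 1 0 0 * w) = w⁻¹ * (w * α (w⁻¹ * T 1 0 0 * w) * w⁻¹) * w := by group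
      rw [this, e]
      group
    have e2 := (map_eq_one_iff α α.injective).1 e1
    apply h.T1_ne_one
    have : T 1 0 0 = w * (w⁻¹ * T 1 0 0 * w) * w⁻¹ := by group
    rw [this, e2]
    group
  · have e : w * α x * w⁻¹ * (w * α (w⁻¹ * T 1 0 0 * w) * w⁻¹) * (w * α x * w⁻¹)⁻¹
        = w * α (x * (w⁻¹ * T 1 0 0 * w) * x⁻¹) * w⁻¹ := by
      simp only [map_mul, map_inv]
      group
    rw [e, hα.2]
    have e2 : w * (x * (w⁻¹ * T 1 0 0 * w) * x⁻¹) * w⁻¹ =
        (w * x * w⁻¹) * T 1 0 0 * (w * x * w⁻¹)⁻¹ := by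
      group
    rw [e2]
    exact h.conj_mem_Qs hx (h.T_mem 1 0 0)

theorem adm_H {α : MulAut G} (hα : h.Adm α) (s : Fˣ) : ∃ s', α (H s) = H s' := by
  apply h.exists_H_of_mem' (h.adm_Bs hα (h.H_mem s))
  apply h.adm_Bs' hα
  obtain ⟨s', hs'⟩ := h.wH' s
  rw [hs']
  exact h.H_mem _

/-- an admissible automorphism preserves the centre `{T 0 0 v}` of `Q` (the cubes) -/
theorem adm_Z {α : MulAut G} (hα : h.Adm α) (v : F) : ∃ v', α (T 0 0 v) = T 0 0 v' := by
  obtain ⟨c, hc⟩ := h.κ_surj (-v)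
  have e1 : T 0 0 v = T c 0 0 * T c 0 0 * T c 0 0 := by
    rw [h.T_cube]
    exact T_congr rfl rfl (by linear_combination hc)
  obtain ⟨t', u', v', e⟩ := (hα.1 (T c 0 0)).2 (h.T_mem c 0 0)
  refine ⟨-(t' ^ 2 * θ t'), ?_⟩
  rw [e1, map_mul, map_mul, e, h.T_cube]

/-- an admissible automorphism acts semilinearly on the centre of `Q` -/
theorem adm_semilinear {α : MulAut G} (hα : h.Adm α) :
    ∃ (c : F) (σ : F ≃+* F), c ≠ 0 ∧ ∀ b, α (T 0 0 b) = T 0 0 (c * σ b) := by
  choose β hβ using fun b => h.adm_Z hα b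
  have β_add : ∀ b b', β (b + b') = β b + β b' := by
    intro b b'
    have e0 : T 0 0 b * T 0 0 b' = T 0 0 (b + b') := by
      rw [h.T0_mul]
      exact T_congr rfl (by simp) rfl
    have := congrArg α e0
    rw [map_mul, hβ, hβ, hβ, h.T0_mul] at this
    exact ((h.T_inj _ _ _ _ _ _ this).2.2).symm
  have β_inj : Function.Injective β := by
    intro b b' e
    have : α (T 0 0 b) = α (T 0 0 b') := by rw [hβ, hβ, e]
    exact (h.T_inj _ _ _ _ _ _ (α.injective this)).2.2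
  have β_zero : β 0 = 0 := by
    have := β_add 0 0
    rw [add_zero] at this
    exact left_eq_add.1 this
  have key : ∀ k : F, k ≠ 0 → ∃ k' : F, ∀ d, β (k * d) = k' * β d := by
    intro k hk
    obtain ⟨s, hs⟩ := h.κ_surj_unit hk
    obtain ⟨s', hs'⟩ := h.adm_H hα s
    refine ⟨θ (s' : F) * (s' : F) ^ 2, fun d => ?_⟩
    have e1 : H s * T 0 0 d = T 0 0 (k * d) * H s := by
      rw [h.HT, mul_zero, mul_zero, hs]
    have e2 : H s' * T 0 0 (β d) = T 0 0 (θ (s' : F) * (s' : F) ^ 2 * β d) * H s' := by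
      rw [h.HT, mul_zero, mul_zero]
    have := congrArg α e1
    rw [map_mul, map_mul, hs', hβ, hβ, e2] at this
    exact ((h.T_inj _ _ _ _ _ _ (mul_right_cancel this)).2.2).symm
  have hc0 : β 1 ≠ 0 := fun e => one_ne_zero (β_inj (e.trans β_zero.symm))
  have hmul : ∀ k d, β (k * d) = β k / β 1 * β d := by
    intro k d
    by_cases hk : k = 0
    · rw [hk, zero_mul, β_zero, zero_div, zero_mul]
    · obtain ⟨k', hk'⟩ := key k hk
      have h1 := hk' 1
      rw [mul_one] at h1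
      rw [hk' d, h1, mul_div_cancel_right₀ _ hc0]
  let σ₀ : F →+* F :=
    { toFun := fun k => β k / β 1
      map_one' := div_self hc0
      map_mul' := fun k d => by rw [hmul k d, mul_div_assoc]
      map_zero' := by rw [β_zero, zero_div]
      map_add' := fun k d => by rw [β_add, add_div] }
  have hbij : Function.Bijective σ₀ :=
    ⟨σ₀.injective, Finite.injective_iff_surjective.1 σ₀.injective⟩
  refine ⟨β 1, RingEquiv.ofBijective σ₀ hbij, hc0, fun b => ?_⟩
  rw [hβ]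
  refine T_congr rfl rfl ?_
  show β b = β 1 * (β b / β 1)
  field_simp

/-- there is a unit `s` with `θ s * s ≠ 1` -/
theorem exists_unit2 : ∃ s : Fˣ, θ (s : F) * (s : F) ≠ 1 := by
  have h3 : (3 : F) = 0 := three_eq
  obtain ⟨a, ha⟩ := h.θne
  have ha0 : a ≠ 0 := by
    rintro rfl
    exact ha (map_zero θ)
  have ha1 : a + 1 ≠ 0 := by
    intro e
    have : a = -1 := by linear_combination e
    rw [this, map_neg, map_one] at ha
    exact ha rfl
  by_cases hc : θ a * a = 1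
  · refine ⟨Units.mk0 (a + 1) ha1, ?_⟩
    rw [Units.val_mk0, map_add, map_one]
    intro e
    have e1 : (a - 1) ^ 2 = 0 := by linear_combination a * e - a * hc - hc - a * h3
    have e2 : a = 1 := by
      have := pow_eq_zero_iff (two_ne_zero) |>.1 e1
      linear_combination this
    rw [e2, map_one] at ha
    exact ha rfl
  · exact ⟨Units.mk0 a ha0, hc⟩

/-- an admissible automorphism fixing `T 0 0 b` fixes the torus -/
theorem adm_fix_H {α : MulAut G} (hα : h.Adm α) (h0 : ∀ b, α (T 0 0 b) = T 0 0 b) (s : Fˣ) :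
    α (H s) = H s := by
  obtain ⟨s', hs'⟩ := h.adm_H hα s
  have e1 : H s * T 0 0 1 = T 0 0 (θ (s : F) * (s : F) ^ 2) * H s := by
    rw [h.HT, mul_zero, mul_zero, mul_one]
  have e2 : H s' * T 0 0 1 = T 0 0 (θ (s' : F) * (s' : F) ^ 2) * H s' := by
    rw [h.HT, mul_zero, mul_zero, mul_one]
  have := congrArg α e1
  rw [map_mul, map_mul, hs', h0, h0, e2] at this
  have e := (h.T_inj _ _ _ _ _ _ (mul_right_cancel this)).2.2
  have hs0 : (s : F) ≠ 0 := s.ne_zero
  have hθs0 : θ (s : F) ≠ 0 := fun e => hs0 ((map_eq_zero θ).1 e)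
  have e3 : θ ((s' : F) / (s : F)) * ((s' : F) / (s : F)) ^ 2 = 1 := by
    rw [map_div₀, div_pow, div_mul_div_comm, e, div_self (mul_ne_zero hθs0 (pow_ne_zero 2 hs0))]
  have e4 := h.κ_eq_one e3
  have e5 : s' = s := by
    apply Units.ext
    exact (div_eq_one_iff_eq hs0).1 e4
  rw [hs', e5]

/-- an admissible automorphism fixing the centre of `Q` pointwise fixes `Q` pointwise -/
theorem adm_fix_T {α : MulAut G} (hα : h.Adm α) (h0 : ∀ b, α (T 0 0 b) = T 0 0 b) (t u v : F) :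
    α (T t u v) = T t u v := by
  have h3 : (3 : F) = 0 := three_eq
  have hH := h.adm_fix_H hα h0
  -- the level `Q₁ = {T 0 u v}`
  have hQ1 : ∀ u, ∃ u' v', α (T 0 u 0) = T 0 u' v' := by
    intro u
    obtain ⟨t', u', v', e⟩ := (hα.1 (T 0 u 0)).2 (h.T_mem 0 u 0)
    have e1 : T 0 u 0 * T 0 u 0 * T 0 u 0 = 1 := by
      rw [h.T_cube, ← h.T_zero]
      exact T_congr rfl rfl (by simp)
    have e2 := congrArg α e1
    rw [map_mul, map_mul, e, h.T_cube, map_one, ← h.T_zero] at e2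
    have e3 := (h.T_inj _ _ _ _ _ _ e2).2.2
    have ht' : t' = 0 := by
      rcases mul_eq_zero.1 (neg_eq_zero.1 e3) with e4 | e4
      · exact pow_eq_zero_iff (two_ne_zero) |>.1 e4
      · exact (map_eq_zero θ).1 e4
    exact ⟨u', v', by rw [e, ht']⟩
  choose β γ hβγ using hQ1
  have hT0 : ∀ u v, α (T 0 u v) = T 0 (β u) (γ u + v) := by
    intro u v
    have e1 : T 0 u v = T 0 u 0 * T 0 0 v := by
      rw [h.T0_mul]
      exact T_congr rfl (by simp) (by simp)
    rw [e1, map_mul, hβγ, h0, h.T0_mul]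
    exact T_congr rfl (by simp) rfl
  have hadd0 : ∀ u u', β (u + u') = β u + β u' ∧ γ (u + u') = γ u + γ u' := by
    intro u u'
    have e1 : T 0 u 0 * T 0 u' 0 = T 0 (u + u') 0 := by
      rw [h.T0_mul]
      exact T_congr rfl rfl (by simp)
    have := congrArg α e1
    rw [map_mul, hβγ, hβγ, hβγ, h.T0_mul] at this
    obtain ⟨-, e2, e3⟩ := h.T_inj _ _ _ _ _ _ this
    exact ⟨e2.symm, e3.symm⟩
  have hβ0 : β 0 = 0 := by
    have := (hadd0 0 0).1
    rw [add_zero] at this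
    exact left_eq_add.1 this
  have hHeq0 : ∀ (s : Fˣ) u, β (θ (s : F) * s * u) = θ (s : F) * s * β u ∧
      γ (θ (s : F) * s * u) = θ (s : F) * (s : F) ^ 2 * γ u := by
    intro s u
    have e1 : H s * T 0 u 0 = T 0 (θ (s : F) * s * u) 0 * H s := by
      rw [h.HT, mul_zero, mul_zero]
    have e2 : H s * T 0 (β u) (γ u) =
        T 0 (θ (s : F) * s * β u) (θ (s : F) * (s : F) ^ 2 * γ u) * H s := by
      rw [h.HT, mul_zero]
    have := congrArg α e1
    rw [map_mul, map_mul, hH, hβγ, hβγ, e2] at this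
    obtain ⟨-, e3, e4⟩ := h.T_inj _ _ _ _ _ _ (mul_right_cancel this)
    exact ⟨e3.symm, e4.symm⟩
  have hγ : ∀ u, γ u = 0 := by
    intro u
    have := (hHeq0 (-1) u).2
    simp only [Units.val_neg, Units.val_one, map_neg, map_one] at this
    have e1 : γ u = γ ((-1 : F) * -1 * u) := by
      congr 1
      ring
    apply eq_zero_of_eq_neg
    linear_combination e1 + this
  have hP : ∀ s u : F, β (θ s * s * u) = θ s * s * β u := by
    intro s u
    by_cases hs : s = 0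
    · rw [hs, map_zero, zero_mul, zero_mul, zero_mul, hβ0]
    · exact (hHeq0 (Units.mk0 s hs) u).1
  have hsub0 : ∀ u u', β (u - u') = β u - β u' := by
    intro u u'
    have := (hadd0 (u - u') u').1
    rw [sub_add_cancel] at this
    linear_combination -this
  have hlin : ∀ x u, β (x * u) = x * β u := by
    intro x u
    obtain ⟨c, rfl⟩ := h.θadd_surj x
    have e : (c + θ c) * u = θ (1 - c) * (1 - c) * u - θ (1 + c) * (1 + c) * u := by
      simp only [map_sub, map_add, map_one]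
      linear_combination (c * u + θ c * u) * h3
    rw [e, hsub0, hP, hP]
    simp only [map_sub, map_add, map_one]
    linear_combination (-(c * β u) - θ c * β u) * h3
  have hβ : ∀ u, β u = β 1 * u := by
    intro u
    have := hlin u 1
    rw [mul_one] at this
    rw [this, mul_comm]
  -- the level `t`
  have hQ : ∀ t, ∃ a b c, α (T t 0 0) = T a b c := fun t => (hα.1 _).2 (h.T_mem t 0 0)
  choose A B C hABC using hQ
  have hT : ∀ t u v, α (T t u v) = T (A t) (B t + β 1 * u) (C t + v) := by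
    intro t u v
    rw [h.T_split t u v, map_mul, hABC, hT0, hγ, zero_add, h.T_mul_T0, hβ u]
  have hHeq : ∀ (s : Fˣ) t, A (s * t) = s * A t ∧ B (s * t) = θ (s : F) * s * B t ∧
      C (s * t) = θ (s : F) * (s : F) ^ 2 * C t := by
    intro s t
    have e1 : H s * T t 0 0 = T (s * t) 0 0 * H s := by
      rw [h.HT, mul_zero, mul_zero]
    have := congrArg α e1
    rw [map_mul, map_mul, hH, hABC, hABC, h.HT] at this
    obtain ⟨e2, e3, e4⟩ := h.T_inj _ _ _ _ _ _ (mul_right_cancel this)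
    exact ⟨e2.symm, e3.symm, e4.symm⟩
  have hA0 : A 0 = 0 ∧ B 0 = 0 ∧ C 0 = 0 := by
    have := hABC 0
    rw [h.T_zero, map_one, ← h.T_zero] at this
    obtain ⟨e1, e2, e3⟩ := h.T_inj _ _ _ _ _ _ this
    exact ⟨e1.symm, e2.symm, e3.symm⟩
  have hA : ∀ t, A t = A 1 * t := by
    intro t
    by_cases ht : t = 0
    · rw [ht, hA0.1, mul_zero]
    · have := (hHeq (Units.mk0 t ht) 1).1
      rw [Units.val_mk0, mul_one] at this
      rw [this, mul_comm]
  -- the product relation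
  have hrel : ∀ t t', A (t + t') = A t + A t' ∧
      B (t + t') + β 1 * (-(t * θ t')) = B t + B t' - A t * θ (A t') ∧
      C (t + t') + (t * t' * θ t' - t ^ 2 * θ t') =
        C t + C t' - A t' * B t + A t * A t' * θ (A t') - A t ^ 2 * θ (A t') := by
    intro t t'
    have e1 : T t 0 0 * T t' 0 0 =
        T (t + t') (-(t * θ t')) (t * t' * θ t' - t ^ 2 * θ t') := by
      rw [h.T_mul]
      exact T_congr rfl (by ring) (by ring)
    have := congrArg α e1
    rw [map_mul, hABC, hABC, hT, h.T_mul] at this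
    obtain ⟨e2, e3, e4⟩ := h.T_inj _ _ _ _ _ _ this
    exact ⟨e2.symm, e3.symm, e4.symm⟩
  have hab : A 1 * β 1 = 1 := by
    have e1 : T 0 1 0 * T 1 0 0 = T 1 1 (-1) := by
      rw [h.T0_mul_T]
      exact T_congr rfl (by ring) (by ring)
    have := congrArg α e1
    rw [map_mul, hT0, hABC, hT, hγ, h.T0_mul_T] at this
    obtain ⟨-, -, e4⟩ := h.T_inj _ _ _ _ _ _ this
    linear_combination (-1 : F) * e4
  have hb : β 1 = A 1 * θ (A 1) := by
    obtain ⟨x, hx⟩ := h.θne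
    have r1 := (hrel 1 x).2.1
    have r2 := (hrel x 1).2.1
    have ec : B (x + 1) = B (1 + x) := by rw [add_comm]
    rw [hA x, map_mul] at r1
    rw [hA x, map_one] at r2
    have key : (β 1 - A 1 * θ (A 1)) * (θ x - x) = 0 := by
      linear_combination r2 - r1 - ec
    rcases mul_eq_zero.1 key with e | e
    · linear_combination e
    · exact absurd (sub_eq_zero.1 e) hx
  have haθ : θ (A 1) * A 1 ^ 2 = 1 := by
    rw [hb] at hab
    linear_combination hab
  have ha1 : A 1 = 1 := h.κ_eq_one haθ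
  have hb1 : β 1 = 1 := by rw [hb, ha1, map_one, mul_one]
  have hAt : ∀ t, A t = t := fun t => by rw [hA, ha1, one_mul]
  have hBadd : ∀ t t', B (t + t') = B t + B t' := by
    intro t t'
    have := (hrel t t').2.1
    simp only [hAt, hb1] at this
    linear_combination this
  have hB : ∀ t, B t = 0 := by
    intro t
    have e1 := (hHeq (-1) t).2.1
    simp only [Units.val_neg, Units.val_one, map_neg, map_one] at e1
    have e2 : B (-1 * t) + B t = 0 := by
      rw [← hBadd]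
      have : (-1 : F) * t + t = 0 := by ring
      rw [this, hA0.2.1]
    apply eq_zero_of_eq_neg
    linear_combination e2 - e1
  have hCadd : ∀ t t', C (t + t') = C t + C t' := by
    intro t t'
    have := (hrel t t').2.2
    simp only [hAt, hB] at this
    linear_combination this
  have hC : ∀ t, C t = 0 := by
    intro t
    obtain ⟨x, hx⟩ := h.θne
    have hx0 : x ≠ 0 := by
      rintro rfl
      exact hx (map_zero θ)
    have hx1 : x + 1 ≠ 0 := by
      intro e
      have : x = -1 := by linear_combination e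
      rw [this, map_neg, map_one] at hx
      exact hx rfl
    have hx2 : 1 - x ≠ 0 := by
      intro e
      have : x = 1 := by linear_combination -e
      rw [this, map_one] at hx
      exact hx rfl
    have eq1 := (hHeq (Units.mk0 x hx0) t).2.2
    have eq2 := (hHeq (Units.mk0 (x + 1) hx1) t).2.2
    rw [Units.val_mk0] at eq1 eq2
    rw [map_add, map_one] at eq2
    have eq3 : C ((x + 1) * t) = C (x * t) + C t := by
      rw [add_mul, one_mul, hCadd]
    have key : (θ x - x) * (1 - x) * C t = 0 := by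
      linear_combination (-1 : F) * eq2 + eq3 + eq1 - ((x * θ x + x) * C t) * h3
    rcases mul_eq_zero.1 key with e | e
    · rcases mul_eq_zero.1 e with e' | e'
      · exact absurd (sub_eq_zero.1 e') hx
      · exact absurd e' hx2
    · exact e
  rw [hT, hAt, hB, hC, hb1]
  exact T_congr rfl (by ring) (by ring)

/-- an admissible automorphism fixing the centre of `Q` pointwise fixes `w` -/
theorem adm_fix_w {α : MulAut G} (hα : h.Adm α) (h0 : ∀ b, α (T 0 0 b) = T 0 0 b) : α w = w := by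
  have hH := h.adm_fix_H hα h0
  have hT := h.adm_fix_T hα h0
  have hww : w * w = 1 := h.w_sq
  have hx : w * α w ∈ h.Bs := by
    apply h.mem_Bs_of_conj (h.T_mem 1 0 0) h.T1_ne_one
    have e : w * α w * T 1 0 0 * (w * α w)⁻¹ = w * α (w * T 1 0 0 * w⁻¹) * w⁻¹ := by
      rw [map_mul, map_mul, map_inv, hT]
      group
    rw [e, hα.2]
    have e2 : w * (w * T 1 0 0 * w⁻¹) * w⁻¹ = (w * w) * T 1 0 0 * (w * w)⁻¹ := by group
    rw [e2, hww, one_mul, inv_one, mul_one]
    exact h.T_mem 1 0 0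
  obtain ⟨a, b, c, s₀, hx⟩ := hx
  have hαw : α w = w * (T a b c * H s₀) := by
    rw [← hx, ← mul_assoc, hww, one_mul]
  have hcomm : ∀ s₁ : Fˣ, T a b c * H s₁ = H s₁ * T a b c := by
    intro s₁
    obtain ⟨s₂, hs₂⟩ := h.wH' s₁
    have e := congrArg α hs₂
    rw [map_mul, map_mul, map_inv, hH, hH, hαw] at e
    have e' : w * (T a b c * H s₀) * H s₁ * (w * (T a b c * H s₀))⁻¹ = w * H s₁ * w⁻¹ := by
      rw [e, hs₂]
    have e2 : (T a b c * H s₀) * H s₁ * (T a b c * H s₀)⁻¹ = H s₁ := by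
      have : (T a b c * H s₀) * H s₁ * (T a b c * H s₀)⁻¹
          = w⁻¹ * (w * (T a b c * H s₀) * H s₁ * (w * (T a b c * H s₀))⁻¹) * w := by group
      rw [this, e']
      group
    have e3 : H s₀ * H s₁ * (H s₀)⁻¹ = H s₁ := by
      rw [← h.H_mul, h.H_inv, ← h.H_mul, mul_comm s₀ s₁, mul_assoc, mul_inv_cancel, mul_one]
    have e4 : T a b c * H s₁ * (T a b c)⁻¹ = H s₁ := by
      have : T a b c * H s₁ * (T a b c)⁻¹ =
          T a b c * (H s₀ * H s₁ * (H s₀)⁻¹) * (T a b c)⁻¹ := by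
        rw [e3]
      rw [this]
      have : T a b c * (H s₀ * H s₁ * (H s₀)⁻¹) * (T a b c)⁻¹
          = (T a b c * H s₀) * H s₁ * (T a b c * H s₀)⁻¹ := by group
      rw [this, e2]
    calc T a b c * H s₁ = T a b c * H s₁ * (T a b c)⁻¹ * T a b c := by group
      _ = H s₁ * T a b c := by rw [e4]
  have h1 := hcomm (-1)
  rw [h.HT] at h1
  obtain ⟨ea, -, ec⟩ := h.T_inj _ _ _ _ _ _ (mul_right_cancel h1)
  simp only [Units.val_neg, Units.val_one, map_neg, map_one] at ea ec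
  have ha : a = 0 := eq_zero_of_eq_neg (by linear_combination ea)
  have hc : c = 0 := eq_zero_of_eq_neg (by linear_combination ec)
  obtain ⟨s₁, hs₁⟩ := h.exists_unit2
  have h2 := hcomm s₁
  rw [h.HT] at h2
  obtain ⟨-, eb, -⟩ := h.T_inj _ _ _ _ _ _ (mul_right_cancel h2)
  have hb : b = 0 := by
    have : (θ (s₁ : F) * (s₁ : F) - 1) * b = 0 := by linear_combination -eb
    rcases mul_eq_zero.1 this with h1 | h1
    · exact absurd (sub_eq_zero.1 h1) hs₁
    · exact h1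
  rw [ha, hb, hc, h.T_zero, one_mul] at hαw
  have hg : ∃ a b c d e' f s, w * T 1 0 0 * w⁻¹ = T a b c * w * (T d e' f * H s) := by
    rcases h.cases (w * T 1 0 0 * w⁻¹) with ⟨a, b, c, s, e⟩ | hc
    · exfalso
      exact h.T1_ne_one (h.eq_one_of_wuw' (h.T_mem 1 0 0) ⟨a, b, c, s, e⟩)
    · exact hc
  obtain ⟨a', b', c', d, e', f, s, hg⟩ := hg
  have e1 := congrArg α hg
  rw [map_mul, map_mul, map_inv, map_mul, map_mul, map_mul, hT, hT, hT, hH, hαw] at e1
  have e2 : w * H s₀ * T 1 0 0 * (w * H s₀)⁻¹ = w * T (s₀ : F) 0 0 * w⁻¹ := by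
    have : w * H s₀ * T 1 0 0 * (w * H s₀)⁻¹ = w * (H s₀ * T 1 0 0 * (H s₀)⁻¹) * w⁻¹ := by group
    rw [this, h.H_conj_T, mul_one, mul_zero, mul_zero]
  rw [e2] at e1
  have e3 : w * ((T 1 0 0)⁻¹ * T (s₀ : F) 0 0) * w⁻¹
      = (T d e' f * H s)⁻¹ * H s₀ * (T d e' f * H s) := by
    have : w * ((T 1 0 0)⁻¹ * T (s₀ : F) 0 0) * w⁻¹
        = (w * T 1 0 0 * w⁻¹)⁻¹ * (w * T (s₀ : F) 0 0 * w⁻¹) := by group
    rw [this, hg, e1]
    group
  have e4 : (T 1 0 0)⁻¹ * T (s₀ : F) 0 0 = 1 := by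
    apply h.eq_one_of_wuw' (h.Qs.mul_mem (h.Qs.inv_mem (h.T_mem 1 0 0)) (h.T_mem _ _ _))
    rw [e3]
    exact h.Bs.mul_mem (h.Bs.mul_mem (h.Bs.inv_mem ⟨d, e', f, s, rfl⟩) (h.H_mem s₀))
      ⟨d, e', f, s, rfl⟩
  have e5 : T (s₀ : F) 0 0 = T 1 0 0 := (inv_mul_eq_one.1 e4).symm
  have e6 := (h.T_inj _ _ _ _ _ _ e5).1
  have e7 : s₀ = 1 := Units.ext (by rw [e6, Units.val_one])
  rw [hαw, e7, h.H_one, mul_one]

/-- rigidity: an admissible automorphism fixing the centre of `Q` pointwise is trivial -/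
theorem adm_rigid {α : MulAut G} (hα : h.Adm α) (h0 : ∀ b, α (T 0 0 b) = T 0 0 b) : α = 1 := by
  have hH := h.adm_fix_H hα h0
  have hT := h.adm_fix_T hα h0
  have hw := h.adm_fix_w hα h0
  ext g
  rw [MulAut.one_apply]
  rcases h.cases g with ⟨a, b, c, s, rfl⟩ | ⟨a, b, c, d, e', f, s, rfl⟩
  · rw [map_mul, hT, hH]
  · rw [map_mul, map_mul, map_mul, hT, hT, hH, hw]

omit h in
theorem inv_apply_eq {α : MulAut G} {x y : G} : α⁻¹ x = y ↔ x = α y := by
  constructor
  · intro e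
    rw [← e, MulAut.apply_inv_self]
  · intro e
    rw [e, MulAut.inv_apply_self]

omit h in
theorem mem_smul_sylow (α : MulAut G) (P : Sylow 3 G) (x : G) :
    x ∈ (α • P : Sylow 3 G) ↔ α⁻¹ x ∈ P := by
  show x ∈ α • (P : Subgroup G) ↔ _
  rw [Subgroup.mem_pointwise_smul_iff_inv_smul_mem]
  rfl

/-- every automorphism is admissible up to an inner automorphism -/
theorem exists_adm (α : MulAut G) : ∃ g : G, h.Adm ((MulAut.conj g)⁻¹ * α) := by
  obtain ⟨P, hP⟩ := h.syl
  have hPQ : ∀ g, g ∈ P ↔ g ∈ h.Qs := hP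
  obtain ⟨g₁, hg₁⟩ := MulAction.exists_smul_eq G P (α • P)
  have E1 : ∀ y, g₁⁻¹ * α y * g₁ ∈ h.Qs ↔ y ∈ h.Qs := by
    intro y
    have h1 : α y ∈ (g₁ • P : Sylow 3 G) ↔ α y ∈ (α • P : Sylow 3 G) := by rw [hg₁]
    rw [Sylow.smul_def, mem_smul_sylow, mem_smul_sylow, MulAut.conj_inv_apply,
      MulAut.inv_apply_self, hPQ, hPQ] at h1
    exact h1
  have hα₁y : ∀ y, ((MulAut.conj g₁)⁻¹ * α) y = g₁⁻¹ * α y * g₁ := fun y => rfl
  obtain ⟨g₂, hg₂⟩ := MulAction.exists_smul_eq G P (((MulAut.conj g₁)⁻¹ * α) • (w • P))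
  have E2 : ∀ y, g₂⁻¹ * (g₁⁻¹ * α y * g₁) * g₂ ∈ h.Qs ↔ w⁻¹ * y * w ∈ h.Qs := by
    intro y
    have h1 : ((MulAut.conj g₁)⁻¹ * α) y ∈ (g₂ • P : Sylow 3 G) ↔
        ((MulAut.conj g₁)⁻¹ * α) y ∈ ((((MulAut.conj g₁)⁻¹ * α) • (w • P) : Sylow 3 G)) := by
      rw [hg₂]
    rw [Sylow.smul_def, mem_smul_sylow, mem_smul_sylow, MulAut.conj_inv_apply,
      MulAut.inv_apply_self, Sylow.smul_def, mem_smul_sylow, MulAut.conj_inv_apply, hPQ, hPQ,
      hα₁y] at h1
    exact h1
  rcases h.cases g₂ with ⟨a, b, c, s, hg⟩ | ⟨a, b, c, d, e', f, s, hg⟩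
  · exfalso
    have hB : g₂ ∈ h.Bs := ⟨a, b, c, s, hg⟩
    have h3 : ∀ y, y ∈ h.Qs ↔ w⁻¹ * y * w ∈ h.Qs := by
      intro y
      rw [← E2 y, ← E1 y]
      have := h.conj_mem_Qs_iff (h.Bs.inv_mem hB) (u := g₁⁻¹ * α y * g₁)
      rw [inv_inv] at this
      exact this.symm
    have h4 := (h3 (w * T 1 0 0 * w⁻¹)).2 (by
      have : w⁻¹ * (w * T 1 0 0 * w⁻¹) * w = T 1 0 0 := by group
      rw [this]
      exact h.T_mem 1 0 0)
    exact h.T1_ne_one (h.eq_one_of_wuw' (h.T_mem 1 0 0) (h.Qs_le_Bs h4))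
  · refine ⟨g₁ * T a b c, ?_⟩
    have hα₂ : ∀ y, ((MulAut.conj (g₁ * T a b c))⁻¹ * α) y
        = (T a b c)⁻¹ * (g₁⁻¹ * α y * g₁) * T a b c := by
      intro y
      rw [MulAut.mul_apply, MulAut.conj_inv_apply]
      group
    have hTB : (T a b c)⁻¹ ∈ h.Bs := h.Bs.inv_mem (h.Qs_le_Bs (h.T_mem a b c))
    constructor
    · intro y
      rw [hα₂]
      have := h.conj_mem_Qs_iff hTB (u := g₁⁻¹ * α y * g₁)
      rw [inv_inv] at this
      rw [this, E1]
    · intro y
      rw [hα₂]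
      have e2 := E2 y
      rw [hg] at e2
      have e3 : (T a b c * w * (T d e' f * H s))⁻¹ * (g₁⁻¹ * α y * g₁) *
          (T a b c * w * (T d e' f * H s))
          = (T d e' f * H s)⁻¹ * (w⁻¹ * ((T a b c)⁻¹ * (g₁⁻¹ * α y * g₁) * T a b c) * w)
            * (T d e' f * H s)⁻¹⁻¹ := by group
      rw [e3, h.conj_mem_Qs_iff (h.Bs.inv_mem ⟨d, e', f, s, rfl⟩)] at e2
      have hwi := h.w_inv
      have hc : ∀ z : G, w⁻¹ * z * w = w * z * w⁻¹ := fun z => by rw [hwi]
      rw [hc, hc] at e2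
      exact e2

/-- the outer automorphism group is in bijection with the automorphisms of the field -/
theorem card_out :
    Nat.card (MulAut G ⧸ (MulAut.conj : G →* MulAut G).range) = Nat.card (F ≃+* F) := by
  choose φ hφT hφw using h.field
  have hφadm : ∀ σ, h.Adm (φ σ) := by
    intro σ
    have h1 : ∀ g, φ σ g ∈ h.Qs ↔ g ∈ h.Qs := by
      intro g
      constructor
      · rintro ⟨a, b, c, e⟩
        have : φ σ g = φ σ (T (σ.symm a) (σ.symm b) (σ.symm c)) := by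
          rw [hφT, e, RingEquiv.apply_symm_apply, RingEquiv.apply_symm_apply,
            RingEquiv.apply_symm_apply]
        rw [(φ σ).injective this]
        exact h.T_mem _ _ _
      · rintro ⟨a, b, c, rfl⟩
        rw [hφT]
        exact h.T_mem _ _ _
    refine ⟨h1, fun g => ?_⟩
    have : w * φ σ g * w⁻¹ = φ σ (w * g * w⁻¹) := by rw [map_mul, map_mul, map_inv, hφw]
    rw [this, h1]
  have hφinv : ∀ (σ : F ≃+* F) (b : F), (φ σ)⁻¹ (T 0 0 b) = T 0 0 (σ.symm b) := by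
    intro σ b
    rw [inv_apply_eq, hφT, map_zero, RingEquiv.apply_symm_apply]
  let Ψ : (F ≃+* F) → MulAut G ⧸ (MulAut.conj : G →* MulAut G).range :=
    fun σ => QuotientGroup.mk (φ σ)
  have hinj : Function.Injective Ψ := by
    intro σ τ e
    have e1 : (φ σ)⁻¹ * φ τ ∈ (MulAut.conj : G →* MulAut G).range := QuotientGroup.eq.1 e
    obtain ⟨g, hg⟩ := e1
    have hadm : h.Adm (MulAut.conj g) := by
      rw [hg]
      exact h.adm_mul (h.adm_inv (hφadm σ)) (hφadm τ)
    have hgB : g ∈ h.Bs := by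
      apply h.mem_Bs_of_conj (h.T_mem 1 0 0) h.T1_ne_one
      have := (hadm.1 (T 1 0 0)).2 (h.T_mem 1 0 0)
      rwa [MulAut.conj_apply] at this
    have hgB' : w * g * w⁻¹ ∈ h.Bs := by
      apply h.mem_Bs_of_conj (h.T_mem 1 0 0) h.T1_ne_one
      have := (hadm.2 (w⁻¹ * T 1 0 0 * w)).2 (by
        have : w * (w⁻¹ * T 1 0 0 * w) * w⁻¹ = T 1 0 0 := by group
        rw [this]
        exact h.T_mem 1 0 0)
      rw [MulAut.conj_apply] at this
      have e : w * g * w⁻¹ * T 1 0 0 * (w * g * w⁻¹)⁻¹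
          = w * (g * (w⁻¹ * T 1 0 0 * w) * g⁻¹) * w⁻¹ := by group
      rw [e]
      exact this
    obtain ⟨s, rfl⟩ := h.exists_H_of_mem' hgB hgB'
    have e3 : ∀ b, σ.symm (τ b) = θ (s : F) * (s : F) ^ 2 * b := by
      intro b
      have e2 : ((φ σ)⁻¹ * φ τ) (T 0 0 b) = T 0 0 (σ.symm (τ b)) := by
        rw [MulAut.mul_apply, hφT, map_zero, hφinv]
      rw [← hg, MulAut.conj_apply, h.H_conj_T, mul_zero, mul_zero] at e2
      exact ((h.T_inj _ _ _ _ _ _ e2).2.2).symm
    have e4 : θ (s : F) * (s : F) ^ 2 = 1 := by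
      have := e3 1
      rw [map_one, map_one, mul_one] at this
      exact this.symm
    apply RingEquiv.ext
    intro b
    have := congrArg σ (e3 b)
    rw [e4, one_mul, RingEquiv.apply_symm_apply] at this
    exact this.symm
  have hsurj : Function.Surjective Ψ := by
    intro x
    obtain ⟨α, rfl⟩ := QuotientGroup.mk_surjective x
    obtain ⟨g, hg⟩ := h.exists_adm α
    obtain ⟨c, σ, hc, hcσ⟩ := h.adm_semilinear hg
    have hc' : σ.symm c ≠ 0 := fun e => hc (by
      have := congrArg σ e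
      rwa [RingEquiv.apply_symm_apply, map_zero] at this)
    obtain ⟨s, hs⟩ := h.κ_surj_unit hc'
    refine ⟨σ, ?_⟩
    have hρ : (φ σ * MulAut.conj (H s))⁻¹ * ((MulAut.conj g)⁻¹ * α) = 1 := by
      apply h.adm_rigid (h.adm_mul (h.adm_inv (h.adm_mul (hφadm σ) (h.adm_conj_H s))) hg)
      intro b
      rw [MulAut.mul_apply, hcσ, inv_apply_eq, MulAut.mul_apply,
        MulAut.conj_apply, h.H_conj_T, mul_zero, mul_zero, hφT, map_zero, map_mul, hs,
        RingEquiv.apply_symm_apply]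
    have hα : α = MulAut.conj g * (φ σ * MulAut.conj (H s)) := by
      have := inv_mul_eq_one.1 hρ
      rw [this]
      group
    show QuotientGroup.mk (φ σ) = QuotientGroup.mk α
    rw [QuotientGroup.eq, hα]
    have e : (φ σ)⁻¹ * (MulAut.conj g * (φ σ * MulAut.conj (H s)))
        = MulAut.conj ((φ σ)⁻¹ g) * MulAut.conj (H s) := by
      ext y
      simp only [MulAut.mul_apply, MulAut.conj_apply, map_mul, map_inv, MulAut.inv_apply_self]
    rw [e]
    exact Subgroup.mul_mem _ ⟨_, rfl⟩ ⟨_, rfl⟩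
  exact (Nat.card_congr (Equiv.ofBijective Ψ ⟨hinj, hsurj⟩)).symm

end Ok

end Cfsg.Agent.Lib.Helper27.ReeOut
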