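import Mathlib
import Cfsg.Agent.Lib.Helper27.ReeOut
import Cfsg.Agent.Lib.Helper27.ReeGen
import Cfsg.Agent.Lib.Helper24.ReeRk
import Cfsg.Agent.Lib.Helper25.ChevMap
import Cfsg.Agent.S1069

/-!
# The outer automorphism group of `²G₂(q)` has order `2m+1`

Instantiation of `ReeOut.Ok` for `twistedG2 K (3^m)`: `T t u v = R e t u v`, `H s` the element of
`H¹` with `d₆ = s`, `w = n₀`; Bruhat cells from helper24's `Rk1`, field automorphisms entrywise.
-/

set_option autoImplicit false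

namespace Cfsg.Agent.Lib.Helper27.ReeOutInst

open Cfsg Cfsg.Lie Cfsg.Agent.Lib.Helper24 Matrix
open Cfsg.Agent.Lib.Helper27.Ree

variable {K : Type*} [Field K]

/-- the Tits endomorphism `x ↦ x^(3e)` -/
def thHom [CharP K 3] (e : ℕ) (he : e ≠ 0) (hadd : ∀ x y : K, (x + y) ^ e = x ^ e + y ^ e) :
    K →+* K where
  toFun := fun x => x ^ (3 * e)
  map_one' := one_pow _
  map_mul' := fun x y => mul_pow x y _
  map_zero' := zero_pow (by omega)
  map_add' := fun x y => by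
    have : Fact (Nat.Prime 3) := ⟨Nat.prime_three⟩
    show (x + y) ^ (3 * e) = x ^ (3 * e) + y ^ (3 * e)
    rw [pow_mul, pow_mul, pow_mul, add_pow_char, hadd]

theorem thHom_apply [CharP K 3] (e : ℕ) (he : e ≠ 0)
    (hadd : ∀ x y : K, (x + y) ^ e = x ^ e + y ^ e) (x : K) :
    thHom e he hadd x = x ^ (3 * e) := rfl

/-- the elements of `U¹` -/
noncomputable def TG (e : ℕ) (t u v : K) : ↥(twistedG2 K e) := ⟨R e t u v, reeU_mem e t u v⟩

/-- the Weyl element -/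
noncomputable def wG (e : ℕ) (he : e ≠ 0) : ↥(twistedG2 K e) := ⟨n0 K, n0_mem e he⟩

/-- the elements of `H¹`, parametrised by their character on the root `b` -/
noncomputable def HG {e : ℕ} (ψ : ↥(chevG2.diagonalSubgroup K ⊓ twistedG2 K e) ≃* Kˣ) (s : Kˣ) :
    ↥(twistedG2 K e) :=
  ⟨((ψ.symm (s ^ e) : ↥(chevG2.diagonalSubgroup K ⊓ twistedG2 K e)) : GL chevG2.Idx K),
    (ψ.symm (s ^ e)).2.2⟩

theorem R_inj [CharP K 3] (e : ℕ) {t u v t' u' v' : K} (h : R e t u v = R e t' u' v') :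
    t = t' ∧ u = u' ∧ v = v' := by
  unfold R at h
  rw [reeU_nf, reeU_nf] at h
  obtain ⟨i1, -, -, -, i5, i6⟩ := u6_inj _ _ _ _ _ _ _ _ _ _ _ _ h
  subst i1
  exact ⟨rfl, add_right_cancel i5, add_right_cancel i6⟩

/-! ### field automorphisms -/

section fieldaut

variable (τ : K ≃+* K)

theorem glMap_wGL (w : List (ℕ × K)) :
    Matrix.GeneralLinearGroup.map (τ : K →+* K) (wGL chevG2 hG2 w) =
      wGL chevG2 hG2 (w.map fun p => (p.1, τ p.2)) := by
  apply Units.ext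
  rw [Cfsg.Agent.Lib.Helper25.val_glMap, wGL_val, wGL_val, Cfsg.Agent.Lib.Helper25.wordMat_map]
  rfl

theorem glMap_R (e : ℕ) (t u v : K) :
    Matrix.GeneralLinearGroup.map (τ : K →+* K) (R e t u v) = R e (τ t) (τ u) (τ v) := by
  unfold R
  rw [glMap_wGL]
  congr 1
  simp [reeWordU, map_pow, map_add]

theorem glMap_n0 : Matrix.GeneralLinearGroup.map (τ : K →+* K) (n0 K) = n0 K := by
  unfold n0
  rw [glMap_wGL]
  congr 1
  simp [n0w]

theorem glMap_mem (e : ℕ) (g : GL chevG2.Idx K) (hg : g ∈ twistedG2 K e) :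
    Matrix.GeneralLinearGroup.map (τ : K →+* K) g ∈ twistedG2 K e := by
  have hle : twistedG2 K e ≤
      (twistedG2 K e).comap (Matrix.GeneralLinearGroup.map (τ : K →+* K)) := by
    unfold twistedG2 ChevalleyDatum.genSubgroup
    rw [Subgroup.closure_le]
    rintro g ⟨w, hw, hg⟩
    have eg : g = wGL chevG2 hG2 w := Units.ext (by rw [hg, wGL_val])
    show Matrix.GeneralLinearGroup.map (τ : K →+* K) g ∈ twistedG2 K e
    obtain ⟨t, u, v, rfl | rfl⟩ := hw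
    · rw [eg]
      have := glMap_R τ e t u v
      unfold R at this
      rw [this]
      exact reeU_mem e _ _ _
    · rw [eg, reeV_conj, map_mul, map_mul, map_inv, glMap_n0]
      have := glMap_R τ e t u v
      unfold R at this
      rw [this, ← reeV_conj]
      exact reeV_mem e _ _ _
  exact hle hg

/-- the field automorphism as an endomorphism of `²G₂` -/
noncomputable def fieldHom (e : ℕ) : ↥(twistedG2 K e) →* ↥(twistedG2 K e) :=
  ((Matrix.GeneralLinearGroup.map (τ : K →+* K)).comp (twistedG2 K e).subtype).codRestrict _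
    (fun g => glMap_mem τ e g.1 g.2)

theorem fieldHom_coe (e : ℕ) (g : ↥(twistedG2 K e)) :
    ((fieldHom τ e g : ↥(twistedG2 K e)) : GL chevG2.Idx K) =
      Matrix.GeneralLinearGroup.map (τ : K →+* K) (g : GL chevG2.Idx K) := rfl

theorem glMap_glMap (g : GL chevG2.Idx K) :
    Matrix.GeneralLinearGroup.map (τ.symm : K →+* K)
      (Matrix.GeneralLinearGroup.map (τ : K →+* K) g) = g := by
  apply Units.ext
  rw [Cfsg.Agent.Lib.Helper25.val_glMap, Cfsg.Agent.Lib.Helper25.val_glMap]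
  ext i j
  simp

theorem glMap_glMap' (g : GL chevG2.Idx K) :
    Matrix.GeneralLinearGroup.map (τ : K →+* K)
      (Matrix.GeneralLinearGroup.map (τ.symm : K →+* K) g) = g := by
  apply Units.ext
  rw [Cfsg.Agent.Lib.Helper25.val_glMap, Cfsg.Agent.Lib.Helper25.val_glMap]
  ext i j
  simp

/-- the field automorphism as an automorphism of `²G₂` -/
noncomputable def fieldAut (e : ℕ) : MulAut ↥(twistedG2 K e) where
  toFun := fieldHom τ e
  invFun := fieldHom τ.symm e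
  left_inv g := Subtype.ext (by rw [fieldHom_coe, fieldHom_coe, glMap_glMap])
  right_inv g := Subtype.ext (by rw [fieldHom_coe, fieldHom_coe, glMap_glMap'])
  map_mul' := map_mul _

theorem fieldAut_T (e : ℕ) (t u v : K) :
    fieldAut τ e (TG e t u v) = TG e (τ t) (τ u) (τ v) :=
  Subtype.ext (glMap_R τ e t u v)

theorem fieldAut_w (e : ℕ) (he : e ≠ 0) : fieldAut τ e (wG e he) = wG e he :=
  Subtype.ext (glMap_n0 τ)

end fieldaut

/-! ### the structure of `²G₂` -/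

section inst

variable [CharP K 3] {e : ℕ} {σ : ↥(chevG2.group K) →* ↥(chevG2.group K)} (hσ : IsSig e σ)
  (hF : ∀ x : K, (x ^ e) ^ (3 * e) = x) (hadd : ∀ x y : K, (x + y) ^ e = x ^ e + y ^ e)
  (hsub : ∀ x y : K, (x - y) ^ e = x ^ e - y ^ e) (hodd : Odd e)
include hσ hF hadd hsub hodd

theorem U1_mem_iff (g : GL chevG2.Idx K) :
    g ∈ chevG2.posUnipotent K ⊓ twistedG2 K e ↔ ∃ t u v : K, g = R e t u v := by
  rw [U1_iff hσ hF hadd hodd hsub]
  constructor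
  · rintro ⟨t, u, v, h⟩
    exact ⟨t, u, v, Units.ext (by rw [h]; exact (wGL_val chevG2 hG2 _).symm)⟩
  · rintro ⟨t, u, v, rfl⟩
    exact ⟨t, u, v, wGL_val chevG2 hG2 _⟩

theorem cases_GL (g : GL chevG2.Idx K) (hg : g ∈ twistedG2 K e) :
    (∃ t u v : K, ∃ h ∈ chevG2.diagonalSubgroup K ⊓ twistedG2 K e, g = R e t u v * h) ∨
    (∃ t u v t' u' v' : K, ∃ h ∈ chevG2.diagonalSubgroup K ⊓ twistedG2 K e,
      g = R e t u v * n0 K * (R e t' u' v' * h)) := by
  have he : e ≠ 0 := by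
    rintro rfl
    exact absurd hodd (by decide)
  have hiff := U1_mem_iff hσ hF hadd hsub hodd
  rcases (ReeRk.reeRk hσ hF hadd hsub hodd).decomp g hg with hB | ⟨b, hb, u', hu', e1⟩
  · obtain ⟨u, hu, h, hh, e2⟩ := (ReeRk.reeRk hσ hF hadd hsub hodd).borel_decomp g hB
    obtain ⟨t, u₀, v, rfl⟩ := (hiff u).1 hu
    exact Or.inl ⟨t, u₀, v, h, hh, e2⟩
  · obtain ⟨u, hu, h, hh, e2⟩ := (ReeRk.reeRk hσ hF hadd hsub hodd).borel_decomp b hb
    obtain ⟨t, u₀, v, rfl⟩ := (hiff u).1 hu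
    have e1' : g = b * n0 K * u' := e1
    have hh' : h ∈ chevG2.diagonalSubgroup K ⊓ twistedG2 K e := hh
    have hu'' : u' ∈ chevG2.posUnipotent K ⊓ twistedG2 K e := hu'
    have hnorm : ∀ m ∈ chevG2.monomialSubgroup K, ∀ h ∈ chevG2.diagonalSubgroup K,
        m * h * m⁻¹ ∈ chevG2.diagonalSubgroup K := fun m hm h hh =>
      ((Subgroup.mem_set_normalizer_iff.1 (monomial_le_normalizer_diagonal chevG2 hG2 hm)) h).1 hh
    have hHU : chevG2.diagonalSubgroup K ≤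
        Subgroup.normalizer (chevG2.posUnipotent K : Set (GL chevG2.Idx K)) :=
      diagonal_le_normalizer_rootGen chevG2 hG2 chevG2.IsPosRoot (fun r hr => hr.1)
    have hn0G : n0 K ∈ twistedG2 K e := n0_mem e he
    have hh2 : (n0 K)⁻¹ * h * n0 K ∈ chevG2.diagonalSubgroup K ⊓ twistedG2 K e := by
      refine ⟨?_, Subgroup.mul_mem _ (Subgroup.mul_mem _ (Subgroup.inv_mem _ hn0G) hh'.2) hn0G⟩
      have := hnorm _ (Subgroup.inv_mem _ n0_mono) h hh'.1
      rwa [inv_inv] at this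
    have hu2 : ((n0 K)⁻¹ * h * n0 K) * u' * ((n0 K)⁻¹ * h * n0 K)⁻¹ ∈
        chevG2.posUnipotent K ⊓ twistedG2 K e :=
      ⟨((Subgroup.mem_set_normalizer_iff.1 (hHU hh2.1)) u').1 hu''.1,
        Subgroup.mul_mem _ (Subgroup.mul_mem _ hh2.2 hu''.2) (Subgroup.inv_mem _ hh2.2)⟩
    obtain ⟨t', u₁, v', e3⟩ := (hiff _).1 hu2
    refine Or.inr ⟨t, u₀, v, t', u₁, v', _, hh2, ?_⟩
    rw [← e3, e1', e2]
    group

theorem uniq_GL (t u v t' u' v' : K) (h : GL chevG2.Idx K)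
    (hh : h ∈ chevG2.diagonalSubgroup K)
    (e1 : R e t u v * n0 K * (R e t' u' v' * h) = n0 K) : t = 0 ∧ u = 0 ∧ v = 0 := by
  have hiff := U1_mem_iff hσ hF hadd hsub hodd
  have hUB : chevG2.posUnipotent K ≤ chevG2.borelSubgroup K := le_sup_left
  have hHB : chevG2.diagonalSubgroup K ≤ chevG2.borelSubgroup K := le_sup_right
  have hnorm : ∀ m ∈ chevG2.monomialSubgroup K, ∀ h ∈ chevG2.diagonalSubgroup K,
      m * h * m⁻¹ ∈ chevG2.diagonalSubgroup K := fun m hm h hh =>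
    ((Subgroup.mem_set_normalizer_iff.1 (monomial_le_normalizer_diagonal chevG2 hG2 hm)) h).1 hh
  have hb' : n0 K * h⁻¹ * (n0 K)⁻¹ ∈ chevG2.diagonalSubgroup K :=
    hnorm _ n0_mono _ (Subgroup.inv_mem _ hh)
  have e2 : R e t u v * n0 K * R e t' u' v' = (n0 K * h⁻¹ * (n0 K)⁻¹) * n0 K * 1 := by
    have : R e t u v * n0 K * R e t' u' v' =
        (R e t u v * n0 K * (R e t' u' v' * h)) * h⁻¹ := by group
    rw [this, e1]
    group
  have hR1 : R e t u v ∈ chevG2.posUnipotent K := ((hiff _).2 ⟨t, u, v, rfl⟩).1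
  have hR2 : R e t' u' v' ∈ chevG2.posUnipotent K := ((hiff _).2 ⟨t', u', v', rfl⟩).1
  have key := (ReeRk.reeRk hσ hF hadd hsub hodd).cell_unique (R e t u v)
    (n0 K * h⁻¹ * (n0 K)⁻¹) (R e t' u' v') 1 (hUB hR1) (hHB hb') hR2 (Subgroup.one_mem _) e2
  have h1 : R e t u v ∈ chevG2.posUnipotent K ⊓ chevG2.diagonalSubgroup K :=
    ⟨hR1, by rw [key.1]; exact hb'⟩
  rw [posUnipotent_inf_diagonal chevG2 hG2, Subgroup.mem_bot,
    ← R_zero hF hadd hsub (e := e)] at h1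
  exact R_inj e h1

/-- torus data of the elements of `H¹` -/
theorem H1_data (ψ : ↥(chevG2.diagonalSubgroup K ⊓ twistedG2 K e) ≃* Kˣ)
    (hψ : ∀ x, ((ψ x : Kˣ) : K) = dEnt chevG2 (x : GL chevG2.Idx K) 7) (s : Kˣ) :
    ∃ d : ℕ → K, MulGraded chevG2 d ∧
      (((ψ.symm (s ^ e) : ↥(chevG2.diagonalSubgroup K ⊓ twistedG2 K e)) : GL chevG2.Idx K) :
        Matrix chevG2.Idx chevG2.Idx K) = torus K chevG2 d ∧ d 6 = d 7 ^ (3 * e) ∧
      d 7 = (s : K) ^ e ∧ d 6 = s := by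
  obtain ⟨d, hd, hx, h6⟩ := H1_char hσ hF hadd hodd _ (ψ.symm (s ^ e)).2.1 (ψ.symm (s ^ e)).2.2
  have h7 : d 7 = (s : K) ^ e := by
    rw [← dEnt_torus chevG2 _ d hx 7 g2_lt.2.1, ← hψ, MulEquiv.apply_symm_apply,
      Units.val_pow_eq_pow_val]
  exact ⟨d, hd, hx, h6, h7, by rw [h6, h7, hF]⟩

theorem HT_GL (ψ : ↥(chevG2.diagonalSubgroup K ⊓ twistedG2 K e) ≃* Kˣ)
    (hψ : ∀ x, ((ψ x : Kˣ) : K) = dEnt chevG2 (x : GL chevG2.Idx K) 7) (s : Kˣ) (t u v : K) :
    ((ψ.symm (s ^ e) : ↥(chevG2.diagonalSubgroup K ⊓ twistedG2 K e)) : GL chevG2.Idx K) *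
        R e t u v =
      R e (s * t) ((s : K) ^ (3 * e) * s * u) ((s : K) ^ (3 * e) * (s : K) ^ 2 * v) *
        ((ψ.symm (s ^ e) : ↥(chevG2.diagonalSubgroup K ⊓ twistedG2 K e)) : GL chevG2.Idx K) := by
  obtain ⟨d, hd, hx, h6, h7, h6'⟩ := H1_data hσ hF hadd hsub hodd ψ hψ s
  have hc := reeU_conj_torus _ d hd hx h6 hF t u v
  have e7 : d 7 ^ 3 = (s : K) ^ (3 * e) := by rw [h7, ← pow_mul, mul_comm]
  rw [h6', e7] at hc
  rw [show R e ((s : K) * t) ((s : K) ^ (3 * e) * s * u) ((s : K) ^ (3 * e) * (s : K) ^ 2 * v) =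
    R e ((s : K) * t) ((s : K) * (s : K) ^ (3 * e) * u) ((s : K) ^ 2 * (s : K) ^ (3 * e) * v)
    from R_congr rfl (by ring) (by ring)]
  exact hc

theorem H_surj (ψ : ↥(chevG2.diagonalSubgroup K ⊓ twistedG2 K e) ≃* Kˣ)
    (h : GL chevG2.Idx K) (hh : h ∈ chevG2.diagonalSubgroup K ⊓ twistedG2 K e) :
    ∃ s : Kˣ, ((ψ.symm (s ^ e) : ↥(chevG2.diagonalSubgroup K ⊓ twistedG2 K e)) :
      GL chevG2.Idx K) = h := by
  refine ⟨(ψ ⟨h, hh⟩) ^ (3 * e), ?_⟩
  have e1 : ((ψ ⟨h, hh⟩) ^ (3 * e)) ^ e = ψ ⟨h, hh⟩ := by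
    apply Units.ext
    rw [Units.val_pow_eq_pow_val, Units.val_pow_eq_pow_val, ← pow_mul, mul_comm, pow_mul]
    exact hF _
  rw [e1, MulEquiv.symm_apply_apply]

/-- `²G₂` satisfies the hypotheses of `ReeOut` -/
theorem ok [Fintype K] (he : e ≠ 0) (hex : ∃ x : K, x ^ (3 * e) ≠ x)
    (ψ : ↥(chevG2.diagonalSubgroup K ⊓ twistedG2 K e) ≃* Kˣ)
    (hψ : ∀ x, ((ψ x : Kˣ) : K) = dEnt chevG2 (x : GL chevG2.Idx K) 7)
    (n k : ℕ) (hq : Fintype.card K = 3 ^ n)
    (hG : Nat.card ↥(twistedG2 K e) = Fintype.card K ^ 3 * k) (hk : ¬ 3 ∣ k) :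
    ReeOut.Ok (thHom e he hadd) (TG e) (HG ψ) (wG e he) where
  θθ := fun x => by
    have hF' : (x ^ (3 * e)) ^ e = x := by
      rw [← pow_mul, mul_comm, pow_mul]; exact hF x
    show (x ^ (3 * e)) ^ (3 * e) = x ^ 3
    rw [pow_mul' (x ^ (3 * e)) 3 e, hF']
  θne := hex
  T_mul := fun t u v t' u' v' => Subtype.ext (R_mul hF hadd hsub t u v t' u' v')
  T_inj := fun t u v t' u' v' h => R_inj e (congrArg Subtype.val h)
  H_mul := fun s s' => Subtype.ext (by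
    show ((ψ.symm ((s * s') ^ e) : ↥(chevG2.diagonalSubgroup K ⊓ twistedG2 K e)) :
      GL chevG2.Idx K) = _
    rw [mul_pow, map_mul]
    rfl)
  H_inj := fun s hs => by
    have h0 : ((ψ.symm (s ^ e) : ↥(chevG2.diagonalSubgroup K ⊓ twistedG2 K e)) :
        GL chevG2.Idx K) = 1 :=
      congrArg (fun x : ↥(twistedG2 K e) => (x : GL chevG2.Idx K)) hs
    have h1 : ψ.symm (s ^ e) = 1 := Subtype.ext h0
    have h2 : s ^ e = 1 := by
      have := congrArg ψ h1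
      rwa [MulEquiv.apply_symm_apply, map_one] at this
    have h3 : s = (s ^ e) ^ (3 * e) := by
      apply Units.ext
      rw [Units.val_pow_eq_pow_val, Units.val_pow_eq_pow_val]
      exact (hF _).symm
    rw [h3, h2, one_pow]
  HT := fun s t u v => Subtype.ext (HT_GL hσ hF hadd hsub hodd ψ hψ s t u v)
  w_sq := Subtype.ext n0_sq
  wH := fun s => by
    have hnorm : ∀ m ∈ chevG2.monomialSubgroup K, ∀ h ∈ chevG2.diagonalSubgroup K,
        m * h * m⁻¹ ∈ chevG2.diagonalSubgroup K := fun m hm h hh =>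
      ((Subgroup.mem_set_normalizer_iff.1 (monomial_le_normalizer_diagonal chevG2 hG2 hm)) h).1 hh
    have hinv : (n0 K)⁻¹ = n0 K := inv_eq_of_mul_eq_one_right n0_sq
    have hn0G : n0 K ∈ twistedG2 K e := n0_mem e he
    have hmem : n0 K * ((ψ.symm (s ^ e) : ↥(chevG2.diagonalSubgroup K ⊓ twistedG2 K e)) :
        GL chevG2.Idx K) * n0 K ∈ chevG2.diagonalSubgroup K ⊓ twistedG2 K e := by
      refine ⟨?_, Subgroup.mul_mem _ (Subgroup.mul_mem _ hn0G (ψ.symm (s ^ e)).2.2) hn0G⟩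
      have := hnorm _ n0_mono _ (ψ.symm (s ^ e)).2.1
      rwa [hinv] at this
    obtain ⟨s', hs'⟩ := H_surj hσ hF hadd hsub hodd ψ _ hmem
    exact ⟨s', Subtype.ext hs'.symm⟩
  cases := fun g => by
    rcases cases_GL hσ hF hadd hsub hodd g.1 g.2 with ⟨t, u, v, h, hh, e1⟩ |
      ⟨t, u, v, t', u', v', h, hh, e1⟩
    · obtain ⟨s, hs⟩ := H_surj hσ hF hadd hsub hodd ψ h hh
      exact Or.inl ⟨t, u, v, s, Subtype.ext (by rw [e1, ← hs]; rfl)⟩
    · obtain ⟨s, hs⟩ := H_surj hσ hF hadd hsub hodd ψ h hh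
      exact Or.inr ⟨t, u, v, t', u', v', s, Subtype.ext (by rw [e1, ← hs]; rfl)⟩
  uniq := fun t u v t' u' v' s h =>
    uniq_GL hσ hF hadd hsub hodd t u v t' u' v' _ (ψ.symm (s ^ e)).2.1
      (congrArg Subtype.val h)
  syl := by
    classical
    have : Fact (Nat.Prime 3) := ⟨Nat.prime_three⟩
    let Q : Subgroup ↥(twistedG2 K e) :=
      (chevG2.posUnipotent K ⊓ twistedG2 K e).subgroupOf (twistedG2 K e)
    have hQcard : Nat.card Q = Fintype.card K ^ 3 := by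
      rw [← U1_card hσ hF hadd hodd hsub]
      exact Nat.card_congr (Subgroup.subgroupOfEquivOfLe inf_le_right).toEquiv
    have hQp : IsPGroup 3 Q :=
      IsPGroup.of_card (n := 3 * n) (by rw [hQcard, hq, ← pow_mul, mul_comm])
    have hidx : ¬ 3 ∣ Q.index := by
      have h1 := Subgroup.index_mul_card Q
      rw [hQcard, hG] at h1
      have h2 : Q.index = k :=
        Nat.eq_of_mul_eq_mul_right (pow_pos Fintype.card_pos 3) (by rw [h1, mul_comm])
      rw [h2]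
      exact hk
    refine ⟨hQp.toSylow hidx, fun g => ?_⟩
    show g ∈ Q ↔ _
    rw [Subgroup.mem_subgroupOf, U1_mem_iff hσ hF hadd hsub hodd]
    constructor
    · rintro ⟨t, u, v, h⟩
      exact ⟨t, u, v, Subtype.ext h⟩
    · rintro ⟨t, u, v, rfl⟩
      exact ⟨t, u, v, rfl⟩
  field := fun τ => ⟨fieldAut τ e, fieldAut_T τ e, fieldAut_w τ e he⟩

end inst

end Cfsg.Agent.Lib.Helper27.ReeOutInst
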