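import Mathlib
import Cfsg.Agent.Lib.Helper27.ReeOutInst

/-!
# `|Out(²G₂(3^(2m+1)))| = 2m+1` for `m ≥ 1`
-/

set_option autoImplicit false

namespace Cfsg.Agent.Lib.Helper27.ReeOutFinal

open Cfsg Cfsg.Lie Cfsg.Agent.Lib.Helper24 Matrix
open Cfsg.Agent.Lib.Helper27.Ree Cfsg.Agent.Lib.Helper27.ReeOutInst

variable {K : Type*} [Field K]

/-- the number of automorphisms of the field with `3^(2m+1)` elements -/
theorem card_ringAut3 [Fintype K] {m : ℕ} (hK : Fintype.card K = 3 ^ (2 * m + 1)) :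
    Nat.card (K ≃+* K) = 2 * m + 1 := by
  have : CharP K 3 := charP_three (by omega) hK
  have : Fact (Nat.Prime 3) := ⟨Nat.prime_three⟩
  let _ : Algebra (ZMod 3) K := ZMod.algebra K 3
  let e : (K ≃ₐ[ZMod 3] K) ≃ (K ≃+* K) :=
    { toFun := fun f => f.toRingEquiv
      invFun := fun f => AlgEquiv.ofRingEquiv (f := f) (fun x =>
        RingHom.congr_fun (Subsingleton.elim ((f : K →+* K).comp (algebraMap (ZMod 3) K))
          (algebraMap (ZMod 3) K)) x)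
      left_inv := fun f => by ext x; rfl
      right_inv := fun f => by ext x; rfl }
  rw [← Nat.card_congr e, IsGalois.card_aut_eq_finrank]
  have h1 := Module.card_eq_pow_finrank (K := ZMod 3) (V := K)
  rw [hK, ZMod.card] at h1
  exact (Nat.pow_right_injective (by norm_num : 2 ≤ 3) h1).symm

/-- the outer automorphism group of `²G₂(3^(2m+1))`, `m ≥ 1`, has order `2m+1` -/
theorem card_out_ree [Fintype K] (m : ℕ) (hm : 1 ≤ m) (hK : Fintype.card K = 3 ^ (2 * m + 1)) :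
    Nat.card (MulAut ↥(twistedG2 K (3 ^ m)) ⧸
      (MulAut.conj : ↥(twistedG2 K (3 ^ m)) →* MulAut ↥(twistedG2 K (3 ^ m))).range)
      = 2 * m + 1 := by
  classical
  have : CharP K 3 := charP_three (by omega) hK
  obtain ⟨σ, hσ⟩ := exists_sig m hK
  obtain ⟨hF, hadd, hsub, hodd⟩ := field_facts m hK
  have he : 3 ^ m ≠ 0 := pow_ne_zero _ (by norm_num)
  have hex : ∃ x : K, x ^ (3 * 3 ^ m) ≠ x := by
    obtain ⟨ζ, hζ⟩ := IsCyclic.exists_generator (α := Kˣ)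
    have hord : orderOf ζ = Fintype.card K - 1 := by
      rw [orderOf_eq_card_of_forall_mem_zpowers hζ, Nat.card_eq_fintype_card, Fintype.card_units]
    by_contra hall
    simp only [not_exists, not_not] at hall
    have h1 : (ζ : K) ^ (3 * 3 ^ m) = ζ := hall ζ
    have hpos : 1 ≤ 3 * 3 ^ m := Nat.mul_pos (by norm_num) (Nat.pos_of_ne_zero he)
    have h2 : ζ ^ (3 * 3 ^ m - 1) = 1 := by
      apply Units.ext
      rw [Units.val_pow_eq_pow_val, Units.val_one]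
      have : (ζ : K) ^ (3 * 3 ^ m - 1) * ζ = ζ := by
        rw [← pow_succ, Nat.sub_add_cancel hpos, h1]
      exact mul_right_cancel₀ ζ.ne_zero (this.trans (one_mul _).symm)
    have h4 := orderOf_dvd_of_pow_eq_one h2
    rw [hord, hK] at h4
    have h5 : (3 : ℕ) ≤ 3 ^ m := by
      calc 3 = 3 ^ 1 := by norm_num
        _ ≤ 3 ^ m := Nat.pow_le_pow_right (by norm_num) hm
    have h6 : 3 ^ (2 * m + 1) = 3 * 3 ^ m * 3 ^ m := by ring
    have h7 : 3 * 3 ^ m - 1 ≠ 0 := by omega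
    have h8 := Nat.le_of_dvd (Nat.pos_of_ne_zero h7) h4
    rw [h6] at h8
    have h9 : 3 * 3 ^ m * 3 ≤ 3 * 3 ^ m * 3 ^ m := Nat.mul_le_mul_left _ h5
    omega
  obtain ⟨ψ₀, hinj, hψ₀⟩ := exists_H1_hom hσ hF hadd hodd
  have hcard : Nat.card ↥(chevG2.diagonalSubgroup K ⊓ twistedG2 K (3 ^ m)) = Nat.card Kˣ := by
    rw [H1_card m hK, Nat.card_eq_fintype_card, Fintype.card_units, hK]
  have hbij : Function.Bijective ψ₀ := (Nat.bijective_iff_injective_and_card ψ₀).2 ⟨hinj, hcard⟩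
  let ψ : ↥(chevG2.diagonalSubgroup K ⊓ twistedG2 K (3 ^ m)) ≃* Kˣ := MulEquiv.ofBijective ψ₀ hbij
  have hψ : ∀ x, ((ψ x : Kˣ) : K) = dEnt chevG2 (x : GL chevG2.Idx K) 7 := hψ₀
  have hq3 : (3 : ℕ) ∣ 3 ^ (2 * m + 1) := dvd_pow_self 3 (by omega)
  have hqpos : 0 < 3 ^ (2 * m + 1) := pow_pos (by norm_num) _
  have hG : Nat.card ↥(twistedG2 K (3 ^ m)) =
      Fintype.card K ^ 3 * ((3 ^ (2 * m + 1) - 1) * ((3 ^ (2 * m + 1)) ^ 3 + 1)) := by
    rw [Cfsg.Agent.S1069.result hK, hK, mul_assoc]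
  have hk : ¬ 3 ∣ (3 ^ (2 * m + 1) - 1) * ((3 ^ (2 * m + 1)) ^ 3 + 1) := by
    intro h
    rcases (Nat.Prime.dvd_mul Nat.prime_three).1 h with h | h
    · obtain ⟨c, hc⟩ := hq3
      obtain ⟨d, hd⟩ := h
      omega
    · have h1 : (3 : ℕ) ∣ (3 ^ (2 * m + 1)) ^ 3 := dvd_pow hq3 (by norm_num)
      have h2 := (Nat.dvd_add_right h1).1 h
      exact absurd h2 (by norm_num)
  have hok := ok hσ hF hadd hsub hodd he hex ψ hψ (2 * m + 1) _ hK hG hk
  rw [hok.card_out, card_ringAut3 hK]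

end Cfsg.Agent.Lib.Helper27.ReeOutFinal
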