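import Mathlib
import Cfsg.Prelude.Def_GeometricClasses
import Cfsg.Prelude.Def_LieClassical
import Cfsg.Agent.Lib.Helper71.Asch0
import Cfsg.Agent.Lib.Helper71.SUP0
import Cfsg.Agent.Lib.Helper29.SPPTens
import Cfsg.Agent.Lib.Helper60.SUQTF
import Cfsg.Agent.Lib.Helper50.SUQTFS
import Cfsg.Agent.Lib.Helper43.UfSTD
import Cfsg.Agent.Lib.Helper82.O9TIR

/-! Project SU4 (helper50; S5784), piece `T22N` (helper27): the stabiliser in `SU_4(q)` of a tensor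
decomposition `2 ⊗ 2` of the hermitian form has an absolutely irreducible normal subgroup fixing a
non-degenerate bilinear form.  Route: both Gram matrices are brought to the standard form
(`exists_std`), `N` = the elements of `H` fixing the form `J ⊗ J` (in the new coordinates), and
the elements `s₁ ⊗ s₂` with `s₁, s₂ ∈ {1, D, J, DJ}` (`D = diag(x, x^q)`, `x^(q+1) = 1`,
`x ≠ x^q`) span all matrices. -/

set_option autoImplicit false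
set_option linter.unusedSectionVars false

namespace Cfsg.Agent.Lib.Helper27.SU4T22N

open Matrix Cfsg.Geo Cfsg.Agent.Lib.Helper71.Asch
open scoped Kronecker

variable {n : ℕ} {F : Type*} [Field F] [Fintype F] {q : ℕ}

theorem su4t22n_exists_x (φ : F →+* F) (hφφ : ∀ x, φ (φ x) = x) (hmv : ∃ ν : F, φ ν ≠ ν) :
    ∃ x : F, x * φ x = 1 ∧ x ≠ φ x := by
  obtain ⟨ν₀, hν₀⟩ := hmv
  have key : ∃ ν : F, φ (ν ^ 2) ≠ ν ^ 2 := by
    by_contra hcon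
    push Not at hcon
    have h1 := hcon ν₀
    have h2 := hcon (ν₀ + 1)
    rw [map_pow] at h1 h2
    rw [map_add, map_one] at h2
    have h3 : (φ ν₀ - ν₀) * (φ ν₀ + ν₀) = 0 := by linear_combination h1
    have h4 : 2 * (φ ν₀ - ν₀) = 0 := by linear_combination h2 - h1
    rcases mul_eq_zero.mp h3 with h5 | h5
    · exact hν₀ (sub_eq_zero.mp h5)
    · rcases mul_eq_zero.mp h4 with h6 | h6
      · apply hν₀
        linear_combination h5 - ν₀ * h6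
      · exact hν₀ (sub_eq_zero.mp h6)
  obtain ⟨ν, hν⟩ := key
  have hν0 : ν ≠ 0 := by
    rintro rfl
    apply hν
    simp
  have hφν0 : φ ν ≠ 0 := by
    intro h
    apply hν0
    have h1 := hφφ ν
    rw [h, map_zero] at h1
    exact h1.symm
  refine ⟨φ ν / ν, ?_, ?_⟩
  · rw [map_div₀, hφφ]
    field_simp
  · rw [map_div₀, hφφ]
    intro h
    apply hν
    rw [map_pow]
    have h2 : φ ν * φ ν = ν * ν := by
      field_simp at h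
      linear_combination h
    linear_combination h2

/-- standard unitary `2 × 2` matrices of determinant one (with respect to `φ`) -/
def su4t22n_Un2 (φ : F →+* F) (s : Matrix (Fin 2) (Fin 2) F) : Prop :=
  s.det = 1 ∧ ∀ u v : Fin 2 → F, ∑ i, (s *ᵥ u) i * φ ((s *ᵥ v) i) = ∑ i, u i * φ (v i)

theorem su4t22n_un_one (φ : F →+* F) : su4t22n_Un2 φ 1 :=
  ⟨det_one, fun u v => by rw [one_mulVec, one_mulVec]⟩

theorem su4t22n_un_mul (φ : F →+* F) {s t : Matrix (Fin 2) (Fin 2) F} (hs : su4t22n_Un2 φ s)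
    (ht : su4t22n_Un2 φ t) : su4t22n_Un2 φ (s * t) :=
  ⟨by rw [det_mul, hs.1, ht.1, one_mul],
    fun u v => by rw [← mulVec_mulVec, ← mulVec_mulVec, hs.2, ht.2]⟩

theorem su4t22n_un_D (φ : F →+* F) (hφφ : ∀ x, φ (φ x) = x) (x : F) (hx : x * φ x = 1) :
    su4t22n_Un2 φ !![x, 0; 0, φ x] := by
  refine ⟨?_, fun u v => ?_⟩
  · rw [det_fin_two_of]
    linear_combination hx
  · simp only [Fin.sum_univ_two, mulVec, dotProduct, of_apply, cons_val', cons_val_zero,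
      cons_val_one, cons_val_fin_one, map_add, map_mul, map_zero, hφφ, zero_mul, add_zero, zero_add]
    linear_combination (u 0 * φ (v 0) + u 1 * φ (v 1)) * hx

theorem su4t22n_un_J (φ : F →+* F) : su4t22n_Un2 φ !![0, 1; -1, 0] := by
  refine ⟨?_, fun u v => ?_⟩
  · rw [det_fin_two_of]
    ring
  · simp only [Fin.sum_univ_two, mulVec, dotProduct, of_apply, cons_val', cons_val_zero,
      cons_val_one, cons_val_fin_one, map_add, map_mul, map_zero, map_neg, map_one, zero_mul,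
      add_zero, zero_add, one_mul, neg_mul]
    ring

theorem su4t22n_span4 (x y : F) (hxy : x ≠ y) (X : Matrix (Fin 2) (Fin 2) F) :
    ∃ c₁ c₂ c₃ c₄ : F, X = c₁ • (1 : Matrix (Fin 2) (Fin 2) F) + c₂ • !![x, 0; 0, y] +
      c₃ • !![0, 1; -1, 0] + c₄ • (!![x, 0; 0, y] * !![0, 1; -1, 0]) := by
  have hd : x - y ≠ 0 := sub_ne_zero.mpr hxy
  refine ⟨X 0 0 - (X 0 0 - X 1 1) / (x - y) * x, (X 0 0 - X 1 1) / (x - y),
    X 0 1 - (X 0 1 + X 1 0) / (x - y) * x, (X 0 1 + X 1 0) / (x - y), ?_⟩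
  ext i j
  fin_cases i <;> fin_cases j <;>
    simp [Matrix.mul_apply, Fin.sum_univ_two] <;> field_simp <;> ring

theorem su4t22n_kron_left (φ : F →+* F) {s : Matrix (Fin 2) (Fin 2) F} (h : su4t22n_Un2 φ s)
    (z w : Fin 2 × Fin 2 → F) :
    ∑ p, ((s ⊗ₖ (1 : Matrix (Fin 2) (Fin 2) F)) *ᵥ z) p *
        φ (((s ⊗ₖ (1 : Matrix (Fin 2) (Fin 2) F)) *ᵥ w) p) = ∑ p, z p * φ (w p) := by
  have hz : ∀ (x : Fin 2 × Fin 2 → F) (i k : Fin 2),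
      ((s ⊗ₖ (1 : Matrix (Fin 2) (Fin 2) F)) *ᵥ x) (i, k) = (s *ᵥ fun j => x (j, k)) i := by
    intro x i k
    simp only [mulVec, dotProduct, Fintype.sum_prod_type, kroneckerMap_apply, one_apply]
    apply Finset.sum_congr rfl
    intro j _
    simp
  rw [Fintype.sum_prod_type_right, Fintype.sum_prod_type_right]
  apply Finset.sum_congr rfl
  intro k _
  simp only [hz]
  exact h.2 _ _

theorem su4t22n_kron_right (φ : F →+* F) {s : Matrix (Fin 2) (Fin 2) F} (h : su4t22n_Un2 φ s)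
    (z w : Fin 2 × Fin 2 → F) :
    ∑ p, (((1 : Matrix (Fin 2) (Fin 2) F) ⊗ₖ s) *ᵥ z) p *
        φ ((((1 : Matrix (Fin 2) (Fin 2) F) ⊗ₖ s) *ᵥ w) p) = ∑ p, z p * φ (w p) := by
  have hz : ∀ (x : Fin 2 × Fin 2 → F) (i k : Fin 2),
      (((1 : Matrix (Fin 2) (Fin 2) F) ⊗ₖ s) *ᵥ x) (i, k) = (s *ᵥ fun l => x (i, l)) k := by
    intro x i k
    simp only [mulVec, dotProduct, Fintype.sum_prod_type, kroneckerMap_apply, one_apply]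
    simp
  rw [Fintype.sum_prod_type, Fintype.sum_prod_type]
  apply Finset.sum_congr rfl
  intro i _
  simp only [hz]
  exact h.2 _ _

theorem su4t22n_kron_un (φ : F →+* F) {s₁ s₂ : Matrix (Fin 2) (Fin 2) F}
    (h1 : su4t22n_Un2 φ s₁) (h2 : su4t22n_Un2 φ s₂) (z w : Fin 2 × Fin 2 → F) :
    ∑ p, ((s₁ ⊗ₖ s₂) *ᵥ z) p * φ (((s₁ ⊗ₖ s₂) *ᵥ w) p) = ∑ p, z p * φ (w p) := by
  have e : s₁ ⊗ₖ s₂ = (s₁ ⊗ₖ (1 : Matrix (Fin 2) (Fin 2) F)) *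
      ((1 : Matrix (Fin 2) (Fin 2) F) ⊗ₖ s₂) := by
    rw [← mul_kronecker_mul, mul_one, one_mul]
  rw [e, ← mulVec_mulVec, ← mulVec_mulVec, su4t22n_kron_left φ h1, su4t22n_kron_right φ h2]

/-- the form `J ⊗ J` -/
def su4t22n_Bf (z w : Fin 2 × Fin 2 → F) : F :=
  z (0, 0) * w (1, 1) - z (0, 1) * w (1, 0) - z (1, 0) * w (0, 1) + z (1, 1) * w (0, 0)

theorem su4t22n_B_kron (a b : Matrix (Fin 2) (Fin 2) F) (z w : Fin 2 × Fin 2 → F) :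
    su4t22n_Bf ((a ⊗ₖ b) *ᵥ z) ((a ⊗ₖ b) *ᵥ w) = a.det * b.det * su4t22n_Bf z w := by
  simp only [su4t22n_Bf, mulVec, dotProduct, Fintype.sum_prod_type, Fin.sum_univ_two,
    kroneckerMap_apply, det_fin_two]
  ring

/-- the coordinate map `z ↦ P (((y₁⁻¹ ⊗ y₂⁻¹) z) ∘ e)` -/
def su4t22n_Th (e : Fin 4 ≃ Fin 2 × Fin 2) (P : GL (Fin 4) F) (y₁ y₂ : GL (Fin 2) F)
    (z : Fin 2 × Fin 2 → F) : Fin 4 → F :=
  P.1 *ᵥ ((((y₁⁻¹ : GL (Fin 2) F).1 ⊗ₖ (y₂⁻¹ : GL (Fin 2) F).1) *ᵥ z) ∘ e)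

/-- its inverse -/
def su4t22n_Thi (e : Fin 4 ≃ Fin 2 × Fin 2) (P : GL (Fin 4) F) (y₁ y₂ : GL (Fin 2) F)
    (u : Fin 4 → F) : Fin 2 × Fin 2 → F :=
  (y₁.1 ⊗ₖ y₂.1) *ᵥ (((P⁻¹ : GL (Fin 4) F).1 *ᵥ u) ∘ e.symm)

theorem su4t22n_AA' (y₁ y₂ : GL (Fin 2) F) :
    (y₁.1 ⊗ₖ y₂.1) * ((y₁⁻¹ : GL (Fin 2) F).1 ⊗ₖ (y₂⁻¹ : GL (Fin 2) F).1) = 1 := by
  rw [← mul_kronecker_mul, Units.mul_inv, Units.mul_inv, one_kronecker_one]

theorem su4t22n_A'A (y₁ y₂ : GL (Fin 2) F) :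
    ((y₁⁻¹ : GL (Fin 2) F).1 ⊗ₖ (y₂⁻¹ : GL (Fin 2) F).1) * (y₁.1 ⊗ₖ y₂.1) = 1 := by
  rw [← mul_kronecker_mul, Units.inv_mul, Units.inv_mul, one_kronecker_one]

theorem su4t22n_Th_Thi (e : Fin 4 ≃ Fin 2 × Fin 2) (P : GL (Fin 4) F) (y₁ y₂ : GL (Fin 2) F)
    (u : Fin 4 → F) : su4t22n_Th e P y₁ y₂ (su4t22n_Thi e P y₁ y₂ u) = u := by
  unfold su4t22n_Th su4t22n_Thi
  rw [mulVec_mulVec, su4t22n_A'A, one_mulVec]
  have h : (((P⁻¹ : GL (Fin 4) F).1 *ᵥ u) ∘ e.symm) ∘ e = (P⁻¹ : GL (Fin 4) F).1 *ᵥ u := by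
    funext i
    simp
  rw [h, mulVec_mulVec, Units.mul_inv, one_mulVec]

theorem su4t22n_Thi_Th (e : Fin 4 ≃ Fin 2 × Fin 2) (P : GL (Fin 4) F) (y₁ y₂ : GL (Fin 2) F)
    (z : Fin 2 × Fin 2 → F) : su4t22n_Thi e P y₁ y₂ (su4t22n_Th e P y₁ y₂ z) = z := by
  unfold su4t22n_Th su4t22n_Thi
  rw [mulVec_mulVec, Units.inv_mul, one_mulVec]
  have h : ((((y₁⁻¹ : GL (Fin 2) F).1 ⊗ₖ (y₂⁻¹ : GL (Fin 2) F).1) *ᵥ z) ∘ e) ∘ e.symm =
      ((y₁⁻¹ : GL (Fin 2) F).1 ⊗ₖ (y₂⁻¹ : GL (Fin 2) F).1) *ᵥ z := by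
    funext i
    simp
  rw [h, mulVec_mulVec, su4t22n_AA', one_mulVec]

theorem su4t22n_Thi_add (e : Fin 4 ≃ Fin 2 × Fin 2) (P : GL (Fin 4) F) (y₁ y₂ : GL (Fin 2) F)
    (u v : Fin 4 → F) :
    su4t22n_Thi e P y₁ y₂ (u + v) = su4t22n_Thi e P y₁ y₂ u + su4t22n_Thi e P y₁ y₂ v := by
  unfold su4t22n_Thi
  rw [mulVec_add]
  have h : ((P⁻¹ : GL (Fin 4) F).1 *ᵥ u + (P⁻¹ : GL (Fin 4) F).1 *ᵥ v) ∘ e.symm =
      ((P⁻¹ : GL (Fin 4) F).1 *ᵥ u) ∘ e.symm + ((P⁻¹ : GL (Fin 4) F).1 *ᵥ v) ∘ e.symm := rfl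
  rw [h, mulVec_add]

theorem su4t22n_Thi_smul (e : Fin 4 ≃ Fin 2 × Fin 2) (P : GL (Fin 4) F) (y₁ y₂ : GL (Fin 2) F)
    (c : F) (u : Fin 4 → F) :
    su4t22n_Thi e P y₁ y₂ (c • u) = c • su4t22n_Thi e P y₁ y₂ u := by
  unfold su4t22n_Thi
  rw [mulVec_smul]
  have h : (c • ((P⁻¹ : GL (Fin 4) F).1 *ᵥ u)) ∘ e.symm =
      c • (((P⁻¹ : GL (Fin 4) F).1 *ᵥ u) ∘ e.symm) := rfl
  rw [h, mulVec_smul]

theorem su4t22n_act (e : Fin 4 ≃ Fin 2 × Fin 2) (P : GL (Fin 4) F) (y₁ y₂ : GL (Fin 2) F)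
    (a b : Matrix (Fin 2) (Fin 2) F) (z : Fin 2 × Fin 2 → F) :
    tmat e P a b *ᵥ su4t22n_Th e P y₁ y₂ z =
      su4t22n_Th e P y₁ y₂ (((y₁.1 * a * (y₁⁻¹ : GL (Fin 2) F).1) ⊗ₖ
        (y₂.1 * b * (y₂⁻¹ : GL (Fin 2) F).1)) *ᵥ z) := by
  unfold su4t22n_Th
  rw [Cfsg.Agent.Lib.Helper29.SPPTens.tmat_mulVec, mulVec_mulVec, mulVec_mulVec]
  have h1 : (y₁⁻¹ : GL (Fin 2) F).1 * (y₁.1 * a * (y₁⁻¹ : GL (Fin 2) F).1) =
      a * (y₁⁻¹ : GL (Fin 2) F).1 := by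
    rw [← Matrix.mul_assoc, ← Matrix.mul_assoc, Units.inv_mul, Matrix.one_mul]
  have h2 : (y₂⁻¹ : GL (Fin 2) F).1 * (y₂.1 * b * (y₂⁻¹ : GL (Fin 2) F).1) =
      b * (y₂⁻¹ : GL (Fin 2) F).1 := by
    rw [← Matrix.mul_assoc, ← Matrix.mul_assoc, Units.inv_mul, Matrix.one_mul]
  have hk : (a ⊗ₖ b) * ((y₁⁻¹ : GL (Fin 2) F).1 ⊗ₖ (y₂⁻¹ : GL (Fin 2) F).1) =
      ((y₁⁻¹ : GL (Fin 2) F).1 ⊗ₖ (y₂⁻¹ : GL (Fin 2) F).1) *
        ((y₁.1 * a * (y₁⁻¹ : GL (Fin 2) F).1) ⊗ₖ (y₂.1 * b * (y₂⁻¹ : GL (Fin 2) F).1)) := by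
    rw [← mul_kronecker_mul, ← mul_kronecker_mul, h1, h2]
  rw [hk]

theorem su4t22n_gram (hF : Fintype.card F = q ^ 2) (G Y : Matrix (Fin 2) (Fin 2) F)
    (hY : ∀ u v, formOfGram (fun c : F => c ^ q) G u v = Cfsg.hermForm 2 F q (Y *ᵥ u) (Y *ᵥ v))
    (i j : Fin 2) : G i j = ∑ k, Y k i * (Y k j) ^ q := by
  have h := hY (Pi.single i 1) (Pi.single j 1)
  have h2 : formOfGram (fun c : F => c ^ q) G (Pi.single i 1) (Pi.single j 1) = G i j :=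
    congrFun (congrFun (Cfsg.Agent.Lib.Helper50.SUQTFS.suqtfs_gram hF G) i) j
  rw [← h2, h]
  unfold Cfsg.hermForm
  simp only [mulVec_single_one, col_apply]

theorem su4t22n_form (φ : F →+* F) (hφ : ∀ x, φ x = x ^ q)
    (G₁ G₂ Y₁ Y₂ : Matrix (Fin 2) (Fin 2) F)
    (h1 : ∀ i j, G₁ i j = ∑ k, Y₁ k i * φ (Y₁ k j))
    (h2 : ∀ i j, G₂ i j = ∑ k, Y₂ k i * φ (Y₂ k j)) (x y : Fin 2 × Fin 2 → F) :
    formOfGram (fun c : F => c ^ q) (G₁ ⊗ₖ G₂) x y =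
      ∑ p, ((Y₁ ⊗ₖ Y₂) *ᵥ x) p * φ (((Y₁ ⊗ₖ Y₂) *ᵥ y) p) := by
  simp only [formOfGram, Fintype.sum_prod_type, Fin.sum_univ_two, kroneckerMap_apply, mulVec,
    dotProduct, h1, h2, ← hφ, map_add, map_mul]
  ring

theorem su4t22n_det_tmat (e : Fin 4 ≃ Fin 2 × Fin 2) (P : GL (Fin 4) F)
    (a b : Matrix (Fin 2) (Fin 2) F) : (tmat e P a b).det = a.det ^ 2 * b.det ^ 2 := by
  unfold tmat
  rw [det_mul, det_mul, det_reindex_self, det_kronecker, Fintype.card_fin]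
  have h : P.1.det * (P⁻¹ : GL (Fin 4) F).1.det = 1 := by
    rw [← det_mul, Units.mul_inv, det_one]
  linear_combination (a.det ^ 2 * b.det ^ 2) * h

theorem su4t22n_det_conj (y : GL (Fin 2) F) (s : Matrix (Fin 2) (Fin 2) F) :
    ((y⁻¹ : GL (Fin 2) F).1 * s * y.1).det = s.det := by
  rw [det_mul, det_mul]
  have h : (y⁻¹ : GL (Fin 2) F).1.det * y.1.det = 1 := by
    rw [← det_mul, Units.inv_mul, det_one]
  linear_combination s.det * h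

theorem su4t22n_det_conj' (y : GL (Fin 2) F) (s : Matrix (Fin 2) (Fin 2) F) :
    (y.1 * s * (y⁻¹ : GL (Fin 2) F).1).det = s.det := by
  rw [det_mul, det_mul]
  have h : y.1.det * (y⁻¹ : GL (Fin 2) F).1.det = 1 := by
    rw [← det_mul, Units.mul_inv, det_one]
  linear_combination s.det * h

theorem su4t22n_exists_g (e : Fin 4 ≃ Fin 2 × Fin 2) (P : GL (Fin 4) F) (a b : GL (Fin 2) F) :
    ∃ g : GL (Fin 4) F, g.1 = tmat e P a.1 b.1 := by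
  have hx : ∃ x : GL (Fin 2 × Fin 2) F, x.1 = a.1 ⊗ₖ b.1 := by
    refine ⟨⟨a.1 ⊗ₖ b.1, (a⁻¹ : GL (Fin 2) F).1 ⊗ₖ (b⁻¹ : GL (Fin 2) F).1, ?_, ?_⟩, rfl⟩
    · rw [← Matrix.mul_kronecker_mul, Units.mul_inv, Units.mul_inv, Matrix.one_kronecker_one]
    · rw [← Matrix.mul_kronecker_mul, Units.inv_mul, Units.inv_mul, Matrix.one_kronecker_one]
  obtain ⟨x, hx⟩ := hx
  refine ⟨P * glReindex e.symm x * P⁻¹, ?_⟩
  have h2 : ((glReindex e.symm x : GL (Fin 4) F) : Matrix (Fin 4) (Fin 4) F) =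
      Matrix.reindexAlgEquiv F F e.symm (x : Matrix (Fin 2 × Fin 2) (Fin 2 × Fin 2) F) := rfl
  rw [Units.val_mul, Units.val_mul, h2, hx]
  rfl

/-- `X ↦ P (y₁⁻¹ ⊗ y₂⁻¹) X (y₁ ⊗ y₂) P⁻¹` (reindexed), as a linear map -/
def su4t22n_Lam (e : Fin 4 ≃ Fin 2 × Fin 2) (P : GL (Fin 4) F) (y₁ y₂ : GL (Fin 2) F) :
    Matrix (Fin 2 × Fin 2) (Fin 2 × Fin 2) F →ₗ[F] Matrix (Fin 4) (Fin 4) F where
  toFun X := P.1 * Matrix.reindex e.symm e.symm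
    (((y₁⁻¹ : GL (Fin 2) F).1 ⊗ₖ (y₂⁻¹ : GL (Fin 2) F).1) * X * (y₁.1 ⊗ₖ y₂.1)) *
      (P⁻¹ : GL (Fin 4) F).1
  map_add' X Y := by
    have h : ∀ M N : Matrix (Fin 2 × Fin 2) (Fin 2 × Fin 2) F,
        Matrix.reindex e.symm e.symm (M + N) =
          Matrix.reindex e.symm e.symm M + Matrix.reindex e.symm e.symm N := fun M N => rfl
    rw [Matrix.mul_add, Matrix.add_mul, h, Matrix.mul_add, Matrix.add_mul]
  map_smul' c X := by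
    have h : ∀ M : Matrix (Fin 2 × Fin 2) (Fin 2 × Fin 2) F,
        Matrix.reindex e.symm e.symm (c • M) = c • Matrix.reindex e.symm e.symm M := fun M => rfl
    rw [Matrix.mul_smul, Matrix.smul_mul, h, Matrix.mul_smul, Matrix.smul_mul]
    rfl

theorem su4t22n_Lam_kron (e : Fin 4 ≃ Fin 2 × Fin 2) (P : GL (Fin 4) F) (y₁ y₂ : GL (Fin 2) F)
    (s₁ s₂ : Matrix (Fin 2) (Fin 2) F) :
    su4t22n_Lam e P y₁ y₂ (s₁ ⊗ₖ s₂) =
      tmat e P ((y₁⁻¹ : GL (Fin 2) F).1 * s₁ * y₁.1) ((y₂⁻¹ : GL (Fin 2) F).1 * s₂ * y₂.1) := by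
  show P.1 * Matrix.reindex e.symm e.symm
    (((y₁⁻¹ : GL (Fin 2) F).1 ⊗ₖ (y₂⁻¹ : GL (Fin 2) F).1) * (s₁ ⊗ₖ s₂) * (y₁.1 ⊗ₖ y₂.1)) *
      (P⁻¹ : GL (Fin 4) F).1 = _
  unfold tmat
  rw [← mul_kronecker_mul, ← mul_kronecker_mul]

theorem su4t22n_Lam_surj (e : Fin 4 ≃ Fin 2 × Fin 2) (P : GL (Fin 4) F) (y₁ y₂ : GL (Fin 2) F)
    (Z : Matrix (Fin 4) (Fin 4) F) : ∃ Z', su4t22n_Lam e P y₁ y₂ Z' = Z := by
  refine ⟨(y₁.1 ⊗ₖ y₂.1) * Matrix.reindex e e ((P⁻¹ : GL (Fin 4) F).1 * Z * P.1) *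
    ((y₁⁻¹ : GL (Fin 2) F).1 ⊗ₖ (y₂⁻¹ : GL (Fin 2) F).1), ?_⟩
  show P.1 * Matrix.reindex e.symm e.symm
    (((y₁⁻¹ : GL (Fin 2) F).1 ⊗ₖ (y₂⁻¹ : GL (Fin 2) F).1) *
      ((y₁.1 ⊗ₖ y₂.1) * Matrix.reindex e e ((P⁻¹ : GL (Fin 4) F).1 * Z * P.1) *
        ((y₁⁻¹ : GL (Fin 2) F).1 ⊗ₖ (y₂⁻¹ : GL (Fin 2) F).1)) * (y₁.1 ⊗ₖ y₂.1)) *
      (P⁻¹ : GL (Fin 4) F).1 = Z
  have h1 : ((y₁⁻¹ : GL (Fin 2) F).1 ⊗ₖ (y₂⁻¹ : GL (Fin 2) F).1) *
      ((y₁.1 ⊗ₖ y₂.1) * Matrix.reindex e e ((P⁻¹ : GL (Fin 4) F).1 * Z * P.1) *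
        ((y₁⁻¹ : GL (Fin 2) F).1 ⊗ₖ (y₂⁻¹ : GL (Fin 2) F).1)) * (y₁.1 ⊗ₖ y₂.1) =
      Matrix.reindex e e ((P⁻¹ : GL (Fin 4) F).1 * Z * P.1) := by
    rw [← Matrix.mul_assoc, ← Matrix.mul_assoc, su4t22n_A'A, Matrix.one_mul, Matrix.mul_assoc,
      su4t22n_A'A, Matrix.mul_one]
  rw [h1]
  have h2 : Matrix.reindex e.symm e.symm (Matrix.reindex e e ((P⁻¹ : GL (Fin 4) F).1 * Z * P.1)) =
      (P⁻¹ : GL (Fin 4) F).1 * Z * P.1 := by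
    ext i j
    simp [Matrix.reindex_apply]
  rw [h2]
  simp only [Matrix.mul_assoc, Units.mul_inv, Matrix.mul_one, Units.mul_inv_cancel_left]

/-- T22N: the full stabiliser in `SU_4(q)` of a tensor decomposition `2 ⊗ 2` of the hermitian
form has an absolutely irreducible normal subgroup (`SU(G₁) ⊗ SU(G₂)`) fixing a non-degenerate
bilinear form (the tensor product of the two alternating forms). -/
theorem T22N (hF : Fintype.card F = q ^ 2) (e : Fin 4 ≃ Fin 2 × Fin 2) (P : GL (Fin 4) F)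
    (G₁ G₂ : Matrix (Fin 2) (Fin 2) F) (hd1 : G₁.det ≠ 0) (hd2 : G₂.det ≠ 0)
    (hh1 : ∀ a b, G₁ a b = (G₁ b a) ^ q) (hh2 : ∀ a b, G₂ a b = (G₂ b a) ^ q)
    (hid : ∀ x y : Fin 2 × Fin 2 → F,
      Cfsg.hermForm 4 F q (P.1 *ᵥ (x ∘ e)) (P.1 *ᵥ (y ∘ e)) =
        formOfGram (fun c : F => c ^ q) (G₁ ⊗ₖ G₂) x y)
    (H : Subgroup (GL (Fin 4) F))
    (hH : H = tensorProductSubgroup 2 2 e P ⊓ (Cfsg.GU 4 F q ⊓ specialLinear (Fin 4) F)) :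
    ∃ (N : Subgroup (GL (Fin 4) F)) (b : (Fin 4 → F) → (Fin 4 → F) → F), N ≤ H ∧ Nrm H N ∧
      ActsAbsolutelyIrreducibly (matrixSet N) ∧ IsBilinearForm b ∧ IsNondegenerateForm b ∧
      FixesForm (matrixSet N) b := by
  classical
  obtain ⟨φ, hφ, hφφ⟩ := Cfsg.Agent.Lib.Helper60.SUQTF.tf_frob hF
  obtain ⟨ν₀, hν₀⟩ := Cfsg.Agent.Lib.Helper60.SUQTF.tf_exists_moved hF
  obtain ⟨x, hx1, hx2⟩ := su4t22n_exists_x φ hφφ ⟨ν₀, by rw [hφ]; exact hν₀⟩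
  obtain ⟨p, hp⟩ := CharP.exists F
  haveI : Fact p.Prime := ⟨CharP.char_is_prime F p⟩
  obtain ⟨Y₁, hY₁u, hY₁⟩ := Cfsg.Agent.Lib.Helper43.Uf.exists_std p q hF 2 _
    (Cfsg.Agent.Lib.Helper50.SUQTFS.suqtfs_unitary hF G₁ hd1 hh1)
  obtain ⟨Y₂, hY₂u, hY₂⟩ := Cfsg.Agent.Lib.Helper43.Uf.exists_std p q hF 2 _
    (Cfsg.Agent.Lib.Helper50.SUQTFS.suqtfs_unitary hF G₂ hd2 hh2)
  obtain ⟨y₁, hy₁⟩ : ∃ y : GL (Fin 2) F, y.1 = Y₁ := by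
    have hu : IsUnit Y₁ := (Matrix.isUnit_iff_isUnit_det Y₁).mpr hY₁u
    obtain ⟨y, hy⟩ := hu
    exact ⟨y, hy⟩
  obtain ⟨y₂, hy₂⟩ : ∃ y : GL (Fin 2) F, y.1 = Y₂ := by
    have hu : IsUnit Y₂ := (Matrix.isUnit_iff_isUnit_det Y₂).mpr hY₂u
    obtain ⟨y, hy⟩ := hu
    exact ⟨y, hy⟩
  subst hy₁
  subst hy₂
  have hG1 : ∀ i j, G₁ i j = ∑ k, y₁.1 k i * φ (y₁.1 k j) := by
    intro i j
    rw [su4t22n_gram hF G₁ y₁.1 hY₁ i j]
    simp only [hφ]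
  have hG2 : ∀ i j, G₂ i j = ∑ k, y₂.1 k i * φ (y₂.1 k j) := by
    intro i j
    rw [su4t22n_gram hF G₂ y₂.1 hY₂ i j]
    simp only [hφ]
  have hform : ∀ z w : Fin 2 × Fin 2 → F,
      Cfsg.hermForm 4 F q (su4t22n_Th e P y₁ y₂ z) (su4t22n_Th e P y₁ y₂ w) =
        ∑ p, z p * φ (w p) := by
    intro z w
    unfold su4t22n_Th
    rw [hid, su4t22n_form φ hφ G₁ G₂ y₁.1 y₂.1 hG1 hG2, mulVec_mulVec, mulVec_mulVec,
      su4t22n_AA', one_mulVec, one_mulVec]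
  -- the bilinear form
  let bf : (Fin 4 → F) → (Fin 4 → F) → F :=
    fun u v => su4t22n_Bf (su4t22n_Thi e P y₁ y₂ u) (su4t22n_Thi e P y₁ y₂ v)
  have hbf : ∀ u v, bf u v = su4t22n_Bf (su4t22n_Thi e P y₁ y₂ u) (su4t22n_Thi e P y₁ y₂ v) :=
    fun u v => rfl
  have hscale : ∀ (a b : Matrix (Fin 2) (Fin 2) F) (u v : Fin 4 → F),
      bf (tmat e P a b *ᵥ u) (tmat e P a b *ᵥ v) = a.det * b.det * bf u v := by
    intro a b u v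
    obtain ⟨z, rfl⟩ : ∃ z, u = su4t22n_Th e P y₁ y₂ z :=
      ⟨_, (su4t22n_Th_Thi e P y₁ y₂ u).symm⟩
    obtain ⟨w, rfl⟩ : ∃ w, v = su4t22n_Th e P y₁ y₂ w :=
      ⟨_, (su4t22n_Th_Thi e P y₁ y₂ v).symm⟩
    rw [hbf, hbf, su4t22n_act, su4t22n_act, su4t22n_Thi_Th, su4t22n_Thi_Th, su4t22n_Thi_Th,
      su4t22n_Thi_Th, su4t22n_B_kron, su4t22n_det_conj', su4t22n_det_conj']
  -- the subgroup
  let N : Subgroup (GL (Fin 4) F) :=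
    { carrier := {h | h ∈ H ∧ ∀ u v, bf (h.1 *ᵥ u) (h.1 *ᵥ v) = bf u v}
      mul_mem' := by
        rintro a b ⟨ha, ha'⟩ ⟨hb, hb'⟩
        refine ⟨H.mul_mem ha hb, fun u v => ?_⟩
        rw [Units.val_mul, ← mulVec_mulVec, ← mulVec_mulVec, ha', hb']
      one_mem' := ⟨H.one_mem, fun u v => by rw [Units.val_one, one_mulVec, one_mulVec]⟩
      inv_mem' := by
        rintro a ⟨ha, ha'⟩
        refine ⟨H.inv_mem ha, fun u v => ?_⟩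
        have h1 := ha' ((a⁻¹ : GL (Fin 4) F).1 *ᵥ u) ((a⁻¹ : GL (Fin 4) F).1 *ᵥ v)
        rw [mulVec_mulVec, mulVec_mulVec, Units.mul_inv, one_mulVec, one_mulVec] at h1
        exact h1.symm }
  have hNmem : ∀ h : GL (Fin 4) F, h ∈ N ↔
      (h ∈ H ∧ ∀ u v, bf (h.1 *ᵥ u) (h.1 *ᵥ v) = bf u v) := fun h => Iff.rfl
  have hel : ∀ s₁ s₂ : Matrix (Fin 2) (Fin 2) F, su4t22n_Un2 φ s₁ → su4t22n_Un2 φ s₂ →
      tmat e P ((y₁⁻¹ : GL (Fin 2) F).1 * s₁ * y₁.1) ((y₂⁻¹ : GL (Fin 2) F).1 * s₂ * y₂.1) ∈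
        matrixSet N := by
    intro s₁ s₂ h1 h2
    obtain ⟨S₁, hS₁⟩ : ∃ S : GL (Fin 2) F, S.1 = s₁ := by
      have hu : IsUnit s₁ := (Matrix.isUnit_iff_isUnit_det s₁).mpr (by rw [h1.1]; exact isUnit_one)
      obtain ⟨S, hS⟩ := hu
      exact ⟨S, hS⟩
    obtain ⟨S₂, hS₂⟩ : ∃ S : GL (Fin 2) F, S.1 = s₂ := by
      have hu : IsUnit s₂ := (Matrix.isUnit_iff_isUnit_det s₂).mpr (by rw [h2.1]; exact isUnit_one)
      obtain ⟨S, hS⟩ := hu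
      exact ⟨S, hS⟩
    obtain ⟨g, hg⟩ := su4t22n_exists_g e P (y₁⁻¹ * S₁ * y₁) (y₂⁻¹ * S₂ * y₂)
    have hg' : g.1 = tmat e P ((y₁⁻¹ : GL (Fin 2) F).1 * s₁ * y₁.1)
        ((y₂⁻¹ : GL (Fin 2) F).1 * s₂ * y₂.1) := by
      rw [hg, Units.val_mul, Units.val_mul, Units.val_mul, Units.val_mul, hS₁, hS₂]
    have hk1 : y₁.1 * ((y₁⁻¹ : GL (Fin 2) F).1 * s₁ * y₁.1) * (y₁⁻¹ : GL (Fin 2) F).1 = s₁ := by
      simp only [Matrix.mul_assoc, Units.mul_inv, Matrix.mul_one, Units.mul_inv_cancel_left]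
    have hk2 : y₂.1 * ((y₂⁻¹ : GL (Fin 2) F).1 * s₂ * y₂.1) * (y₂⁻¹ : GL (Fin 2) F).1 = s₂ := by
      simp only [Matrix.mul_assoc, Units.mul_inv, Matrix.mul_one, Units.mul_inv_cancel_left]
    have hact : ∀ z, g.1 *ᵥ su4t22n_Th e P y₁ y₂ z =
        su4t22n_Th e P y₁ y₂ ((s₁ ⊗ₖ s₂) *ᵥ z) := by
      intro z
      rw [hg', su4t22n_act, hk1, hk2]
    refine ⟨g, (hNmem g).mpr ⟨?_, ?_⟩, hg'⟩
    · rw [hH, Subgroup.mem_inf]
      refine ⟨(mem_tensorProductSubgroup_iff e P g).mpr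
        ⟨y₁⁻¹ * S₁ * y₁, y₂⁻¹ * S₂ * y₂, hg⟩, ?_⟩
      rw [Cfsg.Agent.Lib.Helper71.SUP.mem_S_iff]
      refine ⟨fun u v => ?_, ?_⟩
      · obtain ⟨z, rfl⟩ : ∃ z, u = su4t22n_Th e P y₁ y₂ z :=
          ⟨_, (su4t22n_Th_Thi e P y₁ y₂ u).symm⟩
        obtain ⟨w, rfl⟩ : ∃ w, v = su4t22n_Th e P y₁ y₂ w :=
          ⟨_, (su4t22n_Th_Thi e P y₁ y₂ v).symm⟩
        rw [hact, hact, hform, hform, su4t22n_kron_un φ h1 h2]
      · rw [hg', su4t22n_det_tmat, su4t22n_det_conj, su4t22n_det_conj, h1.1, h2.1]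
        ring
    · intro u v
      have h3 := hscale ((y₁⁻¹ : GL (Fin 2) F).1 * s₁ * y₁.1)
        ((y₂⁻¹ : GL (Fin 2) F).1 * s₂ * y₂.1) u v
      rw [su4t22n_det_conj, su4t22n_det_conj, h1.1, h2.1, one_mul, one_mul, ← hg'] at h3
      exact h3
  have hNH : N ≤ H := fun h hh => ((hNmem h).mp hh).1
  have hNrm : Nrm H N := by
    intro h hh x hx
    obtain ⟨hxH, hxb⟩ := (hNmem x).mp hx
    refine (hNmem _).mpr ⟨H.mul_mem (H.mul_mem hh hxH) (H.inv_mem hh), fun u v => ?_⟩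
    have hht : h ∈ tensorProductSubgroup 2 2 e P := by
      rw [hH] at hh
      exact hh.1
    obtain ⟨a, b, hab⟩ := (mem_tensorProductSubgroup_iff e P h).mp hht
    have hsc : ∀ u v, bf (h.1 *ᵥ u) (h.1 *ᵥ v) = a.1.det * b.1.det * bf u v := by
      intro u v
      rw [hab]
      exact hscale a.1 b.1 u v
    have h3 := hsc ((h⁻¹ : GL (Fin 4) F).1 *ᵥ u) ((h⁻¹ : GL (Fin 4) F).1 *ᵥ v)
    rw [mulVec_mulVec, mulVec_mulVec, Units.mul_inv, one_mulVec, one_mulVec] at h3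
    rw [Units.val_mul, Units.val_mul, ← mulVec_mulVec, ← mulVec_mulVec, ← mulVec_mulVec,
      ← mulVec_mulVec, hsc, hxb]
    exact h3.symm
  have hfix : FixesForm (matrixSet N) bf := by
    rintro _ ⟨g, hg, rfl⟩ u v
    exact ((hNmem g).mp hg).2 u v
  have hbil : IsBilinearForm bf := by
    refine ⟨fun a b v => ?_, fun c a v => ?_, fun v a b => ?_, fun c v a => ?_⟩
    · rw [hbf, hbf, hbf, su4t22n_Thi_add]
      simp only [su4t22n_Bf, Pi.add_apply]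
      ring
    · rw [hbf, hbf, su4t22n_Thi_smul]
      simp only [su4t22n_Bf, Pi.smul_apply, smul_eq_mul]
      ring
    · rw [hbf, hbf, hbf, su4t22n_Thi_add]
      simp only [su4t22n_Bf, Pi.add_apply]
      ring
    · rw [hbf, hbf, su4t22n_Thi_smul]
      simp only [su4t22n_Bf, Pi.smul_apply, smul_eq_mul]
      ring
  have hnd : IsNondegenerateForm bf := by
    intro v hv
    have hz : su4t22n_Thi e P y₁ y₂ v ≠ 0 := by
      intro h0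
      apply hv
      rw [← su4t22n_Th_Thi e P y₁ y₂ v, h0]
      unfold su4t22n_Th
      rw [mulVec_zero]
      have h00 : ((0 : Fin 2 × Fin 2 → F) ∘ e) = 0 := rfl
      rw [h00, mulVec_zero]
    have key1 : ∀ w : Fin 2 × Fin 2 → F, bf (su4t22n_Th e P y₁ y₂ w) v =
        su4t22n_Bf w (su4t22n_Thi e P y₁ y₂ v) := by
      intro w
      rw [hbf, su4t22n_Thi_Th]
    have key2 : ∀ w : Fin 2 × Fin 2 → F, bf v (su4t22n_Th e P y₁ y₂ w) =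
        su4t22n_Bf (su4t22n_Thi e P y₁ y₂ v) w := by
      intro w
      rw [hbf, su4t22n_Thi_Th]
    constructor
    · by_contra hcon
      push Not at hcon
      apply hz
      have h00 := hcon (su4t22n_Th e P y₁ y₂ (Pi.single (1, 1) 1))
      have h01 := hcon (su4t22n_Th e P y₁ y₂ (Pi.single (1, 0) 1))
      have h10 := hcon (su4t22n_Th e P y₁ y₂ (Pi.single (0, 1) 1))
      have h11 := hcon (su4t22n_Th e P y₁ y₂ (Pi.single (0, 0) 1))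
      rw [key1] at h00 h01 h10 h11
      simp [su4t22n_Bf, Pi.single_apply] at h00 h01 h10 h11
      funext ⟨i, k⟩
      fin_cases i <;> fin_cases k
      · exact h00
      · exact h01
      · exact h10
      · exact h11
    · by_contra hcon
      push Not at hcon
      apply hz
      have h00 := hcon (su4t22n_Th e P y₁ y₂ (Pi.single (1, 1) 1))
      have h01 := hcon (su4t22n_Th e P y₁ y₂ (Pi.single (1, 0) 1))
      have h10 := hcon (su4t22n_Th e P y₁ y₂ (Pi.single (0, 1) 1))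
      have h11 := hcon (su4t22n_Th e P y₁ y₂ (Pi.single (0, 0) 1))
      rw [key2] at h00 h01 h10 h11
      simp [su4t22n_Bf, Pi.single_apply] at h00 h01 h10 h11
      funext ⟨i, k⟩
      fin_cases i <;> fin_cases k
      · exact h00
      · exact h01
      · exact h10
      · exact h11
  have hspan : Submodule.span F (matrixSet N) = ⊤ := by
    have hDu := su4t22n_un_D φ hφφ x hx1
    have hJu := su4t22n_un_J φ
    have h16 : ∀ s₁ s₂ : Matrix (Fin 2) (Fin 2) F, su4t22n_Un2 φ s₁ → su4t22n_Un2 φ s₂ →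
        su4t22n_Lam e P y₁ y₂ (s₁ ⊗ₖ s₂) ∈ Submodule.span F (matrixSet N) := by
      intro s₁ s₂ h1 h2
      rw [su4t22n_Lam_kron]
      exact Submodule.subset_span (hel s₁ s₂ h1 h2)
    have hX : ∀ (X s₂ : Matrix (Fin 2) (Fin 2) F), su4t22n_Un2 φ s₂ →
        su4t22n_Lam e P y₁ y₂ (X ⊗ₖ s₂) ∈ Submodule.span F (matrixSet N) := by
      intro X s₂ h2
      obtain ⟨c₁, c₂, c₃, c₄, hX⟩ := su4t22n_span4 x (φ x) hx2 X
      rw [hX]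
      simp only [add_kronecker, smul_kronecker, map_add, map_smul]
      exact Submodule.add_mem _ (Submodule.add_mem _ (Submodule.add_mem _
        (Submodule.smul_mem _ _ (h16 _ _ (su4t22n_un_one φ) h2))
        (Submodule.smul_mem _ _ (h16 _ _ hDu h2)))
        (Submodule.smul_mem _ _ (h16 _ _ hJu h2)))
        (Submodule.smul_mem _ _ (h16 _ _ (su4t22n_un_mul φ hDu hJu) h2))
    have hXY : ∀ (X Y : Matrix (Fin 2) (Fin 2) F),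
        su4t22n_Lam e P y₁ y₂ (X ⊗ₖ Y) ∈ Submodule.span F (matrixSet N) := by
      intro X Y
      obtain ⟨c₁, c₂, c₃, c₄, hY⟩ := su4t22n_span4 x (φ x) hx2 Y
      rw [hY]
      simp only [kronecker_add, kronecker_smul, map_add, map_smul]
      exact Submodule.add_mem _ (Submodule.add_mem _ (Submodule.add_mem _
        (Submodule.smul_mem _ _ (hX _ _ (su4t22n_un_one φ)))
        (Submodule.smul_mem _ _ (hX _ _ hDu)))
        (Submodule.smul_mem _ _ (hX _ _ hJu)))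
        (Submodule.smul_mem _ _ (hX _ _ (su4t22n_un_mul φ hDu hJu)))
    have hall : ∀ Z' : Matrix (Fin 2 × Fin 2) (Fin 2 × Fin 2) F,
        su4t22n_Lam e P y₁ y₂ Z' ∈ Submodule.span F (matrixSet N) := by
      intro Z'
      rw [Matrix.matrix_eq_sum_single Z', map_sum]
      refine Submodule.sum_mem _ fun p _ => ?_
      rw [map_sum]
      refine Submodule.sum_mem _ fun p' _ => ?_
      have h1 : Matrix.single p p' (Z' p p') =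
          Matrix.single p.1 p'.1 (Z' p p') ⊗ₖ Matrix.single p.2 p'.2 (1 : F) := by
        rw [Matrix.single_kronecker_single, mul_one]
      rw [h1]
      exact hXY _ _
    rw [eq_top_iff]
    intro Z _
    obtain ⟨Z', rfl⟩ := su4t22n_Lam_surj e P y₁ y₂ Z
    exact hall Z'
  exact ⟨N, bf, hNH, hNrm, Cfsg.Agent.Lib.Helper44.O9.TIR_absIrr_of_span N hspan, hbil, hnd, hfix⟩

end Cfsg.Agent.Lib.Helper27.SU4T22N
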