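import Mathlib
import Cfsg.Agent.Lib.Helper27.PslnAut

/-!
# The symplectic group inside `SL_{2m}`

The form is the antidiagonal matrix `K` with `K (rev j) j = ep j`, where `ep j = 1` for `j < m`
and `-1` otherwise.  The symplectic group `SpS` is the fixed group of `theta = conj K ∘ tInv`.
Root elements, monomial matrices, and the Bruhat decomposition.
-/

set_option autoImplicit false
set_option linter.unusedSectionVars false

namespace Cfsg.Agent.Lib.Helper27.SpMat

open Matrix Cfsg.Agent.Lib.Helper27.PslnMat Cfsg.Agent.Lib.Helper27.PslnAut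

variable {F : Type*} [Field F] {m : ℕ}

/-! ### signs and the form -/

/-- the sign of an index -/
def ep (i : Fin (2 * m)) : F := if i.val < m then 1 else -1

theorem ep_mul_self (i : Fin (2 * m)) : (ep i : F) * ep i = 1 := by
  unfold ep
  split_ifs <;> ring

theorem ep_ne_zero (i : Fin (2 * m)) : (ep i : F) ≠ 0 := by
  intro h
  have := ep_mul_self (F := F) i
  rw [h, mul_zero] at this
  exact zero_ne_one this

theorem rev_ne (a : Fin (2 * m)) : Fin.rev a ≠ a := by
  intro h
  have := congrArg Fin.val h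
  rw [Fin.val_rev] at this
  omega

theorem ep_rev (i : Fin (2 * m)) : (ep (Fin.rev i) : F) = -ep i := by
  have hi := i.isLt
  unfold ep
  rw [Fin.val_rev]
  by_cases h : i.val < m
  · rw [if_pos h, if_neg (by omega)]
  · rw [if_neg h, if_pos (by omega), neg_neg]

theorem ep_inv (i : Fin (2 * m)) : (ep i : F)⁻¹ = ep i :=
  inv_eq_of_mul_eq_one_left (ep_mul_self i)

theorem ep_map (σ : F ≃+* F) (i : Fin (2 * m)) : σ (ep i) = ep i := by
  unfold ep
  split_ifs <;> simp

/-- the signs as units -/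
def epU (i : Fin (2 * m)) : Fˣ := if i.val < m then 1 else -1

theorem epU_coe (i : Fin (2 * m)) : ((epU i : Fˣ) : F) = ep i := by
  unfold epU ep
  split_ifs <;> simp

/-- the form, as an element of `GL` -/
def kGL : GL (Fin (2 * m)) F := Cfsg.Agent.Lib.Helper48.pGL Fin.revPerm * dGL epU

theorem kGL_mono : Mono Fin.revPerm (ep : Fin (2 * m) → F)
    ((kGL : GL (Fin (2 * m)) F) : Matrix (Fin (2 * m)) (Fin (2 * m)) F) := by
  intro i j
  have e : ((kGL : GL (Fin (2 * m)) F) : Matrix (Fin (2 * m)) (Fin (2 * m)) F)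
      = ((Cfsg.Agent.Lib.Helper48.pGL Fin.revPerm : GL (Fin (2 * m)) F) : Matrix (Fin (2 * m)) (Fin (2 * m)) F)
        * Matrix.diagonal (fun i => ((epU i : Fˣ) : F)) := rfl
  rw [e, Matrix.mul_diagonal, pGL_mono, epU_coe]
  split_ifs <;> simp

/-- the involution whose fixed points are the symplectic group -/
def theta : SLn (2 * m) F ≃* SLn (2 * m) F := tInv.trans (glConj kGL)

theorem theta_apply (s : SLn (2 * m) F) (k l : Fin (2 * m)) :
    (theta s) (Fin.rev k) (Fin.rev l) = ep k * ep l * (s⁻¹) l k := by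
  have h := kGL_mono.conj (glConj_key kGL (tInv s)) k l
  rw [Fin.revPerm_apply, Fin.revPerm_apply, tInv_apply] at h
  have h2 : (theta s) (Fin.rev k) (Fin.rev l) = (theta s) (Fin.rev k) (Fin.rev l) * ep l * ep l := by
    rw [mul_assoc, ep_mul_self, mul_one]
  rw [h2]
  have h3 : (theta s) (Fin.rev k) (Fin.rev l) * ep l = ep k * (s⁻¹) l k := h
  rw [h3]
  ring

theorem theta_tv {a b : Fin (2 * m)} (h : a ≠ b) (c : F) :
    theta (tv a b c) = tv (Fin.rev b) (Fin.rev a) (-(ep a * ep b * c)) := by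
  show glConj kGL (tInv (tv a b c)) = _
  rw [tInv_tv h, glConj_tv kGL_mono ep_ne_zero h.symm, Fin.revPerm_apply, Fin.revPerm_apply,
    div_eq_mul_inv, ep_inv]
  congr 1
  ring

/-- the symplectic group -/
def SpS : Subgroup (SLn (2 * m) F) where
  carrier := {s | theta s = s}
  mul_mem' := by
    intro a b ha hb
    show theta (a * b) = a * b
    rw [map_mul, ha, hb]
  one_mem' := map_one theta
  inv_mem' := by
    intro a ha
    show theta a⁻¹ = a⁻¹
    rw [map_inv, ha]

theorem mem_SpS {s : SLn (2 * m) F} : s ∈ (SpS : Subgroup (SLn (2 * m) F)) ↔ theta s = s := Iff.rfl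

/-- the entrywise form of the symplectic condition -/
theorem mem_SpS_iff {s : SLn (2 * m) F} : s ∈ (SpS : Subgroup (SLn (2 * m) F)) ↔
    ∀ k l, (s⁻¹) l k = ep k * ep l * s (Fin.rev k) (Fin.rev l) := by
  constructor
  · intro h k l
    have h1 := theta_apply s k l
    rw [mem_SpS.1 h] at h1
    rw [h1]
    have e1 := ep_mul_self (F := F) k
    have e2 := ep_mul_self (F := F) l
    linear_combination (-(s⁻¹) l k * ep k * ep k) * e2 - (s⁻¹) l k * e1
  · intro h
    apply Matrix.SpecialLinearGroup.ext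
    intro a b
    have h1 := theta_apply s (Fin.rev a) (Fin.rev b)
    rw [Fin.rev_rev, Fin.rev_rev, h (Fin.rev a) (Fin.rev b), Fin.rev_rev, Fin.rev_rev] at h1
    rw [h1]
    have e1 := ep_mul_self (F := F) (Fin.rev a)
    have e2 := ep_mul_self (F := F) (Fin.rev b)
    linear_combination (s a b * ep (Fin.rev a) * ep (Fin.rev a)) * e2 + s a b * e1

/-- the inverse of a symplectic matrix -/
theorem inv_apply {s : SLn (2 * m) F} (h : s ∈ (SpS : Subgroup (SLn (2 * m) F))) (k l : Fin (2 * m)) :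
    (s⁻¹) l k = ep k * ep l * s (Fin.rev k) (Fin.rev l) := mem_SpS_iff.1 h k l

/-! ### root elements -/

/-- the companion of a transvection -/
def E2 (a b : Fin (2 * m)) (c : F) : SLn (2 * m) F :=
  if b = Fin.rev a then 1 else tv (Fin.rev b) (Fin.rev a) (-(ep a * ep b * c))

/-- symplectic root elements -/
def E (a b : Fin (2 * m)) (c : F) : SLn (2 * m) F := tv a b c * E2 a b c

theorem E_long (a : Fin (2 * m)) (c : F) : E a (Fin.rev a) c = tv a (Fin.rev a) c := by
  unfold E E2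
  rw [if_pos rfl, mul_one]

theorem E_short {a b : Fin (2 * m)} (h : b ≠ Fin.rev a) (c : F) :
    E a b c = tv a b c * tv (Fin.rev b) (Fin.rev a) (-(ep a * ep b * c)) := by
  unfold E E2
  rw [if_neg h]

theorem rev_ne_rev {a b : Fin (2 * m)} (h : a ≠ b) : Fin.rev b ≠ Fin.rev a :=
  fun e => h (Fin.rev_injective e).symm

theorem E_mem {a b : Fin (2 * m)} (h : a ≠ b) (c : F) :
    E a b c ∈ (SpS : Subgroup (SLn (2 * m) F)) := by
  rw [mem_SpS]
  by_cases hb : b = Fin.rev a
  · subst hb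
    rw [E_long, theta_tv h, Fin.rev_rev, ep_rev]
    congr 1
    linear_combination c * ep_mul_self (F := F) a
  · rw [E_short hb, map_mul, theta_tv h, theta_tv (rev_ne_rev h), Fin.rev_rev, Fin.rev_rev, ep_rev,
      ep_rev]
    have e : -(-ep b * -ep a * -(ep a * ep b * c)) = c := by
      linear_combination (c * ep a * ep a) * ep_mul_self (F := F) b + c * ep_mul_self (F := F) a
    rw [e]
    exact tv_commute (rev_ne_rev h) h (fun e => rev_ne a e) (fun e => rev_ne b e.symm) _ _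


theorem E_zero (a b : Fin (2 * m)) : E a b (0 : F) = 1 := by
  unfold E E2
  rw [tv_zero, mul_zero, neg_zero, tv_zero, ite_self, mul_one]

/-- entries of a short root element -/
theorem E_apply {a b : Fin (2 * m)} (hab : a ≠ b) (h : b ≠ Fin.rev a) (c : F) (x y : Fin (2 * m)) :
    (E a b c) x y = (if x = y then 1 else 0) + (if x = a ∧ y = b then c else 0)
      + (if x = Fin.rev b ∧ y = Fin.rev a then -(ep a * ep b * c) else 0) := by
  rw [E_short h, tv_mul_apply hab, tv_apply (rev_ne_rev hab), tv_apply (rev_ne_rev hab)]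
  have e1 : ¬ (Fin.rev b = b ∧ Fin.rev a = y) := fun e => rev_ne b e.1
  have e2 : (Fin.rev b = x ∧ Fin.rev a = y) ↔ (x = Fin.rev b ∧ y = Fin.rev a) :=
    ⟨fun e => ⟨e.1.symm, e.2.symm⟩, fun e => ⟨e.1.symm, e.2.symm⟩⟩
  rw [if_neg e1, add_zero]
  simp only [e2]
  by_cases hx : x = a
  · by_cases hy : y = b
    · rw [if_pos hx, if_pos (hy.symm : b = y), if_pos (⟨hx, hy⟩ : x = a ∧ y = b)]
      ring
    · rw [if_pos hx, if_neg (Ne.symm hy : ¬ b = y), if_neg (fun e => hy e.2 : ¬ (x = a ∧ y = b))]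
      ring
  · rw [if_neg hx, if_neg (fun e => hx e.1 : ¬ (x = a ∧ y = b))]
    ring

/-- left multiplication by a short root element -/
theorem E_mul_apply {a b : Fin (2 * m)} (hab : a ≠ b) (h : b ≠ Fin.rev a) (c : F)
    (s : SLn (2 * m) F) (x y : Fin (2 * m)) :
    (E a b c * s) x y = s x y + (if x = a then c * s b y else 0)
      + (if x = Fin.rev b then -(ep a * ep b * c) * s (Fin.rev a) y else 0) := by
  rw [E_short h, mul_assoc, tv_mul_apply hab, tv_mul_apply (rev_ne_rev hab),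
    tv_mul_apply (rev_ne_rev hab)]
  have e1 : (b = Fin.rev b) = False := eq_false (fun e => rev_ne b e.symm)
  simp only [e1, if_false, add_zero]
  ring

/-- right multiplication by a short root element -/
theorem mul_E_apply {a b : Fin (2 * m)} (hab : a ≠ b) (h : b ≠ Fin.rev a) (c : F)
    (s : SLn (2 * m) F) (x y : Fin (2 * m)) :
    (s * E a b c) x y = s x y + (if y = b then s x a * c else 0)
      + (if y = Fin.rev a then s x (Fin.rev b) * -(ep a * ep b * c) else 0) := by
  rw [E_short h, ← mul_assoc, mul_tv_apply (rev_ne_rev hab), mul_tv_apply hab, mul_tv_apply hab]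
  have e1 : (Fin.rev b = b) = False := eq_false (rev_ne b)
  simp only [e1, if_false, add_zero]

/-! ### matrices with standard rows and columns -/

section fin

variable [Finite F]

/-- matrices whose rows and columns with index in `R` are those of the identity -/
def stdS (R : Set (Fin (2 * m))) : Subgroup (SLn (2 * m) F) :=
  sgOf
    { carrier := {u | ∀ r ∈ R, ∀ l, u r l = (1 : Matrix (Fin (2 * m)) (Fin (2 * m)) F) r l
        ∧ u l r = (1 : Matrix (Fin (2 * m)) (Fin (2 * m)) F) l r}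
      mul_mem' := by
        intro u u' hu hu' r hr l
        constructor
        · show ((u * u' : SLn (2 * m) F) : Matrix (Fin (2 * m)) (Fin (2 * m)) F) r l = _
          rw [Matrix.SpecialLinearGroup.coe_mul, Matrix.mul_apply]
          have e : ∀ k, (u : Matrix (Fin (2 * m)) (Fin (2 * m)) F) r k
              = (1 : Matrix (Fin (2 * m)) (Fin (2 * m)) F) r k := fun k => (hu r hr k).1
          simp only [e]
          rw [← Matrix.mul_apply, Matrix.one_mul]
          exact (hu' r hr l).1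
        · show ((u * u' : SLn (2 * m) F) : Matrix (Fin (2 * m)) (Fin (2 * m)) F) l r = _
          rw [Matrix.SpecialLinearGroup.coe_mul, Matrix.mul_apply]
          have e : ∀ k, (u' : Matrix (Fin (2 * m)) (Fin (2 * m)) F) k r
              = (1 : Matrix (Fin (2 * m)) (Fin (2 * m)) F) k r := fun k => (hu' r hr k).2
          simp only [e]
          rw [← Matrix.mul_apply, Matrix.mul_one]
          exact (hu r hr l).2
      one_mem' := fun _ _ _ => ⟨rfl, rfl⟩ }

theorem mem_stdS {R : Set (Fin (2 * m))} {u : SLn (2 * m) F} :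
    u ∈ stdS R ↔ ∀ r ∈ R, ∀ l, u r l = (1 : Matrix (Fin (2 * m)) (Fin (2 * m)) F) r l
      ∧ u l r = (1 : Matrix (Fin (2 * m)) (Fin (2 * m)) F) l r := Iff.rfl

theorem tv_mem_stdS {R : Set (Fin (2 * m))} {a b : Fin (2 * m)} (hab : a ≠ b) (ha : a ∉ R)
    (hb : b ∉ R) (c : F) : tv a b c ∈ stdS R := by
  intro r hr l
  have h1 : ¬ (a = r ∧ b = l) := fun e => ha (e.1 ▸ hr)
  have h2 : ¬ (a = l ∧ b = r) := fun e => hb (e.2 ▸ hr)
  rw [tv_apply hab, tv_apply hab, Matrix.one_apply, Matrix.one_apply, if_neg h1, if_neg h2,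
    add_zero, add_zero]
  exact ⟨rfl, rfl⟩

theorem E_mem_stdS {R : Set (Fin (2 * m))} (hR : ∀ r ∈ R, Fin.rev r ∈ R) {a b : Fin (2 * m)}
    (hab : a ≠ b) (ha : a ∉ R) (hb : b ∉ R) (c : F) : E a b c ∈ stdS R := by
  have hR' : ∀ r, r ∉ R → Fin.rev r ∉ R := fun r hr h => hr (by simpa using hR _ h)
  unfold E E2
  refine (stdS R).mul_mem (tv_mem_stdS hab ha hb c) ?_
  split_ifs
  · exact (stdS R).one_mem
  · exact tv_mem_stdS (rev_ne_rev hab) (hR' b hb) (hR' a ha) _

/-- left multiplication by a matrix with standard rows -/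
theorem stdS_mul_apply {R : Set (Fin (2 * m))} {u : SLn (2 * m) F} (hu : u ∈ stdS R)
    (s : SLn (2 * m) F) {r : Fin (2 * m)} (hr : r ∈ R) (y : Fin (2 * m)) : (u * s) r y = s r y := by
  show ((u * s : SLn (2 * m) F) : Matrix (Fin (2 * m)) (Fin (2 * m)) F) r y = _
  rw [Matrix.SpecialLinearGroup.coe_mul, Matrix.mul_apply]
  have e : ∀ k, (u : Matrix (Fin (2 * m)) (Fin (2 * m)) F) r k
      = (1 : Matrix (Fin (2 * m)) (Fin (2 * m)) F) r k := fun k => (hu r hr k).1
  simp only [e]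
  rw [← Matrix.mul_apply, Matrix.one_mul]

/-- right multiplication by a matrix with standard columns -/
theorem mul_stdS_apply {R : Set (Fin (2 * m))} {u : SLn (2 * m) F} (hu : u ∈ stdS R)
    (s : SLn (2 * m) F) {r : Fin (2 * m)} (hr : r ∈ R) (x : Fin (2 * m)) : (s * u) x r = s x r := by
  show ((s * u : SLn (2 * m) F) : Matrix (Fin (2 * m)) (Fin (2 * m)) F) x r = _
  rw [Matrix.SpecialLinearGroup.coe_mul, Matrix.mul_apply]
  have e : ∀ k, (u : Matrix (Fin (2 * m)) (Fin (2 * m)) F) k r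
      = (1 : Matrix (Fin (2 * m)) (Fin (2 * m)) F) k r := fun k => (hu r hr k).2
  simp only [e]
  rw [← Matrix.mul_apply, Matrix.mul_one]

/-- left multiplication by a matrix with standard columns: zero columns stay zero outside -/
theorem stdS_mul_col {R : Set (Fin (2 * m))} {u : SLn (2 * m) F} (hu : u ∈ stdS R)
    (s : SLn (2 * m) F) {r : Fin (2 * m)} (hr : r ∈ R) {j : Fin (2 * m)}
    (hcol : ∀ i, i ≠ r → s i j = 0) (i : Fin (2 * m)) : (u * s) i j = s i j := by
  show ((u * s : SLn (2 * m) F) : Matrix (Fin (2 * m)) (Fin (2 * m)) F) i j = _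
  rw [Matrix.SpecialLinearGroup.coe_mul, Matrix.mul_apply, Finset.sum_eq_single r]
  · have h1 : (u : Matrix (Fin (2 * m)) (Fin (2 * m)) F) i r
        = (1 : Matrix (Fin (2 * m)) (Fin (2 * m)) F) i r := (hu r hr i).2
    rw [h1, Matrix.one_apply]
    by_cases hi : i = r
    · rw [if_pos hi, one_mul, hi]
    · rw [if_neg hi, zero_mul]
      exact (hcol i hi).symm
  · intro k _ hk
    have : (s : Matrix (Fin (2 * m)) (Fin (2 * m)) F) k j = 0 := hcol k hk
    rw [this, mul_zero]
  · intro h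
    exact absurd (Finset.mem_univ _) h

/-- right multiplication by a matrix with standard rows: zero rows stay zero outside -/
theorem mul_stdS_row {R : Set (Fin (2 * m))} {u : SLn (2 * m) F} (hu : u ∈ stdS R)
    (s : SLn (2 * m) F) {r : Fin (2 * m)} (hr : r ∈ R) {i : Fin (2 * m)}
    (hrow : ∀ j, j ≠ r → s i j = 0) (j : Fin (2 * m)) : (s * u) i j = s i j := by
  show ((s * u : SLn (2 * m) F) : Matrix (Fin (2 * m)) (Fin (2 * m)) F) i j = _
  rw [Matrix.SpecialLinearGroup.coe_mul, Matrix.mul_apply, Finset.sum_eq_single r]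
  · have h1 : (u : Matrix (Fin (2 * m)) (Fin (2 * m)) F) r j
        = (1 : Matrix (Fin (2 * m)) (Fin (2 * m)) F) r j := (hu r hr j).1
    rw [h1, Matrix.one_apply]
    by_cases hj : r = j
    · rw [if_pos hj, mul_one, hj]
    · rw [if_neg hj, mul_zero]
      exact (hrow j (Ne.symm hj)).symm
  · intro k _ hk
    have : (s : Matrix (Fin (2 * m)) (Fin (2 * m)) F) i k = 0 := hrow k hk
    rw [this, zero_mul]
  · intro h
    exact absurd (Finset.mem_univ _) h

/-! ### the positive root elements -/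

/-- the subgroup generated by the positive root elements -/
def UpS : Subgroup (SLn (2 * m) F) :=
  Subgroup.closure {g | ∃ (a b : Fin (2 * m)) (c : F), a < b ∧ g = E a b c}

theorem E_mem_UpS {a b : Fin (2 * m)} (hab : a < b) (c : F) :
    E a b c ∈ (UpS : Subgroup (SLn (2 * m) F)) :=
  Subgroup.subset_closure ⟨a, b, c, hab, rfl⟩

theorem E_mem_Uo {a b : Fin (2 * m)} (hab : a < b) (c : F) :
    E a b c ∈ (Uo : Subgroup (SLn (2 * m) F)) := by
  unfold E E2
  refine Uo.mul_mem (tv_mem_utS _ hab.ne hab.le c) ?_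
  split_ifs
  · exact Uo.one_mem
  · exact tv_mem_utS _ (rev_ne_rev hab.ne) (Fin.rev_lt_rev.2 hab).le _

theorem UpS_le_Uo : (UpS : Subgroup (SLn (2 * m) F)) ≤ Uo := by
  unfold UpS
  rw [Subgroup.closure_le]
  rintro _ ⟨a, b, c, hab, rfl⟩
  exact E_mem_Uo hab c

theorem UpS_le_SpS : (UpS : Subgroup (SLn (2 * m) F)) ≤ SpS := by
  unfold UpS
  rw [Subgroup.closure_le]
  rintro _ ⟨a, b, c, hab, rfl⟩
  exact E_mem hab.ne c


/-! ### clearing a column -/

/-- clearing a column: the last step -/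
theorem clear_base (R : Set (Fin (2 * m))) (hR : ∀ r ∈ R, Fin.rev r ∈ R) (M : SLn (2 * m) F)
    (c p : Fin (2 * m)) (hp : M p c ≠ 0) (hlast : ∀ i, p < i → M i c = 0)
    (hR0 : ∀ r ∈ R, M r c = 0) (h0 : ∀ i, i < p → i ≠ Fin.rev p → M i c = 0) :
    ∃ u, u ∈ (UpS : Subgroup (SLn (2 * m) F)) ∧ u ∈ stdS R ∧ ∀ i, i ≠ p → (u * M) i c = 0 := by
  have hpR : p ∉ R := fun h => hp (hR0 p h)
  have hpR' : Fin.rev p ∉ R := fun h => hpR (by simpa using hR _ h)
  by_cases hlt : Fin.rev p < p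
  · refine ⟨E (Fin.rev p) p (-(M (Fin.rev p) c / M p c)), E_mem_UpS hlt _,
      E_mem_stdS hR hlt.ne hpR' hpR _, ?_⟩
    intro i hi
    have e : E (Fin.rev p) p (-(M (Fin.rev p) c / M p c))
        = tv (Fin.rev p) p (-(M (Fin.rev p) c / M p c)) := by
      have := E_long (Fin.rev p) (-(M (Fin.rev p) c / M p c))
      rwa [Fin.rev_rev] at this
    rw [e, tv_mul_apply hlt.ne]
    by_cases hi2 : i = Fin.rev p
    · rw [if_pos hi2, hi2]
      field_simp
      ring
    · rw [if_neg hi2, add_zero]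
      rcases lt_or_gt_of_ne hi with h | h
      · exact h0 i h hi2
      · exact hlast i h
  · refine ⟨1, (UpS).one_mem, (stdS R).one_mem, ?_⟩
    intro i hi
    rw [one_mul]
    rcases lt_or_gt_of_ne hi with h | h
    · apply h0 i h
      intro e
      apply hlt
      rw [← e]
      exact h
    · exact hlast i h

open Classical in
/-- clearing a column by positive root elements -/
theorem clear_col (R : Set (Fin (2 * m))) (hR : ∀ r ∈ R, Fin.rev r ∈ R) (c p : Fin (2 * m)) :
    ∀ (n : ℕ) (M : SLn (2 * m) F), M p c ≠ 0 → (∀ i, p < i → M i c = 0) → (∀ r ∈ R, M r c = 0) →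
      (Finset.univ.filter (fun i => i < p ∧ i ≠ Fin.rev p ∧ M i c ≠ 0)).card ≤ n →
      ∃ u, u ∈ (UpS : Subgroup (SLn (2 * m) F)) ∧ u ∈ stdS R ∧ ∀ i, i ≠ p → (u * M) i c = 0 := by
  classical
  intro n
  induction n with
  | zero =>
    intro M hp hlast hR0 hcard
    apply clear_base R hR M c p hp hlast hR0
    intro i hi hi2
    by_contra hne
    have hmem : i ∈ Finset.univ.filter (fun i => i < p ∧ i ≠ Fin.rev p ∧ M i c ≠ 0) := by
      rw [Finset.mem_filter]
      exact ⟨Finset.mem_univ _, hi, hi2, hne⟩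
    have := Finset.card_pos.2 ⟨i, hmem⟩
    omega
  | succ n ih =>
    intro M hp hlast hR0 hcard
    by_cases hex : ∃ i, i < p ∧ i ≠ Fin.rev p ∧ M i c ≠ 0
    · obtain ⟨i, hi, hi2, hne⟩ := hex
      have hpR : p ∉ R := fun h => hp (hR0 p h)
      have hpR' : Fin.rev p ∉ R := fun h => hpR (by simpa using hR _ h)
      have hiR : i ∉ R := fun h => hne (hR0 i h)
      obtain ⟨t, ht⟩ : ∃ t : F, t = -(M i c / M p c) := ⟨_, rfl⟩
      have hpi : p ≠ Fin.rev i := fun e => hi2 (by rw [e, Fin.rev_rev])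
      have key : ∀ x, (E i p t * M) x c = M x c + (if x = i then t * M p c else 0)
          + (if x = Fin.rev p then -(ep i * ep p * t) * M (Fin.rev i) c else 0) :=
        fun x => E_mul_apply hi.ne hpi t M x c
      have hpp : (E i p t * M) p c = M p c := by
        rw [key, if_neg hi.ne', if_neg (fun e => rev_ne p e.symm), add_zero, add_zero]
      have hii : (E i p t * M) i c = 0 := by
        rw [key, if_pos rfl, if_neg hi2, add_zero, ht]
        field_simp
        ring
      have hoth : ∀ x, x ≠ i → x ≠ Fin.rev p → (E i p t * M) x c = M x c := by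
        intro x h1 h2
        rw [key, if_neg h1, if_neg h2, add_zero, add_zero]
      have hcard' : (Finset.univ.filter
          (fun x => x < p ∧ x ≠ Fin.rev p ∧ (E i p t * M) x c ≠ 0)).card ≤ n := by
        have hsub : Finset.univ.filter (fun x => x < p ∧ x ≠ Fin.rev p ∧ (E i p t * M) x c ≠ 0)
            ⊆ (Finset.univ.filter (fun x => x < p ∧ x ≠ Fin.rev p ∧ M x c ≠ 0)).erase i := by
          intro x hx
          rw [Finset.mem_filter] at hx
          obtain ⟨-, hx1, hx2, hx3⟩ := hx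
          have hxi : x ≠ i := by
            rintro rfl
            exact hx3 hii
          rw [Finset.mem_erase, Finset.mem_filter]
          refine ⟨hxi, Finset.mem_univ _, hx1, hx2, ?_⟩
          rw [← hoth x hxi hx2]
          exact hx3
        have hmem : i ∈ Finset.univ.filter (fun x => x < p ∧ x ≠ Fin.rev p ∧ M x c ≠ 0) := by
          rw [Finset.mem_filter]
          exact ⟨Finset.mem_univ _, hi, hi2, hne⟩
        have h1 := Finset.card_le_card hsub
        rw [Finset.card_erase_of_mem hmem] at h1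
        omega
      obtain ⟨u₂, hu₂, hu₂R, hclear⟩ := ih (E i p t * M) (by rw [hpp]; exact hp)
        (by
          intro x hx
          have hxi : x ≠ i := fun e => absurd (e ▸ hx : p < i) (not_lt.2 hi.le)
          by_cases hx2 : x = Fin.rev p
          · rw [key, if_neg hxi, if_pos hx2, add_zero]
            have hri : p < Fin.rev i := by
              have h1 : Fin.rev p < Fin.rev i := Fin.rev_lt_rev.2 hi
              rw [← hx2] at h1
              exact hx.trans h1
            rw [hlast _ hri, mul_zero, add_zero]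
            exact hlast x hx
          · rw [hoth x hxi hx2]
            exact hlast x hx)
        (by
          intro r hr
          rw [hoth r (fun e => hiR (e ▸ hr)) (fun e => hpR' (e ▸ hr))]
          exact hR0 r hr)
        hcard'
      refine ⟨u₂ * E i p t, (UpS).mul_mem hu₂ (E_mem_UpS hi t),
        (stdS R).mul_mem hu₂R (E_mem_stdS hR hi.ne hiR hpR t), ?_⟩
      intro x hx
      rw [mul_assoc]
      exact hclear x hx
    · push Not at hex
      exact clear_base R hR M c p hp hlast hR0 (fun i h1 h2 => by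
        by_contra hne
        exact hne (hex i h1 h2))

/-! ### crosses -/

omit [Finite F] in
/-- a column of an invertible matrix is non-zero -/
theorem last_nonzero {n : ℕ} (g : SLn n F) (c : Fin n) : ∃ p, g p c ≠ 0 ∧ ∀ i, p < i → g i c = 0 := by
  classical
  have hex : ∃ i, g i c ≠ 0 := by
    by_contra hcon
    push Not at hcon
    have h1 : (g : Matrix (Fin n) (Fin n) F).det = 0 := Matrix.det_eq_zero_of_column_eq_zero c hcon
    rw [g.2] at h1
    exact one_ne_zero h1
  have hne : (Finset.univ.filter fun i : Fin n => g i c ≠ 0).Nonempty := by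
    obtain ⟨i, hi⟩ := hex
    exact ⟨i, by rw [Finset.mem_filter]; exact ⟨Finset.mem_univ _, hi⟩⟩
  refine ⟨(Finset.univ.filter fun i : Fin n => g i c ≠ 0).max' hne, ?_, ?_⟩
  · have := Finset.max'_mem _ hne
    rw [Finset.mem_filter] at this
    exact this.2
  · intro i hi
    by_contra h0
    have h1 : i ∈ Finset.univ.filter fun i : Fin n => g i c ≠ 0 := by
      rw [Finset.mem_filter]
      exact ⟨Finset.mem_univ _, h0⟩
    exact absurd (Finset.le_max' _ i h1) (not_le.2 hi)

omit [Finite F] in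
/-- a monomial column of a symplectic matrix -/
theorem mirror_key {g : SLn (2 * m) F} (h : g ∈ (SpS : Subgroup (SLn (2 * m) F)))
    {p c : Fin (2 * m)} (hcol : ∀ i, i ≠ p → g i c = 0) (l : Fin (2 * m)) :
    ep p * ep l * g (Fin.rev p) (Fin.rev l) * g p c
      = (1 : Matrix (Fin (2 * m)) (Fin (2 * m)) F) l c := by
  have h1 : ((g⁻¹ * g : SLn (2 * m) F) : Matrix (Fin (2 * m)) (Fin (2 * m)) F) l c
      = (1 : Matrix (Fin (2 * m)) (Fin (2 * m)) F) l c := by
    rw [inv_mul_cancel]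
    rfl
  rw [Matrix.SpecialLinearGroup.coe_mul, Matrix.mul_apply, Finset.sum_eq_single p] at h1
  · rw [← h1, ← inv_apply h p l]
  · intro k _ hk
    have : (g : Matrix (Fin (2 * m)) (Fin (2 * m)) F) k c = 0 := hcol k hk
    rw [this, mul_zero]
  · intro hh
    exact absurd (Finset.mem_univ _) hh

omit [Finite F] in
theorem mirror_ne {g : SLn (2 * m) F} (h : g ∈ (SpS : Subgroup (SLn (2 * m) F)))
    {p c : Fin (2 * m)} (hcol : ∀ i, i ≠ p → g i c = 0) : g p c ≠ 0 := by
  intro h0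
  have := mirror_key h hcol c
  rw [h0, mul_zero, Matrix.one_apply_eq] at this
  exact zero_ne_one this

omit [Finite F] in
theorem mirror_prod {g : SLn (2 * m) F} (h : g ∈ (SpS : Subgroup (SLn (2 * m) F)))
    {p c : Fin (2 * m)} (hcol : ∀ i, i ≠ p → g i c = 0) :
    g (Fin.rev p) (Fin.rev c) * g p c = ep p * ep c := by
  have h1 := mirror_key h hcol c
  rw [Matrix.one_apply_eq] at h1
  have e1 := ep_mul_self (F := F) p
  have e2 := ep_mul_self (F := F) c
  linear_combination (ep p * ep c) * h1 - (g (Fin.rev p) (Fin.rev c) * g p c * ep p * ep p) * e2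
    - (g (Fin.rev p) (Fin.rev c) * g p c) * e1

omit [Finite F] in
theorem mirror_row {g : SLn (2 * m) F} (h : g ∈ (SpS : Subgroup (SLn (2 * m) F)))
    {p c : Fin (2 * m)} (hcol : ∀ i, i ≠ p → g i c = 0) (j : Fin (2 * m)) (hj : j ≠ Fin.rev c) :
    g (Fin.rev p) j = 0 := by
  have h1 := mirror_key h hcol (Fin.rev j)
  rw [Fin.rev_rev, Matrix.one_apply_ne (fun e => hj (by rw [← e, Fin.rev_rev]))] at h1
  rcases mul_eq_zero.1 h1 with h3 | h3
  · rcases mul_eq_zero.1 h3 with h4 | h4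
    · exact absurd h4 (mul_ne_zero (ep_ne_zero _) (ep_ne_zero _))
    · exact h4
  · exact absurd h3 (mirror_ne h hcol)

/-- a cross: column `j` and row `r` vanish outside the entry `(r, j)` -/
def Cross (g : SLn (2 * m) F) (r j : Fin (2 * m)) : Prop :=
  (∀ i, i ≠ r → g i j = 0) ∧ (∀ j', j' ≠ j → g r j' = 0)

omit [Finite F] in
theorem cross_mirror {g : SLn (2 * m) F} (h : g ∈ (SpS : Subgroup (SLn (2 * m) F)))
    {r j : Fin (2 * m)} (hc : Cross g r j) : Cross g (Fin.rev r) (Fin.rev j) := by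
  refine ⟨?_, fun j' hj' => mirror_row h hc.1 j' hj'⟩
  have hcol' : ∀ l, l ≠ Fin.rev j → (g⁻¹) l (Fin.rev r) = 0 := by
    intro l hl
    rw [inv_apply h (Fin.rev r) l, Fin.rev_rev, hc.2 (Fin.rev l) (fun e => hl (by rw [← e, Fin.rev_rev])),
      mul_zero]
  have h2 : ∀ j', j' ≠ r → (g⁻¹) j j' = 0 := by
    intro j' hj'
    have := mirror_row ((SpS).inv_mem h) hcol' j' (by rw [Fin.rev_rev]; exact hj')
    rwa [Fin.rev_rev] at this
  intro i hi
  have h3 := h2 (Fin.rev i) (fun e => hi (by rw [← e, Fin.rev_rev]))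
  rw [inv_apply h (Fin.rev i) j, Fin.rev_rev] at h3
  rcases mul_eq_zero.1 h3 with h4 | h4
  · exact absurd h4 (mul_ne_zero (ep_ne_zero _) (ep_ne_zero _))
  · exact h4


/-! ### the Bruhat decomposition -/

/-- the processed indices -/
def Pk (m k : ℕ) : Set (Fin (2 * m)) := {j | j.val < k ∨ (Fin.rev j).val < k}

omit [Finite F] in
theorem Pk_rev {k : ℕ} {j : Fin (2 * m)} (h : j ∈ Pk m k) : Fin.rev j ∈ Pk m k := by
  rcases h with h | h
  · right
    rw [Fin.rev_rev]
    exact h
  · left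
    exact h

/-- the processed columns are monomial -/
def Proc (k : ℕ) (g : SLn (2 * m) F) : Prop := ∀ j ∈ Pk m k, ∃ r, Cross g r j

theorem bruhat_step (k : ℕ) (hk : k < m) (g : SLn (2 * m) F)
    (hg : g ∈ (SpS : Subgroup (SLn (2 * m) F))) (hproc : Proc k g) :
    ∃ u u', u ∈ (UpS : Subgroup (SLn (2 * m) F)) ∧ u' ∈ (UpS : Subgroup (SLn (2 * m) F)) ∧
      Proc (k + 1) (u * g * u') := by
  classical
  obtain ⟨c, hc⟩ : ∃ c : Fin (2 * m), c.val = k := ⟨⟨k, by omega⟩, rfl⟩
  have hcP : c ∉ Pk m k := by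
    rintro (h | h)
    · omega
    · rw [Fin.val_rev] at h
      omega
  obtain ⟨R, hRdef⟩ : ∃ R : Set (Fin (2 * m)), R = {r | ∃ j ∈ Pk m k, Cross g r j} := ⟨_, rfl⟩
  have hR : ∀ r ∈ R, Fin.rev r ∈ R := by
    intro r hr
    rw [hRdef] at hr ⊢
    obtain ⟨j, hj, hcr⟩ := hr
    exact ⟨Fin.rev j, Pk_rev hj, cross_mirror hg hcr⟩
  have hR0 : ∀ r ∈ R, g r c = 0 := by
    intro r hr
    rw [hRdef] at hr
    obtain ⟨j, hj, hcr⟩ := hr
    exact hcr.2 c (fun e => hcP (e ▸ hj))
  obtain ⟨p, hp, hlast⟩ := last_nonzero g c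
  obtain ⟨u, hu, huR, hclear⟩ := clear_col R hR c p _ g hp hlast hR0 le_rfl
  obtain ⟨g', hg'def⟩ : ∃ g' : SLn (2 * m) F, g' = u * g := ⟨_, rfl⟩
  have hg' : g' ∈ (SpS : Subgroup (SLn (2 * m) F)) := by
    rw [hg'def]
    exact (SpS).mul_mem (UpS_le_SpS hu) hg
  have hcross' : ∀ j ∈ Pk m k, ∀ r, Cross g r j → Cross g' r j := by
    intro j hj r hcr
    have hr : r ∈ R := by
      rw [hRdef]
      exact ⟨j, hj, hcr⟩
    rw [hg'def]
    constructor
    · intro i hi
      rw [stdS_mul_col huR g hr hcr.1 i]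
      exact hcr.1 i hi
    · intro j' hj'
      rw [stdS_mul_apply huR g hr j']
      exact hcr.2 j' hj'
  have hcol : ∀ i, i ≠ p → g' i c = 0 := by
    rw [hg'def]
    exact hclear
  have hpc : g' p c ≠ 0 := mirror_ne hg' hcol
  have hrow0 : ∀ j ∈ Pk m k, g' p j = 0 := by
    intro j hj
    obtain ⟨r, hcr⟩ := hproc j hj
    have hcr' := hcross' j hj r hcr
    have hrp : p ≠ r := by
      rintro rfl
      exact hpc (hcr'.2 c (fun e => hcP (e ▸ hj)))
    exact hcr'.1 p hrp
  have hval : ∀ l, (g'⁻¹) l (Fin.rev p) = ep (Fin.rev p) * ep l * g' p (Fin.rev l) := by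
    intro l
    have := inv_apply hg' (Fin.rev p) l
    rwa [Fin.rev_rev] at this
  have hp2 : (g'⁻¹) (Fin.rev c) (Fin.rev p) ≠ 0 := by
    rw [hval, Fin.rev_rev]
    exact mul_ne_zero (mul_ne_zero (ep_ne_zero _) (ep_ne_zero _)) hpc
  have hlast2 : ∀ l, Fin.rev c < l → (g'⁻¹) l (Fin.rev p) = 0 := by
    intro l hl
    have hl' : Fin.rev l ∈ Pk m k := by
      left
      have h1 : Fin.rev l < c := by
        have := Fin.rev_lt_rev.2 hl
        rwa [Fin.rev_rev] at this
      have h2 : (Fin.rev l).val < c.val := h1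
      omega
    rw [hval, hrow0 (Fin.rev l) hl', mul_zero]
  have hR02 : ∀ l ∈ Pk m k, (g'⁻¹) l (Fin.rev p) = 0 := by
    intro l hl
    rw [hval, hrow0 (Fin.rev l) (Pk_rev hl), mul_zero]
  obtain ⟨v, hv, hvR, hclear2⟩ := clear_col (Pk m k) (fun r hr => Pk_rev hr) (Fin.rev p) (Fin.rev c)
    _ (g'⁻¹) hp2 hlast2 hR02 le_rfl
  refine ⟨u, v⁻¹, hu, (UpS).inv_mem hv, ?_⟩
  rw [← hg'def]
  have hg'' : g' * v⁻¹ ∈ (SpS : Subgroup (SLn (2 * m) F)) :=
    (SpS).mul_mem hg' ((SpS).inv_mem (UpS_le_SpS hv))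
  have hinv : (g' * v⁻¹)⁻¹ = v * g'⁻¹ := by group
  have hrowp : ∀ j, j ≠ c → (g' * v⁻¹) p j = 0 := by
    intro j hj
    have h1 : (v * g'⁻¹) (Fin.rev j) (Fin.rev p) = 0 :=
      hclear2 (Fin.rev j) (fun e => hj (Fin.rev_injective e))
    rw [← hinv] at h1
    have h2 := inv_apply hg'' (Fin.rev p) (Fin.rev j)
    rw [Fin.rev_rev, Fin.rev_rev, h1] at h2
    rcases mul_eq_zero.1 h2.symm with h3 | h3
    · exact absurd h3 (mul_ne_zero (ep_ne_zero _) (ep_ne_zero _))
    · exact h3
  have hvinv : v⁻¹ ∈ stdS (Pk m k) := (stdS _).inv_mem hvR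
  have hvc : ∀ l, (v⁻¹ : SLn (2 * m) F) l c = (1 : Matrix (Fin (2 * m)) (Fin (2 * m)) F) l c := by
    intro l
    have hU := UpS_le_Uo ((UpS).inv_mem hv)
    rcases lt_trichotomy l c with hl | hl | hl
    · have hl' : l ∈ Pk m k := by
        left
        have : l.val < c.val := hl
        omega
      exact (hvinv l hl' c).1
    · rw [hl, Matrix.one_apply_eq]
      exact hU.2 c
    · rw [Matrix.one_apply_ne hl.ne']
      exact hU.1 hl
  have hcolc : ∀ i, (g' * v⁻¹) i c = g' i c := by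
    intro i
    show ((g' * v⁻¹ : SLn (2 * m) F) : Matrix (Fin (2 * m)) (Fin (2 * m)) F) i c = _
    rw [Matrix.SpecialLinearGroup.coe_mul, Matrix.mul_apply]
    have e : ∀ l, ((v⁻¹ : SLn (2 * m) F) : Matrix (Fin (2 * m)) (Fin (2 * m)) F) l c
        = (1 : Matrix (Fin (2 * m)) (Fin (2 * m)) F) l c := hvc
    simp only [e]
    rw [← Matrix.mul_apply, Matrix.mul_one]
  have hcross : Cross (g' * v⁻¹) p c :=
    ⟨fun i hi => by rw [hcolc]; exact hcol i hi, hrowp⟩
  intro j hj
  by_cases hjk : j ∈ Pk m k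
  · obtain ⟨r, hcr⟩ := hproc j hjk
    have hcr' := hcross' j hjk r hcr
    refine ⟨r, ?_, ?_⟩
    · intro i hi
      rw [mul_stdS_apply hvinv g' hjk i]
      exact hcr'.1 i hi
    · intro j' hj'
      rw [mul_stdS_row hvinv g' hjk hcr'.2 j']
      exact hcr'.2 j' hj'
  · rcases hj with hj | hj
    · have hjc : j = c := by
        apply Fin.ext
        have : ¬ j.val < k := fun h => hjk (Or.inl h)
        omega
      rw [hjc]
      exact ⟨p, hcross⟩
    · have hjc : j = Fin.rev c := by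
        have h1 : Fin.rev j = c := by
          apply Fin.ext
          have : ¬ (Fin.rev j).val < k := fun h => hjk (Or.inr h)
          omega
        rw [← h1, Fin.rev_rev]
      rw [hjc]
      exact ⟨Fin.rev p, cross_mirror hg'' hcross⟩

theorem bruhat_proc (g : SLn (2 * m) F) (hg : g ∈ (SpS : Subgroup (SLn (2 * m) F))) :
    ∀ k, k ≤ m → ∃ u u', u ∈ (UpS : Subgroup (SLn (2 * m) F)) ∧
      u' ∈ (UpS : Subgroup (SLn (2 * m) F)) ∧ Proc k (u * g * u') := by
  intro k
  induction k with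
  | zero =>
    intro _
    refine ⟨1, 1, (UpS).one_mem, (UpS).one_mem, ?_⟩
    rintro j (h | h)
    · exact absurd h (Nat.not_lt_zero _)
    · exact absurd h (Nat.not_lt_zero _)
  | succ k ih =>
    intro hk
    obtain ⟨u, u', hu, hu', hproc⟩ := ih (by omega)
    have hmem : u * g * u' ∈ (SpS : Subgroup (SLn (2 * m) F)) :=
      (SpS).mul_mem ((SpS).mul_mem (UpS_le_SpS hu) hg) (UpS_le_SpS hu')
    obtain ⟨u₂, u₂', hu₂, hu₂', hproc'⟩ := bruhat_step k (by omega) _ hmem hproc
    refine ⟨u₂ * u, u' * u₂', (UpS).mul_mem hu₂ hu, (UpS).mul_mem hu' hu₂', ?_⟩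
    have e : u₂ * u * g * (u' * u₂') = u₂ * (u * g * u') * u₂' := by group
    rw [e]
    exact hproc'

/-- **The Bruhat decomposition of the symplectic group.** -/
theorem bruhat_sp (g : SLn (2 * m) F) (hg : g ∈ (SpS : Subgroup (SLn (2 * m) F))) :
    ∃ (u u' : SLn (2 * m) F) (σ : Equiv.Perm (Fin (2 * m))) (d : Fin (2 * m) → F),
      u ∈ (UpS : Subgroup (SLn (2 * m) F)) ∧ u' ∈ (UpS : Subgroup (SLn (2 * m) F)) ∧
      Mono σ d ((u * g * u' : SLn (2 * m) F) : Matrix (Fin (2 * m)) (Fin (2 * m)) F) := by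
  classical
  obtain ⟨u, u', hu, hu', hproc⟩ := bruhat_proc g hg m le_rfl
  obtain ⟨w, hw⟩ : ∃ w : SLn (2 * m) F, w = u * g * u' := ⟨_, rfl⟩
  rw [← hw] at hproc
  have hall : ∀ j : Fin (2 * m), ∃ r, Cross w r j := by
    intro j
    apply hproc j
    by_cases h : j.val < m
    · exact Or.inl h
    · right
      rw [Fin.val_rev]
      have := j.isLt
      omega
  choose ρ hρ using hall
  have hne : ∀ j, w (ρ j) j ≠ 0 := by
    intro j h0
    obtain ⟨p, hp, -⟩ := last_nonzero w j
    by_cases hpj : p = ρ j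
    · rw [hpj] at hp
      exact hp h0
    · exact hp ((hρ j).1 p hpj)
  have hinj : Function.Injective ρ := by
    intro j j' hjj
    by_contra hne'
    apply hne j'
    rw [← hjj]
    exact (hρ j).2 j' (Ne.symm hne')
  refine ⟨u, u', Equiv.ofBijective ρ (Finite.injective_iff_bijective.mp hinj),
    fun j => w (ρ j) j, hu, hu', ?_⟩
  rw [← hw]
  intro i j
  show w i j = if i = ρ j then w (ρ j) j else 0
  by_cases h : i = ρ j
  · rw [if_pos h, h]
  · rw [if_neg h]
    exact (hρ j).1 i h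

end fin

/-! ### monomial matrices -/

/-- the product of two monomial matrices -/
theorem Mono.mul {n : ℕ} {σ τ : Equiv.Perm (Fin n)} {d d' : Fin n → F}
    {W W' : Matrix (Fin n) (Fin n) F} (hW : Mono σ d W) (hW' : Mono τ d' W') :
    Mono (σ * τ) (fun j => d (τ j) * d' j) (W * W') := by
  intro i j
  rw [Matrix.mul_apply, Finset.sum_eq_single (τ j)]
  · rw [hW, hW', if_pos rfl, ite_mul, zero_mul]
    rfl
  · intro k _ hk
    rw [hW' k j, if_neg hk, mul_zero]
  · intro h
    exact absurd (Finset.mem_univ _) h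

/-- the permutation of a symplectic monomial matrix commutes with the reversal -/
theorem mono_rev {w : SLn (2 * m) F} (hw : w ∈ (SpS : Subgroup (SLn (2 * m) F)))
    {σ : Equiv.Perm (Fin (2 * m))} {d : Fin (2 * m) → F}
    (hW : Mono σ d (w : Matrix (Fin (2 * m)) (Fin (2 * m)) F)) (j : Fin (2 * m)) :
    σ (Fin.rev j) = Fin.rev (σ j) := by
  have hcol : ∀ i, i ≠ σ j → w i j = 0 := by
    intro i hi
    show (w : Matrix (Fin (2 * m)) (Fin (2 * m)) F) i j = 0
    rw [hW, if_neg hi]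
  have h1 := mirror_prod hw hcol
  by_contra hne
  have h2 : w (Fin.rev (σ j)) (Fin.rev j) = 0 := by
    show (w : Matrix (Fin (2 * m)) (Fin (2 * m)) F) (Fin.rev (σ j)) (Fin.rev j) = 0
    rw [hW, if_neg (fun e => hne e.symm)]
  rw [h2, zero_mul] at h1
  exact mul_ne_zero (ep_ne_zero _) (ep_ne_zero _) h1.symm

/-- the coefficients of a symplectic monomial matrix -/
theorem mono_d {w : SLn (2 * m) F} (hw : w ∈ (SpS : Subgroup (SLn (2 * m) F)))
    {σ : Equiv.Perm (Fin (2 * m))} {d : Fin (2 * m) → F}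
    (hW : Mono σ d (w : Matrix (Fin (2 * m)) (Fin (2 * m)) F)) (j : Fin (2 * m)) :
    d (Fin.rev j) * d j = ep (σ j) * ep j := by
  have hcol : ∀ i, i ≠ σ j → w i j = 0 := by
    intro i hi
    show (w : Matrix (Fin (2 * m)) (Fin (2 * m)) F) i j = 0
    rw [hW, if_neg hi]
  have h1 := mirror_prod hw hcol
  have h2 : w (Fin.rev (σ j)) (Fin.rev j) = d (Fin.rev j) := by
    show (w : Matrix (Fin (2 * m)) (Fin (2 * m)) F) (Fin.rev (σ j)) (Fin.rev j) = _
    rw [hW, if_pos (mono_rev hw hW j).symm]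
  have h3 : w (σ j) j = d j := by
    show (w : Matrix (Fin (2 * m)) (Fin (2 * m)) F) (σ j) j = _
    rw [hW, if_pos rfl]
  rw [h2, h3] at h1
  exact h1


/-! ### the algebra of root elements -/

theorem E2_commute_tv {a b a' b' : Fin (2 * m)} (hab : a ≠ b) (hab' : a' ≠ b')
    (h1 : b' ≠ Fin.rev b) (h2 : a' ≠ Fin.rev a) (c c' : F) :
    Commute (E2 a b c) (tv a' b' c') := by
  unfold E2
  split_ifs
  · exact Commute.one_left _
  · exact tv_commute (rev_ne_rev hab) hab' (fun e => h2 e.symm) h1 _ _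

theorem E2_commute_E2 {a b a' b' : Fin (2 * m)} (hab : a ≠ b) (hab' : a' ≠ b')
    (h1 : b ≠ a') (h2 : a ≠ b') (c c' : F) :
    Commute (E2 a b c) (E2 a' b' c') := by
  unfold E2
  split_ifs
  · exact Commute.one_left _
  · exact Commute.one_left _
  · exact Commute.one_right _
  · exact tv_commute (rev_ne_rev hab) (rev_ne_rev hab') (fun e => h2 (Fin.rev_injective e))
      (fun e => h1 (Fin.rev_injective e).symm) _ _

/-- root elements with unrelated indices commute -/
theorem E_comm {a b a' b' : Fin (2 * m)} (hab : a ≠ b) (hab' : a' ≠ b') (h1 : b ≠ a')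
    (h2 : a ≠ b') (h3 : b ≠ Fin.rev b') (h4 : a ≠ Fin.rev a') (c c' : F) :
    Commute (E a b c) (E a' b' c') := by
  have h3' : b' ≠ Fin.rev b := fun e => h3 (by rw [e, Fin.rev_rev])
  have h4' : a' ≠ Fin.rev a := fun e => h4 (by rw [e, Fin.rev_rev])
  have c1 : Commute (tv a b c) (tv a' b' c') := tv_commute hab hab' h1 h2.symm c c'
  have c2 : Commute (tv a b c) (E2 a' b' c') := (E2_commute_tv hab' hab h3 h4 c' c).symm
  have c3 : Commute (E2 a b c) (tv a' b' c') := E2_commute_tv hab hab' h3' h4' c c'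
  have c4 : Commute (E2 a b c) (E2 a' b' c') := E2_commute_E2 hab hab' h1 h2 c c'
  exact (c1.mul_right c2).mul_left (c3.mul_right c4)

theorem tv_commute_E2 {a b : Fin (2 * m)} (hab : a ≠ b) (c c' : F) :
    Commute (tv a b c) (E2 a b c') := by
  unfold E2
  split_ifs
  · exact Commute.one_right _
  · exact tv_commute hab (rev_ne_rev hab) (fun e => rev_ne b e.symm) (rev_ne a) _ _

theorem E2_add {a b : Fin (2 * m)} (hab : a ≠ b) (c c' : F) :
    E2 a b (c + c') = E2 a b c * E2 a b c' := by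
  unfold E2
  split_ifs with h
  · rw [mul_one]
  · rw [← tv_add (rev_ne_rev hab)]
    congr 1
    ring

theorem E_add {a b : Fin (2 * m)} (hab : a ≠ b) (c c' : F) : E a b (c + c') = E a b c * E a b c' := by
  unfold E
  rw [tv_add hab, E2_add hab, mul_assoc, ← mul_assoc (tv a b c'), (tv_commute_E2 hab c' c).eq]
  simp only [mul_assoc]

theorem E_inv {a b : Fin (2 * m)} (hab : a ≠ b) (c : F) : (E a b c)⁻¹ = E a b (-c) := by
  apply inv_eq_of_mul_eq_one_right
  rw [← E_add hab, add_neg_cancel, E_zero]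

/-- the two descriptions of a short root element -/
theorem E_symm {a b : Fin (2 * m)} (hab : a ≠ b) (h : b ≠ Fin.rev a) (c : F) :
    E a b c = E (Fin.rev b) (Fin.rev a) (-(ep a * ep b * c)) := by
  have h' : Fin.rev a ≠ Fin.rev (Fin.rev b) := by
    rw [Fin.rev_rev]
    exact fun e => h e.symm
  rw [E_short h, E_short h', Fin.rev_rev, Fin.rev_rev, ep_rev, ep_rev]
  have e : -(-ep b * -ep a * -(ep a * ep b * c)) = c := by
    linear_combination (c * ep a * ep a) * ep_mul_self (F := F) b + c * ep_mul_self (F := F) a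
  rw [e]
  exact tv_commute hab (rev_ne_rev hab) (fun e => rev_ne b e.symm) (rev_ne a) _ _

theorem tInv_E {a b : Fin (2 * m)} (hab : a ≠ b) (c : F) : tInv (E a b c) = E b a (-c) := by
  by_cases hb : b = Fin.rev a
  · subst hb
    have e : E (Fin.rev a) a (-c) = tv (Fin.rev a) a (-c) := by
      have := E_long (Fin.rev a) (-c)
      rwa [Fin.rev_rev] at this
    rw [E_long, tInv_tv hab, e]
  · have hb' : a ≠ Fin.rev b := fun e => hb (by rw [e, Fin.rev_rev])
    rw [E_short hb, E_short hb', map_mul, tInv_tv hab, tInv_tv (rev_ne_rev hab)]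
    congr 2
    ring

theorem fAut_E (σ : F ≃+* F) {a b : Fin (2 * m)} (hab : a ≠ b) (c : F) :
    fAut σ (E a b c) = E a b (σ c) := by
  by_cases hb : b = Fin.rev a
  · subst hb
    rw [E_long, E_long, fAut_tv σ hab]
  · rw [E_short hb, E_short hb, map_mul, fAut_tv σ hab, fAut_tv σ (rev_ne_rev hab), map_neg,
      map_mul, map_mul, ep_map, ep_map]

/-- conjugation of a root element by a symplectic monomial matrix -/
theorem mono_conj_E {w : SLn (2 * m) F} (hw : w ∈ (SpS : Subgroup (SLn (2 * m) F)))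
    {σ : Equiv.Perm (Fin (2 * m))} {d : Fin (2 * m) → F}
    (hW : Mono σ d (w : Matrix (Fin (2 * m)) (Fin (2 * m)) F)) {a b : Fin (2 * m)} (hab : a ≠ b)
    (c : F) : w * E a b c * w⁻¹ = E (σ a) (σ b) (d a * c / d b) := by
  have hd := hW.ne_zero'
  by_cases hb : b = Fin.rev a
  · subst hb
    rw [E_long, hW.conj_tv hab, mono_rev hw hW, E_long]
  · have hb' : σ b ≠ Fin.rev (σ a) := by
      rw [← mono_rev hw hW]
      exact fun e => hb (σ.injective e)
    rw [E_short hb, E_short hb']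
    have e : w * (tv a b c * tv (Fin.rev b) (Fin.rev a) (-(ep a * ep b * c))) * w⁻¹
        = (w * tv a b c * w⁻¹) * (w * tv (Fin.rev b) (Fin.rev a) (-(ep a * ep b * c)) * w⁻¹) := by
      group
    rw [e, hW.conj_tv hab, hW.conj_tv (rev_ne_rev hab), mono_rev hw hW, mono_rev hw hW]
    congr 2
    have hA := mono_d hw hW a
    have hB := mono_d hw hW b
    have ha0 := hd a
    have hb0 := hd b
    have hA0 := hd (Fin.rev a)
    have e1 := ep_mul_self (F := F) (σ a)
    have e2 := ep_mul_self (F := F) b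
    rw [div_eq_iff hA0]
    field_simp
    linear_combination (-(ep a * ep b * c)) * hB + (ep (σ a) * ep (σ b) * c) * hA
      - (ep (σ b) * ep a * c) * e2 + (ep (σ b) * ep a * c) * e1

/-- the commutator of two commuting pairs -/
theorem comm_prod {G : Type*} [Group G] {a a' b b' : G} (h1 : Commute a' a) (h2 : Commute a' b)
    (h3 : Commute b' a) (h4 : Commute b' b) :
    (a * a') * (b * b') * (a * a')⁻¹ * (b * b')⁻¹
      = (a * b * a⁻¹ * b⁻¹) * (a' * b' * a'⁻¹ * b'⁻¹) := by
  have hc : Commute (a' * b' * a'⁻¹) a⁻¹ :=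
    ((h1.mul_left h3).mul_left h1.inv_left).inv_right
  have hd : Commute (a' * b' * a'⁻¹ * b'⁻¹) b⁻¹ :=
    (((h2.mul_left h4).mul_left h2.inv_left).mul_left h4.inv_left).inv_right
  calc (a * a') * (b * b') * (a * a')⁻¹ * (b * b')⁻¹
      = a * (a' * b) * (b' * a'⁻¹) * a⁻¹ * b'⁻¹ * b⁻¹ := by group
    _ = a * (b * a') * (b' * a'⁻¹) * a⁻¹ * b'⁻¹ * b⁻¹ := by rw [h2.eq]
    _ = a * b * ((a' * b' * a'⁻¹) * a⁻¹) * b'⁻¹ * b⁻¹ := by group
    _ = a * b * (a⁻¹ * (a' * b' * a'⁻¹)) * b'⁻¹ * b⁻¹ := by rw [hc.eq]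
    _ = a * b * a⁻¹ * ((a' * b' * a'⁻¹ * b'⁻¹) * b⁻¹) := by group
    _ = a * b * a⁻¹ * (b⁻¹ * (a' * b' * a'⁻¹ * b'⁻¹)) := by rw [hd.eq]
    _ = _ := by group

/-- the commutator formula for short roots -/
theorem E_chev {a b c : Fin (2 * m)} (hab : a ≠ b) (hbc : b ≠ c) (hac : a ≠ c)
    (h1 : b ≠ Fin.rev a) (h2 : c ≠ Fin.rev b) (h3 : c ≠ Fin.rev a) (s t : F) :
    E a b s * E b c t * (E a b s)⁻¹ * (E b c t)⁻¹ = E a c (s * t) := by
  rw [E_short h1, E_short h2, E_short h3]
  have k1 : Commute (tv (Fin.rev b) (Fin.rev a) (-(ep a * ep b * s))) (tv a b s) :=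
    tv_commute (rev_ne_rev hab) hab (rev_ne a) (fun e => rev_ne b e.symm) _ _
  have k2 : Commute (tv (Fin.rev b) (Fin.rev a) (-(ep a * ep b * s))) (tv b c t) :=
    tv_commute (rev_ne_rev hab) hbc (fun e => h1 e.symm) h2 _ _
  have k3 : Commute (tv (Fin.rev c) (Fin.rev b) (-(ep b * ep c * t))) (tv a b s) :=
    tv_commute (rev_ne_rev hbc) hab (fun e => h1 (by rw [← e, Fin.rev_rev]))
      (fun e => h2 (by rw [e, Fin.rev_rev])) _ _
  have k4 : Commute (tv (Fin.rev c) (Fin.rev b) (-(ep b * ep c * t))) (tv b c t) :=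
    tv_commute (rev_ne_rev hbc) hbc (rev_ne b) (fun e => rev_ne c e.symm) _ _
  rw [comm_prod k1 k2 k3 k4, tv_comm hab hbc hac]
  congr 1
  have k5 := tv_comm (rev_ne_rev hbc) (rev_ne_rev hab) (rev_ne_rev hac) (-(ep b * ep c * t))
    (-(ep a * ep b * s))
  have e : tv (Fin.rev b) (Fin.rev a) (-(ep a * ep b * s)) * tv (Fin.rev c) (Fin.rev b) (-(ep b * ep c * t))
      * (tv (Fin.rev b) (Fin.rev a) (-(ep a * ep b * s)))⁻¹ * (tv (Fin.rev c) (Fin.rev b) (-(ep b * ep c * t)))⁻¹
      = (tv (Fin.rev c) (Fin.rev b) (-(ep b * ep c * t)) * tv (Fin.rev b) (Fin.rev a) (-(ep a * ep b * s))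
        * (tv (Fin.rev c) (Fin.rev b) (-(ep b * ep c * t)))⁻¹ * (tv (Fin.rev b) (Fin.rev a) (-(ep a * ep b * s)))⁻¹)⁻¹ := by
    group
  rw [e, k5, tv_inv (rev_ne_rev hac)]
  congr 1
  linear_combination (-(ep a * ep c * s * t)) * ep_mul_self (F := F) b

/-- the commutator formula for a short and a long root -/
theorem E_dbl {a b : Fin (2 * m)} (hab : a ≠ b) (h1 : b ≠ Fin.rev a) (s t : F) :
    E a b s * E b (Fin.rev b) t * (E a b s)⁻¹ * (E b (Fin.rev b) t)⁻¹
      = E a (Fin.rev a) (ep a * ep b * s ^ 2 * t) * E a (Fin.rev b) (s * t) := by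
  have hab' : a ≠ Fin.rev b := fun e => h1 (by rw [e, Fin.rev_rev])
  have h2 : Fin.rev b ≠ Fin.rev a := rev_ne_rev hab
  rw [E_short h1, E_long, E_long, E_short h2, Fin.rev_rev, ep_rev]
  obtain ⟨s₁, hs₁⟩ : ∃ s₁ : F, s₁ = -(ep a * ep b * s) := ⟨_, rfl⟩
  rw [← hs₁]
  have e : (tv a b s * tv (Fin.rev b) (Fin.rev a) s₁) * tv b (Fin.rev b) t
        * (tv a b s * tv (Fin.rev b) (Fin.rev a) s₁)⁻¹ * (tv b (Fin.rev b) t)⁻¹
      = tv a b s * (tv (Fin.rev b) (Fin.rev a) s₁ * tv b (Fin.rev b) t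
          * (tv (Fin.rev b) (Fin.rev a) s₁)⁻¹ * (tv b (Fin.rev b) t)⁻¹) * (tv a b s)⁻¹
        * (tv a b s * tv b (Fin.rev b) t * (tv a b s)⁻¹ * (tv b (Fin.rev b) t)⁻¹) := by group
  have c1 := tv_comm hab (fun e => rev_ne b e.symm) hab' s t
  have c2 : tv (Fin.rev b) (Fin.rev a) s₁ * tv b (Fin.rev b) t
      * (tv (Fin.rev b) (Fin.rev a) s₁)⁻¹ * (tv b (Fin.rev b) t)⁻¹ = tv b (Fin.rev a) (-(t * s₁)) := by
    have k := tv_comm (fun e => rev_ne b e.symm) h2 (fun e => h1 e) t s₁
    have e2 : tv (Fin.rev b) (Fin.rev a) s₁ * tv b (Fin.rev b) t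
        * (tv (Fin.rev b) (Fin.rev a) s₁)⁻¹ * (tv b (Fin.rev b) t)⁻¹
        = (tv b (Fin.rev b) t * tv (Fin.rev b) (Fin.rev a) s₁ * (tv b (Fin.rev b) t)⁻¹
          * (tv (Fin.rev b) (Fin.rev a) s₁)⁻¹)⁻¹ := by group
    rw [e2, k, tv_inv h1]
  have c3 : ∀ x : F, tv a b s * tv b (Fin.rev a) x * (tv a b s)⁻¹
      = tv a (Fin.rev a) (s * x) * tv b (Fin.rev a) x := by
    intro x
    have k := tv_comm hab h1 (fun e => rev_ne a e.symm) s x
    rw [← k]
    group
  rw [e, c2, c3, c1, mul_assoc]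
  congr 1
  · congr 1
    rw [hs₁]
    ring
  · rw [(tv_commute h1 hab' (fun e => rev_ne a e) (fun e => rev_ne b e) _ _ :
      tv b (Fin.rev a) (-(t * s₁)) * tv a (Fin.rev b) (s * t)
        = tv a (Fin.rev b) (s * t) * tv b (Fin.rev a) (-(t * s₁)))]
    congr 2
    rw [hs₁]
    ring


/-! ### Weyl elements -/

/-- the Weyl element of `SL_2` on the indices `a`, `b` -/
def nT {n : ℕ} (a b : Fin n) (c : F) : SLn n F := tv a b c * tv b a (-c⁻¹) * tv a b c

/-- the coefficients of `nT` -/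
def dT {n : ℕ} (a b : Fin n) (c : F) : Fin n → F :=
  fun l => if l = a then -c⁻¹ else if l = b then c else 1

theorem nT_mono {n : ℕ} {a b : Fin n} (hab : a ≠ b) {c : F} (hc : c ≠ 0) :
    Mono (Equiv.swap a b) (dT a b c) ((nT a b c : SLn n F) : Matrix (Fin n) (Fin n) F) := by
  intro x y
  show (nT a b c) x y = _
  unfold nT dT
  rw [mul_tv_apply hab, tv_mul_apply hab, tv_mul_apply hab, tv_apply hab.symm, tv_apply hab.symm,
    tv_apply hab.symm, tv_apply hab.symm, Equiv.swap_apply_def]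
  have hba := hab.symm
  by_cases hx1 : x = a <;> by_cases hx2 : x = b <;> by_cases hy1 : y = a <;>
    by_cases hy2 : y = b <;> simp_all [eq_comm]

theorem prod3_comm {G : Type*} [Group G] {a b x y : G} (h1 : Commute x a) (h2 : Commute x b)
    (h3 : Commute y a) : (a * x) * (b * y) * (a * x) = (a * b * a) * (x * y * x) := by
  calc (a * x) * (b * y) * (a * x) = a * (x * b) * (y * a) * x := by group
    _ = a * (b * x) * (a * y) * x := by rw [h2.eq, h3.eq]
    _ = a * b * (x * a) * y * x := by group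
    _ = a * b * (a * x) * y * x := by rw [h1.eq]
    _ = _ := by group

/-- the Weyl elements of the symplectic group -/
def nE (a b : Fin (2 * m)) (c : F) : SLn (2 * m) F := E a b c * E b a (-c⁻¹) * E a b c

theorem nE_mem {a b : Fin (2 * m)} (hab : a ≠ b) (c : F) :
    nE a b c ∈ (SpS : Subgroup (SLn (2 * m) F)) :=
  (SpS).mul_mem ((SpS).mul_mem (E_mem hab c) (E_mem hab.symm _)) (E_mem hab c)

theorem nE_long (a : Fin (2 * m)) (c : F) : nE a (Fin.rev a) c = nT a (Fin.rev a) c := by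
  have e : E (Fin.rev a) a (-c⁻¹) = tv (Fin.rev a) a (-c⁻¹) := by
    have := E_long (Fin.rev a) (-c⁻¹)
    rwa [Fin.rev_rev] at this
  unfold nE nT
  rw [E_long, e]

theorem nE_short {a b : Fin (2 * m)} (hab : a ≠ b) (h : b ≠ Fin.rev a) (c : F) :
    nE a b c = nT a b c * nT (Fin.rev b) (Fin.rev a) (-(ep a * ep b * c)) := by
  have h' : a ≠ Fin.rev b := fun e => h (by rw [e, Fin.rev_rev])
  unfold nE nT
  rw [E_short h, E_short h']
  have e : -(ep b * ep a * -c⁻¹) = -(-(ep a * ep b * c))⁻¹ := by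
    rw [inv_neg, neg_neg, mul_inv, mul_inv, ep_inv, ep_inv]
    ring
  rw [e]
  apply prod3_comm
  · exact tv_commute (rev_ne_rev hab) hab (rev_ne a) (fun e => rev_ne b e.symm) _ _
  · exact tv_commute (rev_ne_rev hab) hab.symm (fun e => h e.symm) (fun e => h' e) _ _
  · exact tv_commute (rev_ne_rev hab.symm) hab (fun e => h' e.symm) (fun e => h e) _ _

/-- the permutation of a Weyl element -/
def sw (a b : Fin (2 * m)) : Equiv.Perm (Fin (2 * m)) :=
  if b = Fin.rev a then Equiv.swap a b else Equiv.swap a b * Equiv.swap (Fin.rev b) (Fin.rev a)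

/-- the coefficients of a Weyl element -/
def dE (a b : Fin (2 * m)) (c : F) : Fin (2 * m) → F :=
  if b = Fin.rev a then dT a b c
  else fun j => dT a b c (Equiv.swap (Fin.rev b) (Fin.rev a) j)
    * dT (Fin.rev b) (Fin.rev a) (-(ep a * ep b * c)) j

theorem nE_mono {a b : Fin (2 * m)} (hab : a ≠ b) {c : F} (hc : c ≠ 0) :
    Mono (sw a b) (dE a b c) ((nE a b c : SLn (2 * m) F) : Matrix (Fin (2 * m)) (Fin (2 * m)) F) := by
  by_cases hb : b = Fin.rev a
  · subst hb
    rw [nE_long]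
    unfold sw dE
    rw [if_pos rfl, if_pos rfl]
    exact nT_mono hab hc
  · rw [nE_short hab hb]
    unfold sw dE
    rw [if_neg hb, if_neg hb, Matrix.SpecialLinearGroup.coe_mul]
    exact Mono.mul (nT_mono hab hc) (nT_mono (rev_ne_rev hab)
      (neg_ne_zero.2 (mul_ne_zero (mul_ne_zero (ep_ne_zero _) (ep_ne_zero _)) hc)))

theorem sw_left {a b : Fin (2 * m)} (hab : a ≠ b) : sw a b a = b := by
  unfold sw
  split_ifs with h
  · exact Equiv.swap_apply_left a b
  · rw [Equiv.Perm.mul_apply, Equiv.swap_apply_of_ne_of_ne (fun e => h (by rw [e, Fin.rev_rev]))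
      (fun e => rev_ne a e.symm)]
    exact Equiv.swap_apply_left a b

theorem sw_right {a b : Fin (2 * m)} (hab : a ≠ b) : sw a b b = a := by
  unfold sw
  split_ifs with h
  · exact Equiv.swap_apply_right a b
  · rw [Equiv.Perm.mul_apply, Equiv.swap_apply_of_ne_of_ne (fun e => rev_ne b e.symm) h]
    exact Equiv.swap_apply_right a b

theorem sw_of_ne {a b j : Fin (2 * m)} (h1 : j ≠ a) (h2 : j ≠ b) (h3 : j ≠ Fin.rev a)
    (h4 : j ≠ Fin.rev b) : sw a b j = j := by
  unfold sw
  split_ifs with h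
  · exact Equiv.swap_apply_of_ne_of_ne h1 h2
  · rw [Equiv.Perm.mul_apply, Equiv.swap_apply_of_ne_of_ne h4 h3,
      Equiv.swap_apply_of_ne_of_ne h1 h2]

theorem sw_rev {a b : Fin (2 * m)} (hab : a ≠ b) (j : Fin (2 * m)) :
    sw a b (Fin.rev j) = Fin.rev (sw a b j) :=
  mono_rev (F := ℚ) (nE_mem hab (1 : ℚ)) (nE_mono hab one_ne_zero) j

theorem sw_sw {a b : Fin (2 * m)} (hab : a ≠ b) (j : Fin (2 * m)) : sw a b (sw a b j) = j := by
  by_cases h1 : j = a
  · rw [h1, sw_left hab, sw_right hab]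
  by_cases h2 : j = b
  · rw [h2, sw_right hab, sw_left hab]
  by_cases h3 : j = Fin.rev a
  · rw [h3, sw_rev hab, sw_left hab, sw_rev hab, sw_right hab]
  by_cases h4 : j = Fin.rev b
  · rw [h4, sw_rev hab, sw_right hab, sw_rev hab, sw_left hab]
  rw [sw_of_ne h1 h2 h3 h4, sw_of_ne h1 h2 h3 h4]

theorem dE_left {a b : Fin (2 * m)} (hab : a ≠ b) (c : F) : dE a b c a = -c⁻¹ := by
  unfold dE
  split_ifs with h
  · unfold dT
    rw [if_pos rfl]
  · show dT a b c (Equiv.swap (Fin.rev b) (Fin.rev a) a) * dT (Fin.rev b) (Fin.rev a) _ a = _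
    rw [Equiv.swap_apply_of_ne_of_ne (fun e => h (by rw [e, Fin.rev_rev]))
      (fun e => rev_ne a e.symm)]
    unfold dT
    rw [if_pos rfl, if_neg (fun e => h (by rw [e, Fin.rev_rev])), if_neg (fun e => rev_ne a e.symm),
      mul_one]

theorem dE_right {a b : Fin (2 * m)} (hab : a ≠ b) (c : F) : dE a b c b = c := by
  unfold dE
  split_ifs with h
  · unfold dT
    rw [if_neg hab.symm, if_pos rfl]
  · show dT a b c (Equiv.swap (Fin.rev b) (Fin.rev a) b) * dT (Fin.rev b) (Fin.rev a) _ b = _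
    rw [Equiv.swap_apply_of_ne_of_ne (fun e => rev_ne b e.symm) h]
    unfold dT
    rw [if_neg hab.symm, if_pos rfl, if_neg (fun e => rev_ne b e.symm), if_neg h, mul_one]

theorem dE_of_ne {a b j : Fin (2 * m)} (h1 : j ≠ a) (h2 : j ≠ b) (h3 : j ≠ Fin.rev a)
    (h4 : j ≠ Fin.rev b) (c : F) : dE a b c j = 1 := by
  unfold dE
  split_ifs with h
  · unfold dT
    rw [if_neg h1, if_neg h2]
  · show dT a b c (Equiv.swap (Fin.rev b) (Fin.rev a) j) * dT (Fin.rev b) (Fin.rev a) _ j = _
    rw [Equiv.swap_apply_of_ne_of_ne h4 h3]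
    unfold dT
    rw [if_neg h1, if_neg h2, if_neg h4, if_neg h3, mul_one]

/-- the torus elements -/
def hE (a b : Fin (2 * m)) (c : F) : SLn (2 * m) F := nE a b c * nE a b (-1)

theorem hE_mem {a b : Fin (2 * m)} (hab : a ≠ b) (c : F) :
    hE a b c ∈ (SpS : Subgroup (SLn (2 * m) F)) :=
  (SpS).mul_mem (nE_mem hab c) (nE_mem hab _)

theorem hE_mono {a b : Fin (2 * m)} (hab : a ≠ b) {c : F} (hc : c ≠ 0) :
    ∃ d : Fin (2 * m) → F,
      Mono 1 d ((hE a b c : SLn (2 * m) F) : Matrix (Fin (2 * m)) (Fin (2 * m)) F) ∧ d a = c ∧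
      d b = c⁻¹ ∧ ∀ j, j ≠ a → j ≠ b → j ≠ Fin.rev a → j ≠ Fin.rev b → d j = 1 := by
  have h1 := Mono.mul (nE_mono hab hc) (nE_mono hab (neg_ne_zero.2 (one_ne_zero (α := F))))
  have hsq : sw a b * sw a b = 1 := by
    ext j
    rw [Equiv.Perm.mul_apply, sw_sw hab]
    rfl
  rw [hsq, ← Matrix.SpecialLinearGroup.coe_mul] at h1
  refine ⟨_, h1, ?_, ?_, ?_⟩
  · show dE a b c (sw a b a) * dE a b (-1) a = c
    rw [sw_left hab, dE_right hab, dE_left hab]
    simp
  · show dE a b c (sw a b b) * dE a b (-1) b = c⁻¹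
    rw [sw_right hab, dE_left hab, dE_right hab]
    ring
  · intro j h1 h2 h3 h4
    show dE a b c (sw a b j) * dE a b (-1) j = 1
    rw [sw_of_ne h1 h2 h3 h4, dE_of_ne h1 h2 h3 h4, dE_of_ne h1 h2 h3 h4, mul_one]

/-! ### permutations: descents and inversions -/

theorem exists_descent' {n : ℕ} {σ : Equiv.Perm (Fin n)} (h : σ ≠ 1) :
    ∃ i j : Fin n, i.val + 1 = j.val ∧ σ j < σ i := by
  by_contra hne
  push Not at hne
  apply h
  apply perm_eq_one_of_strictMono
  have step : ∀ i j : Fin n, i.val + 1 = j.val → σ i < σ j := by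
    intro i j hij
    refine lt_of_le_of_ne (hne i j hij) (fun e => ?_)
    have := congrArg Fin.val (σ.injective e)
    omega
  have all : ∀ (d : ℕ) (i j : Fin n), i.val + d + 1 = j.val → σ i < σ j := by
    intro d
    induction d with
    | zero =>
      intro i j hij
      exact step i j (by omega)
    | succ d ih =>
      intro i j hij
      have hj := j.isLt
      obtain ⟨j', hj'⟩ : ∃ j' : Fin n, j'.val = j.val - 1 := ⟨⟨j.val - 1, by omega⟩, rfl⟩
      exact (ih i j' (by omega)).trans (step j' j (by omega))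
  intro i j hij
  have hij' : i.val < j.val := hij
  exact all (j.val - i.val - 1) i j (by omega)

/-- the inversions of a permutation -/
def invS {n : ℕ} (σ : Equiv.Perm (Fin n)) : Finset (Fin n × Fin n) :=
  Finset.univ.filter (fun q => q.1 < q.2 ∧ σ q.2 < σ q.1)

theorem sw_lt {i i' : Fin (2 * m)} (hii : i.val + 1 = i'.val) {x y : Fin (2 * m)} (hxy : x < y)
    (h1 : ¬ (x = i ∧ y = i')) (h2 : ¬ (x = Fin.rev i' ∧ y = Fin.rev i)) :
    sw i i' x < sw i i' y := by
  have hne : i ≠ i' := by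
    intro e
    rw [e] at hii
    omega
  have key : ∀ z, (z = i ∧ sw i i' z = i') ∨ (z = i' ∧ sw i i' z = i)
      ∨ (z = Fin.rev i ∧ sw i i' z = Fin.rev i') ∨ (z = Fin.rev i' ∧ sw i i' z = Fin.rev i)
      ∨ (z ≠ i ∧ z ≠ i' ∧ z ≠ Fin.rev i ∧ z ≠ Fin.rev i' ∧ sw i i' z = z) := by
    intro z
    by_cases c1 : z = i
    · left
      exact ⟨c1, by rw [c1, sw_left hne]⟩
    by_cases c2 : z = i'
    · right; left
      exact ⟨c2, by rw [c2, sw_right hne]⟩
    by_cases c3 : z = Fin.rev i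
    · right; right; left
      exact ⟨c3, by rw [c3, sw_rev hne, sw_left hne]⟩
    by_cases c4 : z = Fin.rev i'
    · right; right; right; left
      exact ⟨c4, by rw [c4, sw_rev hne, sw_right hne]⟩
    right; right; right; right
    exact ⟨c1, c2, c3, c4, sw_of_ne c1 c2 c3 c4⟩
  have hi := i.isLt
  have hi' := i'.isLt
  have hx := x.isLt
  have hy := y.isLt
  rcases key x with ⟨e1, e2⟩ | ⟨e1, e2⟩ | ⟨e1, e2⟩ | ⟨e1, e2⟩ | ⟨e1, e3, e4, e5, e2⟩ <;>
  rcases key y with ⟨f1, f2⟩ | ⟨f1, f2⟩ | ⟨f1, f2⟩ | ⟨f1, f2⟩ | ⟨f1, f3, f4, f5, f2⟩ <;>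
  (rw [e2, f2]; simp only [Fin.lt_def, Fin.ext_iff, Fin.val_rev, ne_eq, not_and] at *; omega)

/-- multiplying by the reflection at a descent lowers the number of inversions -/
theorem inv_lt {i i' : Fin (2 * m)} (hii : i.val + 1 = i'.val) {σ : Equiv.Perm (Fin (2 * m))}
    (hσ : ∀ j, σ (Fin.rev j) = Fin.rev (σ j)) (hdesc : σ i' < σ i) :
    (invS (σ * sw i i')).card < (invS σ).card := by
  have hne : i ≠ i' := by
    intro e
    rw [e] at hii
    omega
  have hlt : i < i' := Fin.lt_def.2 (by omega)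
  have hmem : (i, i') ∈ invS σ := by
    rw [invS, Finset.mem_filter]
    exact ⟨Finset.mem_univ _, hlt, hdesc⟩
  have hsub : (invS (σ * sw i i')).card ≤ ((invS σ).erase (i, i')).card := by
    apply Finset.card_le_card_of_injOn (fun q => (sw i i' q.1, sw i i' q.2))
    · intro q hq
      rw [Finset.mem_coe, invS, Finset.mem_filter] at hq
      obtain ⟨-, hq1, hq2⟩ := hq
      have hq2' : σ (sw i i' q.2) < σ (sw i i' q.1) := hq2
      have h1 : ¬ (q.1 = i ∧ q.2 = i') := by
        rintro ⟨e1, e2⟩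
        rw [e1, e2, sw_left hne, sw_right hne] at hq2'
        exact absurd hq2' (not_lt.2 hdesc.le)
      have h2 : ¬ (q.1 = Fin.rev i' ∧ q.2 = Fin.rev i) := by
        rintro ⟨e1, e2⟩
        rw [e1, e2, sw_rev hne, sw_rev hne, sw_left hne, sw_right hne, hσ, hσ,
          Fin.rev_lt_rev] at hq2'
        exact absurd hq2' (not_lt.2 hdesc.le)
      have h3 := sw_lt hii hq1 h1 h2
      rw [Finset.mem_coe, Finset.mem_erase, invS, Finset.mem_filter]
      refine ⟨?_, Finset.mem_univ _, h3, hq2'⟩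
      intro e
      have e1 : sw i i' q.1 = i := congrArg Prod.fst e
      have e2 : sw i i' q.2 = i' := congrArg Prod.snd e
      have e1' : q.1 = i' := by rw [← sw_sw hne q.1, e1, sw_left hne]
      have e2' : q.2 = i := by rw [← sw_sw hne q.2, e2, sw_right hne]
      rw [e1', e2'] at hq1
      exact absurd hq1 (not_lt.2 hlt.le)
    · intro q _ q' _ e
      have e1 := (sw i i').injective (congrArg Prod.fst e)
      have e2 := (sw i i').injective (congrArg Prod.snd e)
      exact Prod.ext e1 e2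
  rw [Finset.card_erase_of_mem hmem] at hsub
  have := Finset.card_pos.2 ⟨_, hmem⟩
  omega

/-! ### automorphisms preserving the symplectic group -/

theorem tInv_mem {s : SLn (2 * m) F} (hs : s ∈ (SpS : Subgroup (SLn (2 * m) F))) :
    tInv s ∈ (SpS : Subgroup (SLn (2 * m) F)) := by
  rw [mem_SpS_iff]
  intro k l
  rw [← map_inv, tInv_apply, tInv_apply, inv_inv, inv_apply hs (Fin.rev k) (Fin.rev l), Fin.rev_rev,
    Fin.rev_rev, ep_rev, ep_rev]
  have e1 := ep_mul_self (F := F) k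
  have e2 := ep_mul_self (F := F) l
  linear_combination (-(s k l * ep k * ep k)) * e2 - s k l * e1

theorem fAut_mem (σ : F ≃+* F) {s : SLn (2 * m) F} (hs : s ∈ (SpS : Subgroup (SLn (2 * m) F))) :
    fAut σ s ∈ (SpS : Subgroup (SLn (2 * m) F)) := by
  rw [mem_SpS_iff]
  intro k l
  rw [← map_inv, fAut_apply, fAut_apply, inv_apply hs k l, map_mul, map_mul, ep_map, ep_map]

/-- entries of a diagonal conjugate -/
theorem glConj_dGL_apply {n : ℕ} (δ : Fin n → Fˣ) (s : SLn n F) (k l : Fin n) :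
    (glConj (dGL δ) s) k l = (δ k : F) * s k l / (δ l : F) := by
  have h := (dGL_mono δ).conj (glConj_key (dGL δ) s) k l
  rw [eq_div_iff (Units.ne_zero _)]
  exact h

theorem glConj_dGL_mem (δ : Fin (2 * m) → Fˣ) (c₀ : Fˣ) (hδ : ∀ j, δ j * δ (Fin.rev j) = c₀)
    {s : SLn (2 * m) F} (hs : s ∈ (SpS : Subgroup (SLn (2 * m) F))) :
    glConj (dGL δ) s ∈ (SpS : Subgroup (SLn (2 * m) F)) := by
  rw [mem_SpS_iff]
  intro k l
  rw [← map_inv, glConj_dGL_apply, glConj_dGL_apply, inv_apply hs k l]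
  have h1 : (δ k : F) * (δ (Fin.rev k) : F) = c₀ := by rw [← Units.val_mul, hδ]
  have h2 : (δ l : F) * (δ (Fin.rev l) : F) = c₀ := by rw [← Units.val_mul, hδ]
  have hk : (δ k : F) ≠ 0 := Units.ne_zero _
  have hl : (δ (Fin.rev l) : F) ≠ 0 := Units.ne_zero _
  rw [div_eq_iff hk]
  field_simp
  linear_combination (ep k * ep l * s (Fin.rev k) (Fin.rev l)) * (h2 - h1)

theorem glConj_dGL_E (δ : Fin (2 * m) → Fˣ) (c₀ : Fˣ) (hδ : ∀ j, δ j * δ (Fin.rev j) = c₀)
    {a b : Fin (2 * m)} (hab : a ≠ b) (c : F) :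
    glConj (dGL δ) (E a b c) = E a b ((δ a : F) * c / (δ b : F)) := by
  by_cases hb : b = Fin.rev a
  · subst hb
    rw [E_long, E_long, glConj_tv (dGL_mono δ) (fun j => Units.ne_zero _) hab]
    rfl
  · rw [E_short hb, E_short hb, map_mul, glConj_tv (dGL_mono δ) (fun j => Units.ne_zero _) hab,
      glConj_tv (dGL_mono δ) (fun j => Units.ne_zero _) (rev_ne_rev hab)]
    have h1 : (δ a : F) * (δ (Fin.rev a) : F) = c₀ := by rw [← Units.val_mul, hδ]
    have h2 : (δ b : F) * (δ (Fin.rev b) : F) = c₀ := by rw [← Units.val_mul, hδ]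
    have ha : (δ (Fin.rev a) : F) ≠ 0 := Units.ne_zero _
    have hb0 : (δ b : F) ≠ 0 := Units.ne_zero _
    have e : (δ (Fin.rev b) : F) * -(ep a * ep b * c) / (δ (Fin.rev a) : F)
        = -(ep a * ep b * ((δ a : F) * c / (δ b : F))) := by
      rw [div_eq_iff ha]
      field_simp
      linear_combination (ep a * ep b * c) * (h1 - h2)
    rw [e]
    rfl

/-! ### the centre -/

/-- a matrix commuting with the root elements is scalar -/
theorem scalar_of_comm (i₀ : Fin (2 * m)) (z : SLn (2 * m) F)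
    (h : ∀ a b : Fin (2 * m), a ≠ b → E a b (1 : F) * z = z * E a b 1) :
    ∃ r : F, ∀ i j, z i j = if i = j then r else 0 := by
  have hlong : ∀ (i x y : Fin (2 * m)), (if x = i then z (Fin.rev i) y else 0)
      = if y = Fin.rev i then z x i else 0 := by
    intro i x y
    have h1 := h i (Fin.rev i) (fun e => rev_ne i e.symm)
    have h2 : (E i (Fin.rev i) (1 : F) * z) x y = (z * E i (Fin.rev i) (1 : F) : SLn (2 * m) F) x y := by
      rw [h1]
    rw [E_long, tv_mul_apply (fun e => rev_ne i e.symm), mul_tv_apply (fun e => rev_ne i e.symm),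
      one_mul, mul_one] at h2
    exact add_left_cancel h2
  have hoff : ∀ x i : Fin (2 * m), x ≠ i → z x i = 0 := by
    intro x i hx
    have := hlong i x (Fin.rev i)
    rw [if_neg hx, if_pos rfl] at this
    exact this.symm
  have hrev : ∀ i : Fin (2 * m), z (Fin.rev i) (Fin.rev i) = z i i := by
    intro i
    have := hlong i i (Fin.rev i)
    rw [if_pos rfl, if_pos rfl] at this
    exact this
  have hshort : ∀ i j : Fin (2 * m), i ≠ j → j ≠ Fin.rev i → z j j = z i i := by
    intro i j hij hj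
    have h1 := h i j hij
    have h2 : (E i j (1 : F) * z) i j = (z * E i j (1 : F) : SLn (2 * m) F) i j := by rw [h1]
    rw [E_mul_apply hij hj, mul_E_apply hij hj, if_pos rfl, if_pos rfl,
      if_neg (fun e => hj (by rw [e, Fin.rev_rev])), if_neg hj, one_mul, mul_one, add_zero,
      add_zero] at h2
    exact add_left_cancel h2
  refine ⟨z i₀ i₀, fun i j => ?_⟩
  by_cases hij : i = j
  · rw [if_pos hij, ← hij]
    by_cases h1 : i = i₀
    · rw [h1]
    by_cases h2 : i = Fin.rev i₀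
    · rw [h2, hrev]
    · exact hshort i₀ i (Ne.symm h1) h2
  · rw [if_neg hij]
    exact hoff i j hij

/-! ### the unitriangular group is a `p`-group -/

theorem isPGroup_Uo' [Finite F] (p : ℕ) [Fact p.Prime] [CharP F p] {n : ℕ} :
    IsPGroup p (Uo : Subgroup (SLn n F)) := by
  rintro ⟨u, hu⟩
  refine ⟨n + 1, ?_⟩
  apply Subtype.ext
  apply Subtype.ext
  show ((u ^ p ^ (n + 1) : SLn n F) : Matrix (Fin n) (Fin n) F) = 1
  rcases Nat.eq_zero_or_pos n with hn | hn
  · subst hn
    exact Subsingleton.elim _ _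
  have : Nonempty (Fin n) := ⟨⟨0, hn⟩⟩
  rw [Matrix.SpecialLinearGroup.coe_pow]
  have hN : Cfsg.Agent.Lib.Helper24.StrictTri (fun i : Fin n => n - i.val) 1
      ((u : Matrix (Fin n) (Fin n) F) - 1) := by
    intro i j hij
    have hne : i ≠ j := by
      rintro rfl
      apply hij
      rw [Matrix.sub_apply, Matrix.one_apply_eq]
      exact sub_eq_zero.2 (hu.2 i)
    have hlt : i < j := by
      by_contra hn
      have hji : j < i := lt_of_le_of_ne (not_lt.1 hn) (Ne.symm hne)
      apply hij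
      rw [Matrix.sub_apply, Matrix.one_apply_ne hne, sub_zero]
      exact hu.1 hji
    have h1 := j.isLt
    have h2 : i.val < j.val := hlt
    show n - j.val + 1 ≤ n - i.val
    omega
  have hpow : ((u : Matrix (Fin n) (Fin n) F) - 1) ^ (p ^ (n + 1)) = 0 := by
    refine (hN.pow _).eq_zero (B := n + 1) (fun i => ?_) ?_
    · show n - i.val < n + 1
      omega
    · have h2 := (Fact.out : p.Prime).two_le
      calc n + 1 ≤ 2 ^ (n + 1) := Nat.lt_two_pow_self.le
        _ ≤ p ^ (n + 1) := Nat.pow_le_pow_left h2 _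
  have hsplit : (u : Matrix (Fin n) (Fin n) F)
      = ((u : Matrix (Fin n) (Fin n) F) - 1) + 1 := by rw [sub_add_cancel]
  rw [hsplit, add_pow_char_pow_of_commute p (n + 1) (Commute.one_right _), hpow, one_pow, zero_add]

end Cfsg.Agent.Lib.Helper27.SpMat
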