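import Mathlib
import Cfsg.Agent.Lib.Helper27.SpMat

/-!
# The symplectic group `SpS` as the isometry group of the form `Km`

`mem_SpS_mat : s ∈ SpS ↔ s * Km * sᵀ = Km`, where `Km (rev j) j = ep j`;
diagonal elements of `SpS`.
-/

set_option autoImplicit false
set_option linter.unusedSectionVars false

namespace Cfsg.Agent.Lib.Helper27.SpForm

open Matrix Cfsg.Agent.Lib.Helper27.PslnMat Cfsg.Agent.Lib.Helper27.PslnAut
  Cfsg.Agent.Lib.Helper27.SpMat

variable {F : Type*} [Field F] {m : ℕ}

/-- the matrix of the form -/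
def Km : Matrix (Fin (2 * m)) (Fin (2 * m)) F :=
  Matrix.of fun i j => if i = Fin.rev j then ep j else 0

theorem Km_apply (i j : Fin (2 * m)) : (Km : Matrix (Fin (2 * m)) (Fin (2 * m)) F) i j
    = if i = Fin.rev j then ep j else 0 := rfl

/-- the form of a matrix, entrywise -/
theorem form_apply (M : Matrix (Fin (2 * m)) (Fin (2 * m)) F) (i i' : Fin (2 * m)) :
    (M * (Km : Matrix (Fin (2 * m)) (Fin (2 * m)) F) * Mᵀ) i i'
      = ∑ l, ep l * M i (Fin.rev l) * M i' l := by
  rw [Matrix.mul_apply]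
  apply Finset.sum_congr rfl
  intro l _
  rw [Matrix.mul_apply, Finset.sum_eq_single (Fin.rev l)]
  · rw [Km_apply, if_pos rfl, Matrix.transpose_apply]
    ring
  · intro k _ hk
    rw [Km_apply, if_neg hk, mul_zero]
  · intro h
    exact absurd (Finset.mem_univ _) h

/-- the symplectic condition, in terms of the form -/
theorem mem_SpS_form {s : SLn (2 * m) F} : s ∈ (SpS : Subgroup (SLn (2 * m) F)) ↔
    ∀ i i', ∑ l, ep l * s i (Fin.rev l) * s i' l = if i = Fin.rev i' then ep i' else 0 := by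
  constructor
  · intro h i i'
    have h1 : ((s * s⁻¹ : SLn (2 * m) F) : Matrix (Fin (2 * m)) (Fin (2 * m)) F) i (Fin.rev i')
        = if i = Fin.rev i' then 1 else 0 := by
      rw [mul_inv_cancel]
      exact Matrix.one_apply
    rw [Matrix.SpecialLinearGroup.coe_mul, Matrix.mul_apply] at h1
    have h2 : ∑ l, (s : Matrix (Fin (2 * m)) (Fin (2 * m)) F) i l
          * ((s⁻¹ : SLn (2 * m) F) : Matrix (Fin (2 * m)) (Fin (2 * m)) F) l (Fin.rev i')
        = ep i' * ∑ l, ep l * s i (Fin.rev l) * s i' l := by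
      rw [Finset.mul_sum, ← Equiv.sum_comp Fin.revPerm]
      apply Finset.sum_congr rfl
      intro l _
      have := inv_apply h (Fin.rev i') (Fin.revPerm l)
      rw [Fin.revPerm_apply, Fin.rev_rev, Fin.rev_rev, ep_rev, ep_rev] at this
      rw [Fin.revPerm_apply]
      show s i (Fin.rev l) * (s⁻¹) (Fin.rev l) (Fin.rev i') = _
      rw [this]
      ring
    rw [h2] at h1
    calc ∑ l, ep l * s i (Fin.rev l) * s i' l
        = ep i' * (ep i' * ∑ l, ep l * s i (Fin.rev l) * s i' l) := by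
          rw [← mul_assoc, ep_mul_self, one_mul]
      _ = ep i' * (if i = Fin.rev i' then 1 else 0) := by rw [h1]
      _ = _ := by split_ifs <;> simp
  · intro hform
    have hS : (s : Matrix (Fin (2 * m)) (Fin (2 * m)) F)
        * (Matrix.of fun l k => ep k * ep l * s (Fin.rev k) (Fin.rev l) :
            Matrix (Fin (2 * m)) (Fin (2 * m)) F)
        = 1 := by
      ext i k
      rw [Matrix.mul_apply, Matrix.one_apply, ← Equiv.sum_comp Fin.revPerm]
      have h1 := hform i (Fin.rev k)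
      rw [Fin.rev_rev, ep_rev] at h1
      have h3 : ∑ l, (s : Matrix (Fin (2 * m)) (Fin (2 * m)) F) i (Fin.revPerm l)
            * (ep k * ep (Fin.revPerm l) * s (Fin.rev k) (Fin.rev (Fin.revPerm l)))
          = -ep k * ∑ l, ep l * s i (Fin.rev l) * s (Fin.rev k) l := by
        rw [Finset.mul_sum]
        apply Finset.sum_congr rfl
        intro l _
        rw [Fin.revPerm_apply, Fin.rev_rev, ep_rev]
        show s i (Fin.rev l) * (ep k * -ep l * s (Fin.rev k) l) = _
        ring
      show ∑ l, (s : Matrix (Fin (2 * m)) (Fin (2 * m)) F) i (Fin.revPerm l)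
            * (ep k * ep (Fin.revPerm l) * s (Fin.rev k) (Fin.rev (Fin.revPerm l))) = _
      rw [h3, h1]
      split_ifs
      · linear_combination ep_mul_self (F := F) k
      · ring
    have e1 : ((s⁻¹ : SLn (2 * m) F) : Matrix (Fin (2 * m)) (Fin (2 * m)) F)
        * (s : Matrix (Fin (2 * m)) (Fin (2 * m)) F) = 1 := by
      rw [← Matrix.SpecialLinearGroup.coe_mul, inv_mul_cancel]
      rfl
    have e2 : ((s⁻¹ : SLn (2 * m) F) : Matrix (Fin (2 * m)) (Fin (2 * m)) F)
        = (Matrix.of fun l k => ep k * ep l * s (Fin.rev k) (Fin.rev l) :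
            Matrix (Fin (2 * m)) (Fin (2 * m)) F) := by
      calc ((s⁻¹ : SLn (2 * m) F) : Matrix (Fin (2 * m)) (Fin (2 * m)) F)
          = ((s⁻¹ : SLn (2 * m) F) : Matrix (Fin (2 * m)) (Fin (2 * m)) F)
            * ((s : Matrix (Fin (2 * m)) (Fin (2 * m)) F)
              * (Matrix.of fun l k => ep k * ep l * s (Fin.rev k) (Fin.rev l) :
                Matrix (Fin (2 * m)) (Fin (2 * m)) F)) := by
            rw [hS, Matrix.mul_one]
        _ = _ := by rw [← Matrix.mul_assoc, e1, Matrix.one_mul]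
    rw [mem_SpS_iff]
    intro k l
    exact congrFun (congrFun e2 l) k

/-- the symplectic condition, as a matrix equation -/
theorem mem_SpS_mat {s : SLn (2 * m) F} : s ∈ (SpS : Subgroup (SLn (2 * m) F)) ↔
    (s : Matrix (Fin (2 * m)) (Fin (2 * m)) F) * (Km : Matrix (Fin (2 * m)) (Fin (2 * m)) F)
      * (s : Matrix (Fin (2 * m)) (Fin (2 * m)) F)ᵀ = Km := by
  rw [mem_SpS_form]
  constructor
  · intro h
    ext i i'
    rw [form_apply, Km_apply]
    exact h i i'
  · intro h i i'
    have := congrFun (congrFun h i) i'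
    rw [form_apply, Km_apply] at this
    exact this

/-- the transposed symplectic condition -/
theorem mem_SpS_mat' {s : SLn (2 * m) F} (hs : s ∈ (SpS : Subgroup (SLn (2 * m) F))) :
    (s : Matrix (Fin (2 * m)) (Fin (2 * m)) F)ᵀ * (Km : Matrix (Fin (2 * m)) (Fin (2 * m)) F)
      * (s : Matrix (Fin (2 * m)) (Fin (2 * m)) F) = Km := by
  have h1 : tInv s⁻¹ ∈ (SpS : Subgroup (SLn (2 * m) F)) := tInv_mem ((SpS).inv_mem hs)
  have h2 := mem_SpS_mat.1 h1
  have e : ((tInv s⁻¹ : SLn (2 * m) F) : Matrix (Fin (2 * m)) (Fin (2 * m)) F)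
      = (s : Matrix (Fin (2 * m)) (Fin (2 * m)) F)ᵀ := by
    ext i j
    show (tInv s⁻¹) i j = s j i
    rw [tInv_apply, inv_inv]
  rw [e, Matrix.transpose_transpose] at h2
  exact h2

/-! ### diagonal elements -/

/-- the diagonal matrix with entries `δ` -/
def diagSp (δ : Fin (2 * m) → Fˣ) (hδ : ∀ j, δ j * δ (Fin.rev j) = 1) : SLn (2 * m) F :=
  ⟨Matrix.diagonal (fun i => (δ i : F)), by
    rw [Matrix.det_diagonal, ← Units.coe_prod]
    have : ∏ i, δ i = 1 :=
      Finset.prod_involution (fun a _ => Fin.rev a) (fun a _ => hδ a)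
        (fun a _ _ => rev_ne a) (fun a _ => Finset.mem_univ _) (fun a _ => Fin.rev_rev a)
    rw [this, Units.val_one]⟩

theorem diagSp_mono (δ : Fin (2 * m) → Fˣ) (hδ : ∀ j, δ j * δ (Fin.rev j) = 1) :
    Mono 1 (fun i => (δ i : F))
      ((diagSp δ hδ : SLn (2 * m) F) : Matrix (Fin (2 * m)) (Fin (2 * m)) F) := by
  intro i j
  show Matrix.diagonal (fun i => (δ i : F)) i j = if i = j then (δ j : F) else 0
  rw [Matrix.diagonal_apply]
  by_cases h : i = j
  · subst h
    rw [if_pos rfl]
  · rw [if_neg h]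
    exact (if_neg h).symm

theorem diagSp_mem (δ : Fin (2 * m) → Fˣ) (hδ : ∀ j, δ j * δ (Fin.rev j) = 1) :
    diagSp δ hδ ∈ (SpS : Subgroup (SLn (2 * m) F)) := by
  rw [mem_SpS_form]
  intro i i'
  have hm : ∀ a b, (diagSp δ hδ : SLn (2 * m) F) a b = if a = b then (δ b : F) else 0 :=
    fun a b => diagSp_mono δ hδ a b
  rw [Finset.sum_eq_single i']
  · rw [hm i' i', if_pos rfl, hm i (Fin.rev i')]
    split_ifs
    · have : (δ i' : F) * (δ (Fin.rev i') : F) = 1 := by rw [← Units.val_mul, hδ, Units.val_one]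
      linear_combination ep i' * this
    · ring
  · intro l _ hl
    rw [hm i' l, if_neg (Ne.symm hl), mul_zero]
  · intro h
    exact absurd (Finset.mem_univ _) h

end Cfsg.Agent.Lib.Helper27.SpForm
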