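import Mathlib
import Cfsg.Prelude.Def_KGroupFacts
import Cfsg.Agent.Lib.Helper27.PslnOut
import Cfsg.Agent.Lib.Helper27.PslOut

/-!
# Automorphisms of a group with a `PSp_{2m}`-type presentation, `m ≥ 2` (abstract part)

`OkC m p x y U V Q`: a finite group `G` with simple root elements `x i a`, `y i a`
(`i : Fin m`, `a : F`, `F` a finite field; the last node is the long root of a Dynkin diagram
of type `C_m`), opposite Sylow subgroups `U`, `V`, minimal parabolic subgroups `Q i`, torus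
action, commutator relations, rank-one relations, and field and diagonal automorphisms.
Conclusion (`OkC.decomp`): every automorphism is inner * diagonal * field, provided the
characteristic is odd or `m ≥ 3`.
-/

set_option autoImplicit false
set_option linter.unusedSectionVars false

namespace Cfsg.Agent.Lib.Helper27.SpOut

open scoped Pointwise
open Cfsg.Agent.Lib.Helper27.PslnOut

variable {F : Type*} [Field F] [Finite F] {G : Type*} [Group G] [Finite G]

/-- the Weyl element of the `i`-th rank one subgroup -/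
def nn {m : ℕ} (x y : Fin m → F → G) (i : Fin m) (c : F) : G := x i c * y i (-c⁻¹) * x i c

/-- the hypotheses -/
structure OkC (m : ℕ) (p : ℕ) [Fact p.Prime] (x y : Fin m → F → G) (U V : Subgroup G)
    (Q : Fin m → Subgroup G) : Prop where
  hm : 2 ≤ m
  x_add : ∀ i a b, x i (a + b) = x i a * x i b
  y_add : ∀ i a b, y i (a + b) = y i a * y i b
  x_disj : ∀ i j a b, x i a = x j b → a ≠ 0 → i = j ∧ a = b
  x_mem : ∀ i a, x i a ∈ U
  y_mem : ∀ i a, y i a ∈ V
  syl : ∃ P : Sylow p G, ∀ g, g ∈ P ↔ g ∈ U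
  opp_inf : ∀ g, g ∈ U → g ∈ V → g = 1
  opp : ∀ g : G, (∀ k, k ∈ U → g * k * g⁻¹ ∈ U → k = 1) →
    ∃ u ∈ Nm U, ∀ k, k ∈ U ↔ u⁻¹ * (g * k * g⁻¹) * u ∈ V
  ovr : ∀ M : Subgroup G, Nm U ≤ M → M ≠ Nm U → ∃ k, ∀ a, y k a ∈ M
  Q_ge : ∀ k, Nm U ≤ Q k
  Q_ne : ∀ k, Q k ≠ Nm U
  Q_y : ∀ k a, y k a ∈ Q k
  Q_inj : ∀ j k, y j 1 ∈ Q k → j = k
  Q_le : ∀ k (M : Subgroup G), Nm U ≤ M → (∀ a, y k a ∈ M) → Q k ≤ M
  Q_V : ∀ k g, g ∈ V → g ∈ Q k → ∃ a, g = y k a
  tau : ∃ τ : MulAut G, (∀ g, τ g ∈ V ↔ g ∈ U) ∧ (∀ g, τ g ∈ U ↔ g ∈ V) ∧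
    (∀ k a, τ (x k a) = y k (-a)) ∧ (∀ k a, τ (y k a) = x k (-a))
  comm_xy : ∀ i j a b, i ≠ j → x i a * y j b = y j b * x i a
  ncomm_xy : ∀ i a b, a ≠ 0 → b ≠ 0 → x i a * y i b ≠ y i b * x i a
  comm_xx : ∀ i j a b, ¬ Adj i j → x i a * x j b = x j b * x i a
  ncomm_xx : ∀ i j a b, Adj i j → a ≠ 0 → b ≠ 0 → x i a * x j b ≠ x j b * x i a
  chev : ∃ z : Fin m → F → G, (∀ i, Function.Injective (z i)) ∧
    ∀ i j, i.val + 1 = j.val → j.val + 1 < m →
      ∀ a b, x i a * x j b * (x i a)⁻¹ * (x j b)⁻¹ = z i (a * b)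
  dbl : ∃ z₁ z₂ : F → G, z₁ 0 = 1 ∧ z₂ 0 = 1 ∧
    (∀ u v u' v', z₁ u * z₂ v = z₁ u' * z₂ v' → u = u' ∧ v = v') ∧
    ∀ s l : Fin m, s.val + 2 = m → l.val + 1 = m →
      (∀ a b, x s a * x l b * (x s a)⁻¹ * (x l b)⁻¹ = z₁ (a * b) * z₂ (a ^ 2 * b)) ∧
      (∀ c, c ≠ 0 → ∀ a, ∃ u, nn x y l c * x s a * (nn x y l c)⁻¹ = z₁ u) ∧
      (∀ c, c ≠ 0 → ∀ b, ∃ v, nn x y s c * x l b * (nn x y s c)⁻¹ = z₂ v)
  braid : 3 ≤ m → ∀ i j : Fin m, i.val = 0 → j.val = 1 → ∀ c d a, c ≠ 0 → d ≠ 0 →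
    ∃ a', nn x y i c * nn x y j d * x i a * (nn x y i c * nn x y j d)⁻¹ = x j a'
  tor : ∀ t, t ∈ Nm U → t ∈ Nm V → ∀ i, ∃ k : Fˣ, ∀ a, t * x i a * t⁻¹ = x i (k * a)
  tor_sq : ∀ i (k : Fˣ), ∃ t, t ∈ Nm U ∧ t ∈ Nm V ∧
    ∀ a, t * x i a * t⁻¹ = x i ((k : F) ^ 2 * a)
  tor_short : ∀ i : Fin m, i.val = 0 → ∀ k : Fˣ, ∃ t, t ∈ Nm U ∧ t ∈ Nm V ∧
    ∀ a, t * x i a * t⁻¹ = x i (k * a)
  tor_long : ∀ l : Fin m, l.val + 1 = m → ∀ t, t ∈ Nm U → t ∈ Nm V →
    ∃ k : Fˣ, ∀ a, t * x l a * t⁻¹ = x l ((k : F) ^ 2 * a)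
  rk1 : ∀ i c, c ≠ 0 → ∀ a, ∃ b, nn x y i c * x i a * (nn x y i c)⁻¹ = y i b
  rk2 : ∀ i c c' a b, a ≠ 0 →
    (x i c * y i c' * x i c) * x i a * (x i c * y i c' * x i c)⁻¹ = y i b → c * c' = -1
  gen : ∀ H : Subgroup G, (∀ i a, x i a ∈ H) → (∀ i a, y i a ∈ H) → H = ⊤
  field : ∀ σ : F ≃+* F, ∃ φ : MulAut G, (∀ i a, φ (x i a) = x i (σ a)) ∧
    (∀ g, φ g ∈ U ↔ g ∈ U) ∧ (∀ g, φ g ∈ V ↔ g ∈ V)
  diag : ∀ d : Fin m → Fˣ, ∃ φ : MulAut G, (∀ i a, φ (x i a) = x i (d i * a)) ∧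
    (∀ g, φ g ∈ U ↔ g ∈ U) ∧ (∀ g, φ g ∈ V ↔ g ∈ V)

variable {m : ℕ} {p : ℕ} [Fact p.Prime] {x y : Fin m → F → G} {U V : Subgroup G}
  {Q : Fin m → Subgroup G}

namespace OkC

variable (h : OkC m p x y U V Q)
include h

theorem x_zero (i : Fin m) : x i 0 = 1 := by
  have := h.x_add i 0 0
  rw [add_zero] at this
  exact mul_eq_left.1 this.symm

theorem x_neg (i : Fin m) (a : F) : (x i a)⁻¹ = x i (-a) := by
  apply inv_eq_of_mul_eq_one_right
  rw [← h.x_add, add_neg_cancel, h.x_zero]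

theorem x_ne_one (i : Fin m) {a : F} (ha : a ≠ 0) : x i a ≠ 1 := by
  intro e
  rw [← h.x_zero i] at e
  exact ha (h.x_disj i i a 0 e ha).2

theorem x_inj (i : Fin m) : Function.Injective (x i) := by
  intro a b e
  by_cases ha : a = 0
  · by_contra hne
    have hb : b ≠ 0 := fun hb => hne (by rw [ha, hb])
    exact hne (h.x_disj i i b a e.symm hb).2.symm
  · exact (h.x_disj i i a b e ha).2

theorem y_zero (i : Fin m) : y i 0 = 1 := by
  have := h.y_add i 0 0
  rw [add_zero] at this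
  exact mul_eq_left.1 this.symm

theorem y_inj (i : Fin m) : Function.Injective (y i) := by
  obtain ⟨τ, -, -, hτx, -⟩ := h.tau
  intro a b e
  have : τ (x i (-a)) = τ (x i (-b)) := by rw [hτx, hτx, neg_neg, neg_neg, e]
  exact neg_injective (h.x_inj i (τ.injective this))

/-- admissible automorphisms: those preserving `U` and `V` -/
def Adm (_h : OkC m p x y U V Q) (α : MulAut G) : Prop :=
  (∀ g, α g ∈ U ↔ g ∈ U) ∧ (∀ g, α g ∈ V ↔ g ∈ V)

theorem adm_one : h.Adm 1 := ⟨fun _ => Iff.rfl, fun _ => Iff.rfl⟩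

theorem adm_mul {α β : MulAut G} (hα : h.Adm α) (hβ : h.Adm β) : h.Adm (α * β) :=
  ⟨fun g => by rw [MulAut.mul_apply, hα.1, hβ.1], fun g => by rw [MulAut.mul_apply, hα.2, hβ.2]⟩

theorem adm_inv {α : MulAut G} (hα : h.Adm α) : h.Adm α⁻¹ :=
  ⟨fun g => by rw [← hα.1 (α⁻¹ g), MulAut.apply_inv_self],
   fun g => by rw [← hα.2 (α⁻¹ g), MulAut.apply_inv_self]⟩

theorem adm_conj {t : G} (hU : t ∈ Nm U) (hV : t ∈ Nm V) : h.Adm (MulAut.conj t) :=
  ⟨fun g => by rw [MulAut.conj_apply]; exact hU g, fun g => by rw [MulAut.conj_apply]; exact hV g⟩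

theorem of_adm_conj {t : G} (ht : h.Adm (MulAut.conj t)) : t ∈ Nm U ∧ t ∈ Nm V :=
  ⟨fun g => by have := ht.1 g; rwa [MulAut.conj_apply] at this,
   fun g => by have := ht.2 g; rwa [MulAut.conj_apply] at this⟩

theorem adm_Nm {α : MulAut G} (hα : h.Adm α) (g : G) : α g ∈ Nm U ↔ g ∈ Nm U := by
  constructor
  · intro hg k
    have := hg (α k)
    rw [← map_inv, ← map_mul, ← map_mul, hα.1, hα.1] at this
    exact this
  · intro hg k
    have := hg (α⁻¹ k)
    rw [← hα.1, ← hα.1 (α⁻¹ k), map_mul, map_mul, map_inv, MulAut.apply_inv_self] at this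
    exact this

theorem adm_Nm' {α : MulAut G} (hα : h.Adm α) (g : G) : α g ∈ Nm V ↔ g ∈ Nm V := by
  constructor
  · intro hg k
    have := hg (α k)
    rw [← map_inv, ← map_mul, ← map_mul, hα.2, hα.2] at this
    exact this
  · intro hg k
    have := hg (α⁻¹ k)
    rw [← hα.2, ← hα.2 (α⁻¹ k), map_mul, map_mul, map_inv, MulAut.apply_inv_self] at this
    exact this

/-- `V` is a conjugate of `U` -/
theorem opp_conj : ∃ w : G, ∀ g, g ∈ V ↔ w⁻¹ * g * w ∈ U := by
  obtain ⟨P, hP⟩ := h.syl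
  obtain ⟨τ, hτ1, -, -, -⟩ := h.tau
  obtain ⟨w, hw⟩ := MulAction.exists_smul_eq G P (τ • P)
  refine ⟨w, fun g => ?_⟩
  have h1 : g ∈ (w • P : Sylow p G) ↔ g ∈ (τ • P : Sylow p G) := by rw [hw]
  rw [Sylow.smul_def, mem_smul_sylow, mem_smul_sylow, MulAut.conj_inv_apply, hP, hP] at h1
  rw [h1, ← hτ1, MulAut.apply_inv_self]

/-- every automorphism is admissible up to an inner automorphism -/
theorem exists_adm (α : MulAut G) : ∃ g : G, h.Adm ((MulAut.conj g)⁻¹ * α) := by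
  obtain ⟨P, hP⟩ := h.syl
  obtain ⟨g₁, hg₁⟩ := MulAction.exists_smul_eq G P (α • P)
  have E1 : ∀ z, g₁⁻¹ * α z * g₁ ∈ U ↔ z ∈ U := by
    intro z
    have h1 : α z ∈ (g₁ • P : Sylow p G) ↔ α z ∈ (α • P : Sylow p G) := by rw [hg₁]
    rw [Sylow.smul_def, mem_smul_sylow, mem_smul_sylow, MulAut.conj_inv_apply,
      MulAut.inv_apply_self, hP, hP] at h1
    exact h1
  obtain ⟨α₁, hα₁⟩ : ∃ α₁ : MulAut G, α₁ = (MulAut.conj g₁)⁻¹ * α := ⟨_, rfl⟩
  have hα₁z : ∀ z, α₁ z = g₁⁻¹ * α z * g₁ := fun z => by rw [hα₁]; rfl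
  have E1' : ∀ z, α₁ z ∈ U ↔ z ∈ U := fun z => by rw [hα₁z]; exact E1 z
  obtain ⟨w, hw⟩ := h.opp_conj
  have hyp : ∀ k, k ∈ U → α₁ w * k * (α₁ w)⁻¹ ∈ U → k = 1 := by
    intro k hk hk'
    have e : α₁ w * k * (α₁ w)⁻¹ = α₁ (w * α₁⁻¹ k * w⁻¹) := by
      rw [map_mul, map_mul, map_inv, MulAut.apply_inv_self]
    rw [e, E1'] at hk'
    have hk1 : α₁⁻¹ k ∈ U := by
      rw [← E1', MulAut.apply_inv_self]
      exact hk
    have hV : w * α₁⁻¹ k * w⁻¹ ∈ V := by
      rw [hw]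
      have : w⁻¹ * (w * α₁⁻¹ k * w⁻¹) * w = α₁⁻¹ k := by group
      rw [this]
      exact hk1
    have h1 := h.opp_inf _ hk' hV
    have h2 : α₁⁻¹ k = 1 := by
      have : α₁⁻¹ k = w⁻¹ * (w * α₁⁻¹ k * w⁻¹) * w := by group
      rw [this, h1]
      group
    have := congrArg α₁ h2
    rwa [MulAut.apply_inv_self, map_one] at this
  obtain ⟨u, hu, huV⟩ := h.opp (α₁ w) hyp
  refine ⟨g₁ * u, ?_⟩
  have hα₂ : ∀ z, ((MulAut.conj (g₁ * u))⁻¹ * α) z = u⁻¹ * α₁ z * u := by
    intro z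
    rw [MulAut.mul_apply, MulAut.conj_inv_apply, hα₁z]
    group
  constructor
  · intro z
    rw [hα₂]
    have := ((Nm U).inv_mem hu) (α₁ z)
    rw [inv_inv] at this
    rw [this, E1']
  · intro z
    rw [hα₂, hw z, ← E1' (w⁻¹ * z * w), huV]
    have e : u⁻¹ * (α₁ w * α₁ (w⁻¹ * z * w) * (α₁ w)⁻¹) * u = u⁻¹ * α₁ z * u := by
      rw [map_mul, map_mul, map_inv]
      group
    rw [e]

theorem Q_min (k : Fin m) (M : Subgroup G) (hM : Nm U ≤ M) (hne : M ≠ Nm U) (hle : M ≤ Q k) :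
    M = Q k := by
  obtain ⟨j, hj⟩ := h.ovr M hM hne
  have : j = k := h.Q_inj j k (hle (hj 1))
  subst this
  exact le_antisymm hle (h.Q_le j M hM hj)

theorem min_is_Q (M : Subgroup G) (hM : Nm U ≤ M) (hne : M ≠ Nm U)
    (hmin : ∀ M' : Subgroup G, Nm U ≤ M' → M' ≠ Nm U → M' ≤ M → M' = M) : ∃ k, Q k = M := by
  obtain ⟨k, hk⟩ := h.ovr M hM hne
  exact ⟨k, hmin (Q k) (h.Q_ge k) (h.Q_ne k) (h.Q_le k M hM hk)⟩

/-- an admissible automorphism permutes the minimal parabolic subgroups -/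
theorem adm_Q {α : MulAut G} (hα : h.Adm α) (k : Fin m) :
    ∃ k', ∀ g, g ∈ Q k' ↔ α⁻¹ g ∈ Q k := by
  obtain ⟨M, hMmem⟩ : ∃ M : Subgroup G, ∀ g, g ∈ M ↔ α⁻¹ g ∈ Q k :=
    ⟨(Q k).comap (α⁻¹ : MulAut G).toMonoidHom, fun g => Iff.rfl⟩
  have hinv := h.adm_inv hα
  have h1 : Nm U ≤ M := by
    intro g hg
    rw [hMmem]
    exact h.Q_ge k ((h.adm_Nm hinv g).2 hg)
  have h2 : M ≠ Nm U := by
    intro e
    apply h.Q_ne k
    apply le_antisymm _ (h.Q_ge k)
    intro g hg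
    have : α g ∈ M := by
      rw [hMmem, MulAut.inv_apply_self]
      exact hg
    rw [e] at this
    exact (h.adm_Nm hα g).1 this
  have h3 : ∀ M' : Subgroup G, Nm U ≤ M' → M' ≠ Nm U → M' ≤ M → M' = M := by
    intro M' a1 a2 a3
    obtain ⟨M'', hM''⟩ : ∃ M'' : Subgroup G, ∀ g, g ∈ M'' ↔ α g ∈ M' :=
      ⟨M'.comap α.toMonoidHom, fun g => Iff.rfl⟩
    have b1 : Nm U ≤ M'' := fun g hg => (hM'' g).2 (a1 ((h.adm_Nm hα g).2 hg))
    have b2 : M'' ≠ Nm U := by
      intro e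
      apply a2
      apply le_antisymm _ a1
      intro g hg
      have : α⁻¹ g ∈ M'' := by
        rw [hM'', MulAut.apply_inv_self]
        exact hg
      rw [e] at this
      have := (h.adm_Nm hα (α⁻¹ g)).2 this
      rwa [MulAut.apply_inv_self] at this
    have b3 : M'' ≤ Q k := by
      intro g hg
      have := a3 ((hM'' g).1 hg)
      rw [hMmem, MulAut.inv_apply_self] at this
      exact this
    have b4 := h.Q_min k M'' b1 b2 b3
    apply le_antisymm a3
    intro g hg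
    have : α⁻¹ g ∈ M'' := by
      rw [b4]
      exact (hMmem g).1 hg
    rw [hM'', MulAut.apply_inv_self] at this
    exact this
  obtain ⟨k', hk'⟩ := h.min_is_Q M h1 h2 h3
  exact ⟨k', fun g => by rw [hk']; exact hMmem g⟩

theorem adm_y {α : MulAut G} (hα : h.Adm α) (k : Fin m) :
    ∃ k', ∀ b, ∃ b', α (y k b) = y k' b' := by
  obtain ⟨k', hk'⟩ := h.adm_Q hα k
  refine ⟨k', fun b => ?_⟩
  apply h.Q_V k' _ ((hα.2 _).2 (h.y_mem k b))
  rw [hk', MulAut.inv_apply_self]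
  exact h.Q_y k b

theorem adm_x {α : MulAut G} (hα : h.Adm α) (k : Fin m) :
    ∃ k', ∀ a, ∃ a', α (x k a) = x k' a' := by
  obtain ⟨τ, hτ1, hτ2, hτx, hτy⟩ := h.tau
  have hadm : h.Adm (τ * α * τ⁻¹) := by
    constructor
    · intro g
      rw [MulAut.mul_apply, MulAut.mul_apply, hτ2, hα.2, ← hτ2, MulAut.apply_inv_self]
    · intro g
      rw [MulAut.mul_apply, MulAut.mul_apply, hτ1, hα.1, ← hτ1, MulAut.apply_inv_self]
  obtain ⟨k', hk'⟩ := h.adm_y hadm k
  refine ⟨k', fun a => ?_⟩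
  obtain ⟨b', hb'⟩ := hk' (-a)
  refine ⟨-b', ?_⟩
  have e1 : τ⁻¹ (y k (-a)) = x k a := by
    rw [inv_apply_eq, hτx]
  rw [MulAut.mul_apply, MulAut.mul_apply, e1] at hb'
  have e2 : τ (x k' (-b')) = y k' b' := by rw [hτx, neg_neg]
  exact τ.injective (hb'.trans e2.symm)

/-- the permutation of the simple roots induced by an admissible automorphism -/
theorem adm_type {α : MulAut G} (hα : h.Adm α) : ∃ π : Fin m → Fin m,
    (∀ k a, ∃ a', α (x k a) = x (π k) a') ∧ (∀ k b, ∃ b', α (y k b) = y (π k) b') := by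
  choose πx hπx using fun k => h.adm_x hα k
  choose πy hπy using fun k => h.adm_y hα k
  have e : ∀ k, πy k = πx k := by
    intro k
    by_contra hne
    obtain ⟨a', ha'⟩ := hπx k 1
    obtain ⟨b', hb'⟩ := hπy k 1
    have := h.comm_xy (πx k) (πy k) a' b' (Ne.symm hne)
    rw [← ha', ← hb', ← map_mul, ← map_mul] at this
    exact h.ncomm_xy k 1 1 one_ne_zero one_ne_zero (α.injective this)
  refine ⟨πx, hπx, fun k b => ?_⟩
  rw [← e k]
  exact hπy k b

theorem type_cases {α : MulAut G} {π : Fin m → Fin m}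
    (hπ : ∀ k a, ∃ a', α (x k a) = x (π k) a') : (∀ i, π i = i) ∨ (∀ i, π i = Fin.rev i) := by
  choose β hβ using hπ
  apply path_perm π
  · intro i j e
    have hinj : Function.Injective (β i) := by
      intro a b e'
      have : α (x i a) = α (x i b) := by rw [hβ, hβ, e']
      exact h.x_inj i (α.injective this)
    obtain ⟨a, ha⟩ := (Finite.injective_iff_surjective.1 hinj) (β j 1)
    have : α (x i a) = α (x j 1) := by rw [hβ, hβ, ha, e]
    have := α.injective this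
    exact (h.x_disj j i 1 a this.symm one_ne_zero).1.symm
  · intro i j hadj
    by_contra hn
    have := h.comm_xx (π i) (π j) (β i 1) (β j 1) hn
    rw [← hβ, ← hβ, ← map_mul, ← map_mul] at this
    exact h.ncomm_xx i j 1 1 hadj one_ne_zero one_ne_zero (α.injective this)

theorem y_neg (i : Fin m) (a : F) : (y i a)⁻¹ = y i (-a) := by
  apply inv_eq_of_mul_eq_one_right
  rw [← h.y_add, add_neg_cancel, h.y_zero]

theorem nn_inv (i : Fin m) (c : F) : (nn x y i c)⁻¹ = nn x y i (-c) := by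
  show (x i c * y i (-c⁻¹) * x i c)⁻¹ = x i (-c) * y i (-(-c)⁻¹) * x i (-c)
  rw [mul_inv_rev, mul_inv_rev, h.x_neg, h.y_neg, neg_neg, inv_neg, neg_neg, mul_assoc]

/-- an admissible automorphism maps Weyl elements to Weyl elements -/
theorem adm_nn {α : MulAut G} {i j : Fin m} (hx : ∀ a, ∃ a', α (x i a) = x j a')
    (hy : ∀ b, ∃ b', α (y i b) = y j b') {c : F} (hc : c ≠ 0) :
    ∃ c', c' ≠ 0 ∧ α (x i c) = x j c' ∧ α (nn x y i c) = nn x y j c' := by
  obtain ⟨c', hc'⟩ := hx c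
  obtain ⟨c'', hc''⟩ := hy (-c⁻¹)
  obtain ⟨a₁, ha₁⟩ := hx 1
  have hc'0 : c' ≠ 0 := by
    rintro rfl
    rw [h.x_zero] at hc'
    exact h.x_ne_one i hc ((map_eq_one_iff α α.injective).1 hc')
  have ha₁0 : a₁ ≠ 0 := by
    rintro rfl
    rw [h.x_zero] at ha₁
    exact h.x_ne_one i one_ne_zero ((map_eq_one_iff α α.injective).1 ha₁)
  obtain ⟨b, hb⟩ := h.rk1 i c hc 1
  obtain ⟨b', hb'⟩ := hy b
  have e := congrArg α hb
  unfold nn at e
  simp only [map_mul, map_inv, hc', hc'', ha₁, hb'] at e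
  have hrel := h.rk2 j c' c'' a₁ b' ha₁0 e
  refine ⟨c', hc'0, hc', ?_⟩
  unfold nn
  rw [map_mul, map_mul, hc', hc'']
  have e2 : c'' = -c'⁻¹ := by
    field_simp
    linear_combination hrel
  rw [e2]

/-- the permutation of the simple roots induced by an admissible automorphism is trivial -/
theorem type_id {α : MulAut G} (hα : h.Adm α) (hasym : (2 : F) ≠ 0 ∨ 3 ≤ m) {π : Fin m → Fin m}
    (hπx : ∀ k a, ∃ a', α (x k a) = x (π k) a') (hπy : ∀ k b, ∃ b', α (y k b) = y (π k) b') :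
    ∀ i, π i = i := by
  rcases h.type_cases hπx with hid | hrev
  · exact hid
  · exfalso
    have hm := h.hm
    obtain ⟨i0, hi0⟩ : ∃ i0 : Fin m, i0.val = 0 := ⟨⟨0, by omega⟩, rfl⟩
    obtain ⟨l, hl⟩ : ∃ l : Fin m, l.val + 1 = m := ⟨⟨m - 1, by omega⟩, by simp; omega⟩
    have hπ0 : π i0 = l := by
      rw [hrev]
      apply Fin.ext
      rw [Fin.val_rev]
      omega
    have hx0 : ∀ a, ∃ a', α (x i0 a) = x l a' := fun a => by
      obtain ⟨a', e⟩ := hπx i0 a
      exact ⟨a', by rw [e, hπ0]⟩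
    have hy0 : ∀ b, ∃ b', α (y i0 b) = y l b' := fun b => by
      obtain ⟨b', e⟩ := hπy i0 b
      exact ⟨b', by rw [e, hπ0]⟩
    rcases hasym with h2 | h3
    · -- the torus acts on the long root group through squares only
      choose β hβ using hx0
      have β_inj : Function.Injective β := by
        intro a b e
        have : α (x i0 a) = α (x i0 b) := by rw [hβ, hβ, e]
        exact h.x_inj i0 (α.injective this)
      have key : ∀ k : Fˣ, ∃ k' : Fˣ, ∀ a, β (k * a) = (k' : F) ^ 2 * β a := by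
        intro k
        obtain ⟨t, htU, htV, ht⟩ := h.tor_short i0 hi0 k
        obtain ⟨k', hk'⟩ := h.tor_long l hl (α t) ((h.adm_Nm hα t).2 htU)
          ((h.adm_Nm' hα t).2 htV)
        refine ⟨k', fun a => ?_⟩
        have := congrArg α (ht a)
        rw [map_mul, map_mul, map_inv, hβ, hβ, hk'] at this
        exact (h.x_inj l this).symm
      choose f hf using key
      have ginj : Function.Injective (fun k : Fˣ => (f k) ^ 2) := by
        intro k k' e
        have e' : ((f k : Fˣ) : F) ^ 2 = ((f k' : Fˣ) : F) ^ 2 := by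
          have := congrArg (fun u : Fˣ => (u : F)) e
          simpa using this
        have h1 := hf k 1
        have h2' := hf k' 1
        rw [mul_one] at h1 h2'
        rw [e'] at h1
        exact Units.ext (β_inj (h1.trans h2'.symm))
      have gsurj := Finite.injective_iff_surjective.1 ginj
      have sqsurj : Function.Surjective (fun u : Fˣ => u ^ 2) := by
        intro u
        obtain ⟨k, hk⟩ := gsurj u
        exact ⟨f k, hk⟩
      have sqinj := Finite.injective_iff_surjective.2 sqsurj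
      have : (-1 : Fˣ) = 1 := sqinj (by simp)
      have h' : (-1 : F) = 1 := by
        have := congrArg (fun u : Fˣ => (u : F)) this
        simpa using this
      apply h2
      linear_combination -h'
    · -- the braid relation of the first two nodes fails at the double bond
      obtain ⟨i1, hi1⟩ : ∃ i1 : Fin m, i1.val = 1 := ⟨⟨1, by omega⟩, rfl⟩
      obtain ⟨s, hs⟩ : ∃ s : Fin m, s.val + 2 = m := ⟨⟨m - 2, by omega⟩, by simp; omega⟩
      have hπ1 : π i1 = s := by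
        rw [hrev]
        apply Fin.ext
        rw [Fin.val_rev]
        omega
      have hx1 : ∀ a, ∃ a', α (x i1 a) = x s a' := fun a => by
        obtain ⟨a', e⟩ := hπx i1 a
        exact ⟨a', by rw [e, hπ1]⟩
      have hy1 : ∀ b, ∃ b', α (y i1 b) = y s b' := fun b => by
        obtain ⟨b', e⟩ := hπy i1 b
        exact ⟨b', by rw [e, hπ1]⟩
      obtain ⟨z₁, z₂, hz10, hz20, huniq, hdbl⟩ := h.dbl
      obtain ⟨-, hD3, hD4⟩ := hdbl s l hs hl
      obtain ⟨a', ha'⟩ := h.braid h3 i0 i1 hi0 hi1 1 1 1 one_ne_zero one_ne_zero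
      have ha'0 : a' ≠ 0 := by
        rintro rfl
        rw [h.x_zero] at ha'
        have : x i0 (1 : F) = 1 := by
          have e : x i0 (1 : F) = (nn x y i0 1 * nn x y i1 1)⁻¹
              * (nn x y i0 1 * nn x y i1 1 * x i0 1 * (nn x y i0 1 * nn x y i1 1)⁻¹)
              * (nn x y i0 1 * nn x y i1 1) := by group
          rw [e, ha']
          group
        exact h.x_ne_one i0 one_ne_zero this
      obtain ⟨c, hc0, -, hnc⟩ := h.adm_nn hx0 hy0 (one_ne_zero : (1 : F) ≠ 0)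
      obtain ⟨d, hd0, -, hnd⟩ := h.adm_nn hx1 hy1 (one_ne_zero : (1 : F) ≠ 0)
      obtain ⟨b, hb⟩ := hx0 1
      obtain ⟨a'', ha''⟩ := hx1 a'
      have ha''0 : a'' ≠ 0 := by
        rintro rfl
        rw [h.x_zero] at ha''
        exact h.x_ne_one i1 ha'0 ((map_eq_one_iff α α.injective).1 ha'')
      have e := congrArg α ha'
      simp only [map_mul, map_inv, hnc, hnd, hb, ha''] at e
      obtain ⟨v, hv⟩ := hD4 d hd0 b
      have e2 : nn x y l c * z₂ v * (nn x y l c)⁻¹ = x s a'' := by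
        rw [← hv, ← e]
        group
      obtain ⟨u, hu⟩ := hD3 (-c) (neg_ne_zero.2 hc0) a''
      have e3 : z₂ v = z₁ u := by
        rw [← hu, ← e2, ← h.nn_inv]
        group
      have e4 := huniq 0 v u 0 (by rw [hz10, one_mul, hz20, mul_one, e3])
      rw [e4.2, hz20, mul_one, mul_inv_cancel] at e2
      exact h.x_ne_one s ha''0 e2.symm

/-- an admissible automorphism preserving each simple root group acts semilinearly, with one
field automorphism for all roots -/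
theorem adm_semilinear {α : MulAut G} (hα : h.Adm α) (hid : ∀ k a, ∃ a', α (x k a) = x k a') :
    ∃ (c : Fin m → F) (σ : F ≃+* F), (∀ i, c i ≠ 0) ∧ ∀ i a, α (x i a) = x i (c i * σ a) := by
  have hidy : ∀ k b, ∃ b', α (y k b) = y k b' := by
    obtain ⟨π, hπx, hπy⟩ := h.adm_type hα
    intro k b
    obtain ⟨a', ha'⟩ := hπx k 1
    obtain ⟨a'', ha''⟩ := hid k 1
    have ha''0 : a'' ≠ 0 := by
      rintro rfl
      rw [h.x_zero] at ha''
      exact h.x_ne_one k one_ne_zero ((map_eq_one_iff α α.injective).1 ha'')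
    have hπ : k = π k := (h.x_disj k (π k) a'' a' (ha''.symm.trans ha') ha''0).1
    obtain ⟨b', hb'⟩ := hπy k b
    exact ⟨b', by rw [hb', ← hπ]⟩
  choose β hβ using hid
  have β_add : ∀ i b b', β i (b + b') = β i b + β i b' := by
    intro i b b'
    have := congrArg α (h.x_add i b b')
    rw [map_mul, hβ, hβ, hβ, ← h.x_add] at this
    exact h.x_inj i this
  have β_inj : ∀ i, Function.Injective (β i) := by
    intro i b b' e
    have : α (x i b) = α (x i b') := by rw [hβ, hβ, e]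
    exact h.x_inj i (α.injective this)
  have β_zero : ∀ i, β i 0 = 0 := by
    intro i
    have := β_add i 0 0
    rw [add_zero] at this
    exact left_eq_add.1 this
  have hc0 : ∀ i, β i 1 ≠ 0 := fun i e => one_ne_zero (β_inj i (e.trans (β_zero i).symm))
  have key : ∀ i (k : F), k ≠ 0 → ∃ k' : F, ∀ d, β i (k ^ 2 * d) = k' * β i d := by
    intro i k hk
    obtain ⟨t, htU, htV, ht⟩ := h.tor_sq i (Units.mk0 k hk)
    obtain ⟨k', hk'⟩ := h.tor (α t) ((h.adm_Nm hα t).2 htU) ((h.adm_Nm' hα t).2 htV) i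
    refine ⟨(k' : F), fun d => ?_⟩
    have := congrArg α (ht d)
    rw [map_mul, map_mul, map_inv, hβ, hβ, hk', Units.val_mk0] at this
    exact (h.x_inj i this).symm
  have hsq : ∀ i k d, β i (k ^ 2 * d) = β i (k ^ 2) / β i 1 * β i d := by
    intro i k d
    by_cases hk : k = 0
    · rw [hk]
      simp [β_zero]
    · obtain ⟨k', hk'⟩ := key i k hk
      have h1 := hk' 1
      rw [mul_one] at h1
      rw [hk' d, h1, mul_div_cancel_right₀ _ (hc0 i)]
  have hmul : ∀ i k d, β i (k * d) = β i k / β i 1 * β i d := by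
    intro i k d
    obtain ⟨u, v, rfl⟩ := PslOut.sum_two_sq k
    rw [add_mul, β_add, hsq, hsq, β_add, add_div, add_mul]
  have hσ : ∀ i, ∃ σ : F ≃+* F, ∀ b, β i b = β i 1 * σ b := by
    intro i
    let σ₀ : F →+* F :=
      { toFun := fun k => β i k / β i 1
        map_one' := div_self (hc0 i)
        map_mul' := fun k d => by rw [hmul i k d, mul_div_assoc]
        map_zero' := by rw [β_zero, zero_div]
        map_add' := fun k d => by rw [β_add, add_div] }
    have hbij : Function.Bijective σ₀ :=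
      ⟨σ₀.injective, Finite.injective_iff_surjective.1 σ₀.injective⟩
    refine ⟨RingEquiv.ofBijective σ₀ hbij, fun b => ?_⟩
    show β i b = β i 1 * (β i b / β i 1)
    have := hc0 i
    field_simp
  choose σ hσ using hσ
  obtain ⟨z, hz, hzc⟩ := h.chev
  have hadj : ∀ i j : Fin m, i.val + 1 = j.val → j.val + 1 < m → σ i = σ j := by
    intro i j hij hj
    have e : ∀ a b, α (z i (a * b)) = z i (β i a * β j b) := by
      intro a b
      rw [← hzc i j hij hj, map_mul, map_mul, map_mul, map_inv, map_inv, hβ, hβ, hzc i j hij hj]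
    apply RingEquiv.ext
    intro t
    have e1 := e t 1
    have e2 := e 1 t
    rw [mul_one] at e1
    rw [one_mul] at e2
    have e3 := hz i (e1.symm.trans e2)
    rw [hσ i t, hσ j t] at e3
    have h1 := hc0 i
    have h2 := hc0 j
    have : β i 1 * β j 1 * (σ i t - σ j t) = 0 := by linear_combination e3
    rcases mul_eq_zero.1 this with h3 | h3
    · rcases mul_eq_zero.1 h3 with h4 | h4
      · exact absurd h4 h1
      · exact absurd h4 h2
    · exact sub_eq_zero.1 h3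
  have hdb : ∀ s l : Fin m, s.val + 2 = m → l.val + 1 = m → σ s = σ l := by
    intro s l hs hl
    obtain ⟨z₁, z₂, hz10, hz20, huniq, hdbl⟩ := h.dbl
    obtain ⟨hD2, hD3, hD4⟩ := hdbl s l hs hl
    obtain ⟨cl, hcl0, -, hnl⟩ := h.adm_nn (fun a => ⟨_, hβ l a⟩) (hidy l)
      (one_ne_zero : (1 : F) ≠ 0)
    obtain ⟨cs, hcs0, -, hns⟩ := h.adm_nn (fun a => ⟨_, hβ s a⟩) (hidy s)
      (one_ne_zero : (1 : F) ≠ 0)
    have claim1 : ∀ u, ∃ u', α (z₁ u) = z₁ u' := by
      choose g hg using hD3 1 one_ne_zero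
      have ginj : Function.Injective g := by
        intro a a' e
        have e' : nn x y l 1 * x s a * (nn x y l 1)⁻¹ = nn x y l 1 * x s a' * (nn x y l 1)⁻¹ := by
          rw [hg, hg, e]
        exact h.x_inj s (mul_left_cancel (mul_right_cancel e'))
      intro u
      obtain ⟨a, rfl⟩ := Finite.injective_iff_surjective.1 ginj u
      obtain ⟨u', hu'⟩ := hD3 cl hcl0 (β s a)
      exact ⟨u', by rw [← hg, map_mul, map_mul, map_inv, hnl, hβ, hu']⟩
    have claim2 : ∀ v, ∃ v', α (z₂ v) = z₂ v' := by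
      choose g hg using hD4 1 one_ne_zero
      have ginj : Function.Injective g := by
        intro a a' e
        have e' : nn x y s 1 * x l a * (nn x y s 1)⁻¹ = nn x y s 1 * x l a' * (nn x y s 1)⁻¹ := by
          rw [hg, hg, e]
        exact h.x_inj l (mul_left_cancel (mul_right_cancel e'))
      intro v
      obtain ⟨a, rfl⟩ := Finite.injective_iff_surjective.1 ginj v
      obtain ⟨v', hv'⟩ := hD4 cs hcs0 (β l a)
      exact ⟨v', by rw [← hg, map_mul, map_mul, map_inv, hns, hβ, hv']⟩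
    choose ψ₁ hψ₁ using claim1
    choose ψ₂ hψ₂ using claim2
    have key2 : ∀ a b, ψ₁ (a * b) = β s a * β l b := by
      intro a b
      have e := congrArg α (hD2 a b)
      rw [map_mul, map_mul, map_mul, map_inv, map_inv, hβ, hβ, hD2, map_mul, hψ₁, hψ₂] at e
      exact (huniq _ _ _ _ e).1.symm
    apply RingEquiv.ext
    intro t
    have e1 := key2 t 1
    have e2 := key2 1 t
    rw [mul_one] at e1
    rw [one_mul] at e2
    have e3 := e1.symm.trans e2
    rw [hσ s t, hσ l t] at e3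
    have h1 := hc0 s
    have h2 := hc0 l
    have : β s 1 * β l 1 * (σ s t - σ l t) = 0 := by linear_combination e3
    rcases mul_eq_zero.1 this with h3 | h3
    · rcases mul_eq_zero.1 h3 with h4 | h4
      · exact absurd h4 h1
      · exact absurd h4 h2
    · exact sub_eq_zero.1 h3
  have hm := h.hm
  have hall : ∀ (n : ℕ) (hn : n < m), σ ⟨n, hn⟩ = σ ⟨0, by omega⟩ := by
    intro n
    induction n with
    | zero => intro _; rfl
    | succ n ih =>
      intro hn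
      rw [← ih (by omega)]
      by_cases hlast : n + 2 < m
      · exact (hadj ⟨n, by omega⟩ ⟨n + 1, hn⟩ rfl hlast).symm
      · exact (hdb ⟨n, by omega⟩ ⟨n + 1, hn⟩ (by simp; omega) (by simp; omega)).symm
  refine ⟨fun i => β i 1, σ ⟨0, by omega⟩, hc0, fun i a => ?_⟩
  rw [hβ, hσ i a, ← hall i.val i.isLt]

/-- the shape of an admissible automorphism on the positive simple root groups -/
theorem adm_shape (hasym : (2 : F) ≠ 0 ∨ 3 ≤ m) {α : MulAut G} (hα : h.Adm α) :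
    ∃ (c : Fin m → F) (σ : F ≃+* F), (∀ i, c i ≠ 0) ∧ ∀ i a, α (x i a) = x i (c i * σ a) := by
  obtain ⟨π, hπx, hπy⟩ := h.adm_type hα
  have hid := h.type_id hα hasym hπx hπy
  apply h.adm_semilinear hα
  intro k a
  obtain ⟨a', ha'⟩ := hπx k a
  exact ⟨a', by rw [ha', hid]⟩

/-- rigidity: an admissible automorphism fixing the positive simple root elements is trivial -/
theorem adm_rigid {α : MulAut G} (hα : h.Adm α) (h0 : ∀ i a, α (x i a) = x i a) : α = 1 := by
  obtain ⟨π, hπx, hπy⟩ := h.adm_type hα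
  have hπ : ∀ k, π k = k := by
    intro k
    obtain ⟨a', ha'⟩ := hπx k 1
    rw [h0] at ha'
    exact ((h.x_disj k (π k) 1 a' ha' one_ne_zero).1).symm
  have hy : ∀ k b, ∃ b', α (y k b) = y k b' := by
    intro k b
    obtain ⟨b', hb'⟩ := hπy k b
    exact ⟨b', by rw [hb', hπ]⟩
  have hfix : ∀ k b, α (y k b) = y k b := by
    intro k
    obtain ⟨c, hc0, hc1, hnc⟩ := h.adm_nn (fun a => ⟨a, h0 k a⟩) (hy k) (one_ne_zero : (1 : F) ≠ 0)
    rw [h0] at hc1
    have hc : c = 1 := (h.x_inj k hc1).symm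
    subst hc
    choose g hg using h.rk1 k 1 one_ne_zero
    have ginj : Function.Injective g := by
      intro a a' e
      have e' : nn x y k 1 * x k a * (nn x y k 1)⁻¹ = nn x y k 1 * x k a' * (nn x y k 1)⁻¹ := by
        rw [hg, hg, e]
      exact h.x_inj k (mul_left_cancel (mul_right_cancel e'))
    intro b
    obtain ⟨a, rfl⟩ := Finite.injective_iff_surjective.1 ginj b
    rw [← hg, map_mul, map_mul, map_inv, hnc, h0]
  have htop : (MonoidHom.eqLocus α.toMonoidHom (MonoidHom.id G)) = ⊤ :=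
    h.gen _ (fun i a => h0 i a) (fun i b => hfix i b)
  ext g
  have : g ∈ MonoidHom.eqLocus α.toMonoidHom (MonoidHom.id G) := by
    rw [htop]
    trivial
  exact this

theorem eq_of_adm {α β : MulAut G} (hα : h.Adm α) (hβ : h.Adm β)
    (hx : ∀ i a, α (x i a) = β (x i a)) : α = β := by
  have : β⁻¹ * α = 1 := by
    apply h.adm_rigid (h.adm_mul (h.adm_inv hβ) hα)
    intro i a
    rw [MulAut.mul_apply, inv_apply_eq, hx]
  exact (inv_mul_eq_one.1 this).symm

/-- every automorphism is inner * diagonal * field -/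
theorem decomp (hasym : (2 : F) ≠ 0 ∨ 3 ≤ m) (α : MulAut G) :
    ∃ (g : G) (d : Fin m → Fˣ) (σ : F ≃+* F),
      ∀ D Φ : MulAut G, h.Adm D → (∀ i a, D (x i a) = x i (d i * a)) →
        h.Adm Φ → (∀ i a, Φ (x i a) = x i (σ a)) → α = MulAut.conj g * D * Φ := by
  obtain ⟨g, hg⟩ := h.exists_adm α
  obtain ⟨c, σ, hc0, hcσ⟩ := h.adm_shape hasym hg
  refine ⟨g, fun i => Units.mk0 (c i) (hc0 i), σ, ?_⟩
  intro D Φ hD hDx hΦ hΦx
  have e1 : (MulAut.conj g)⁻¹ * α = D * Φ := by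
    apply h.eq_of_adm hg (h.adm_mul hD hΦ)
    intro i a
    rw [hcσ, MulAut.mul_apply, hΦx, hDx]
    rfl
  rw [mul_assoc, ← e1]
  group

end OkC

end Cfsg.Agent.Lib.Helper27.SpOut
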