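import Mathlib
import Cfsg.Agent.Lib.Helper27.SpOut
import Cfsg.Agent.Lib.Helper27.SpMat

/-!
# The `PSp_{2m}` data for `SpOut.OkC`, `m ≥ 2`
-/

set_option autoImplicit false
set_option linter.unusedSectionVars false

namespace Cfsg.Agent.Lib.Helper27.SpInst

open Matrix Cfsg.Agent.Lib.Helper27.PslnMat Cfsg.Agent.Lib.Helper27.PslnAut
  Cfsg.Agent.Lib.Helper27.PslnOut Cfsg.Agent.Lib.Helper27.SpMat Cfsg.Agent.Lib.Helper27.SpOut

variable {F : Type*} [Field F] {m : ℕ}

/-! ### entries of root elements -/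

theorem E_entry {a b : Fin (2 * m)} (hab : a ≠ b) (c : F) : (E a b c) a b = c := by
  by_cases hb : b = Fin.rev a
  · subst hb
    rw [E_long, tv_apply hab, if_neg hab, if_pos ⟨rfl, rfl⟩, zero_add]
  · rw [E_apply hab hb, if_neg hab, if_pos ⟨rfl, rfl⟩, if_neg (fun e => hb e.2), zero_add, add_zero]

theorem E_diag {a b : Fin (2 * m)} (hab : a ≠ b) (c : F) (x : Fin (2 * m)) : (E a b c) x x = 1 := by
  by_cases hb : b = Fin.rev a
  · subst hb
    rw [E_long]
    exact tv_diag hab c x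
  · rw [E_apply hab hb, if_pos rfl, if_neg (fun e => hab (e.1.symm.trans e.2)),
      if_neg (fun e => hab (Fin.rev_injective (e.2.symm.trans e.1))), add_zero, add_zero]

theorem E_entry_zero {a b : Fin (2 * m)} (hab : a ≠ b) (c : F) {x y : Fin (2 * m)} (hxy : x ≠ y)
    (h1 : ¬ (x = a ∧ y = b)) (h2 : ¬ (x = Fin.rev b ∧ y = Fin.rev a)) : (E a b c) x y = 0 := by
  by_cases hb : b = Fin.rev a
  · subst hb
    rw [E_long, tv_apply hab, if_neg hxy, if_neg (fun e => h1 ⟨e.1.symm, e.2.symm⟩), add_zero]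
  · rw [E_apply hab hb, if_neg hxy, if_neg h1, if_neg h2, add_zero, add_zero]

/-- rows of a product with a root element -/
theorem E_mul_row {a b : Fin (2 * m)} (hab : a ≠ b) (c : F) (M : SLn (2 * m) F) (x y : Fin (2 * m))
    (hx : b ≠ Fin.rev a → x ≠ Fin.rev b) :
    (E a b c * M) x y = M x y + if x = a then c * M b y else 0 := by
  by_cases hb : b = Fin.rev a
  · subst hb
    rw [E_long, tv_mul_apply hab]
  · rw [E_mul_apply hab hb, if_neg (hx hb), add_zero]

theorem E_mul_row_a {a b : Fin (2 * m)} (hab : a ≠ b) (c : F) (M : SLn (2 * m) F) (y : Fin (2 * m)) :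
    (E a b c * M) a y = M a y + c * M b y := by
  rw [E_mul_row hab c M a y (fun hb e => hb (by rw [e, Fin.rev_rev])), if_pos rfl]

theorem E_mul_row_b {a b : Fin (2 * m)} (hab : a ≠ b) (c : F) (M : SLn (2 * m) F) (y : Fin (2 * m)) :
    (E a b c * M) b y = M b y := by
  rw [E_mul_row hab c M b y (fun _ e => rev_ne b e.symm), if_neg hab.symm, add_zero]

theorem E_row_a {a b : Fin (2 * m)} (hab : a ≠ b) (c : F) (y : Fin (2 * m)) :
    (E a b c) a y = (if a = y then 1 else 0) + (if y = b then c else 0) := by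
  have h := E_mul_row_a hab c 1 y
  rw [mul_one] at h
  rw [h]
  show (1 : Matrix (Fin (2 * m)) (Fin (2 * m)) F) a y + c * (1 : Matrix (Fin (2 * m)) (Fin (2 * m)) F) b y = _
  rw [Matrix.one_apply, Matrix.one_apply]
  by_cases hy : y = b
  · rw [if_pos hy, if_pos hy.symm, mul_one]
  · rw [if_neg hy, if_neg (Ne.symm hy), mul_zero]

theorem E_row_b {a b : Fin (2 * m)} (hab : a ≠ b) (c : F) (y : Fin (2 * m)) :
    (E a b c) b y = if b = y then 1 else 0 := by
  have h := E_mul_row_b hab c 1 y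
  rw [mul_one] at h
  rw [h]
  show (1 : Matrix (Fin (2 * m)) (Fin (2 * m)) F) b y = _
  rw [Matrix.one_apply]

/-- a column of a product with a root element -/
theorem mul_E_col {a b : Fin (2 * m)} (hab : a ≠ b) (c : F) (s : SLn (2 * m) F) (x : Fin (2 * m)) :
    (s * E a b c) x b = s x b + s x a * c := by
  by_cases hb : b = Fin.rev a
  · subst hb
    rw [E_long, mul_tv_apply hab, if_pos rfl]
  · rw [mul_E_apply hab hb, if_pos rfl, if_neg hb, add_zero]

/-! ### the projective group -/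

/-- the symplectic group -/
abbrev SpT (m : ℕ) (F : Type*) [Field F] : Type _ := ↥(SpS : Subgroup (SLn (2 * m) F))

/-- the projective symplectic group -/
abbrev PSpT (m : ℕ) (F : Type*) [Field F] : Type _ := SpT m F ⧸ Subgroup.center (SpT m F)

/-- the projection -/
def prS : SpT m F →* PSpT m F := QuotientGroup.mk' (Subgroup.center (SpT m F))

theorem prS_surj : Function.Surjective (prS : SpT m F →* PSpT m F) :=
  QuotientGroup.mk'_surjective _

theorem prS_eq_iff {a b : SpT m F} : prS a = prS b ↔ a⁻¹ * b ∈ Subgroup.center (SpT m F) :=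
  QuotientGroup.eq

theorem prS_eq_one_iff {a : SpT m F} : prS a = 1 ↔ a ∈ Subgroup.center (SpT m F) :=
  QuotientGroup.eq_one_iff a

/-- central elements are scalar -/
theorem center_scalar {z : SpT m F} (hz : z ∈ Subgroup.center (SpT m F)) :
    ∃ r : F, ∀ i j, (z : SLn (2 * m) F) i j = if i = j then r else 0 := by
  rcases Nat.eq_zero_or_pos m with hm | hm
  · subst hm
    exact ⟨1, fun i => i.elim0⟩
  · apply scalar_of_comm ⟨0, by omega⟩
    intro a b hab
    have := Subgroup.mem_center_iff.1 hz ⟨E a b 1, E_mem hab 1⟩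
    exact congrArg Subtype.val this

/-- equal classes differ by a scalar -/
theorem prS_eq {a b : SpT m F} (h : prS a = prS b) :
    ∃ r : F, ∀ i j, (b : SLn (2 * m) F) i j = (a : SLn (2 * m) F) i j * r := by
  obtain ⟨r, hr⟩ := center_scalar (prS_eq_iff.1 h)
  refine ⟨r, fun i j => ?_⟩
  have e : (b : SLn (2 * m) F) = (a : SLn (2 * m) F) * ((a⁻¹ * b : SpT m F) : SLn (2 * m) F) := by
    rw [← Subgroup.coe_mul, mul_inv_cancel_left]
  rw [e]
  show (((a : SLn (2 * m) F) * ((a⁻¹ * b : SpT m F) : SLn (2 * m) F) : SLn (2 * m) F) :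
    Matrix (Fin (2 * m)) (Fin (2 * m)) F) i j = _
  rw [Matrix.SpecialLinearGroup.coe_mul, Matrix.mul_apply, Finset.sum_eq_single j]
  · have := hr j j
    rw [if_pos rfl] at this
    rw [← this]
  · intro k _ hk
    have := hr k j
    rw [if_neg hk] at this
    have h2 : (((a⁻¹ * b : SpT m F) : SLn (2 * m) F) : Matrix (Fin (2 * m)) (Fin (2 * m)) F) k j = 0 := this
    rw [h2, mul_zero]
  · intro hh
    exact absurd (Finset.mem_univ _) hh

theorem prS_eq_of_diag {a b : SpT m F} (h : prS a = prS b) (i : Fin (2 * m))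
    (ha : (a : SLn (2 * m) F) i i = 1) (hb : (b : SLn (2 * m) F) i i = 1) : a = b := by
  obtain ⟨r, hr⟩ := prS_eq h
  have h1 := hr i i
  rw [ha, hb, one_mul] at h1
  apply Subtype.ext
  apply Matrix.SpecialLinearGroup.ext
  intro k l
  rw [hr k l, ← h1, mul_one]

section fin

variable [Finite F]

/-- a subgroup of `SL` intersected with the symplectic group -/
def liftS (H : Subgroup (SLn (2 * m) F)) : Subgroup (SpT m F) := H.subgroupOf SpS

theorem mem_liftS {H : Subgroup (SLn (2 * m) F)} {s : SpT m F} :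
    s ∈ liftS H ↔ (s : SLn (2 * m) F) ∈ H := Subgroup.mem_subgroupOf

theorem center_le_btS {α : Type*} [LinearOrder α] (b : Fin (2 * m) → α) :
    Subgroup.center (SpT m F) ≤ liftS (btS b) := by
  intro z hz
  obtain ⟨r, hr⟩ := center_scalar hz
  rw [mem_liftS, mem_btS]
  intro i j hij
  have hne : i ≠ j := by
    rintro rfl
    exact absurd hij (lt_irrefl _)
  have := hr i j
  rw [if_neg hne] at this
  exact this

theorem prS_mem_map_btS {α : Type*} [LinearOrder α] {b : Fin (2 * m) → α} {s : SpT m F} :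
    prS s ∈ (liftS (btS b) : Subgroup (SpT m F)).map prS ↔ (s : SLn (2 * m) F) ∈ btS b := by
  constructor
  · rintro ⟨t, ht, e⟩
    have h1 := center_le_btS b (prS_eq_iff.1 e)
    have h2 : s = t * (t⁻¹ * s) := by group
    rw [← mem_liftS, h2]
    exact (liftS (btS b)).mul_mem ht h1
  · intro hs
    exact ⟨s, mem_liftS.2 hs, rfl⟩

theorem prS_mem_map_utS {α : Type*} [LinearOrder α] {b : Fin (2 * m) → α}
    {hb : Function.Injective b} {s : SpT m F} (i : Fin (2 * m)) (hs : (s : SLn (2 * m) F) i i = 1) :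
    prS s ∈ (liftS (utS b hb) : Subgroup (SpT m F)).map prS ↔ (s : SLn (2 * m) F) ∈ utS b hb := by
  constructor
  · rintro ⟨t, ht, e⟩
    have := prS_eq_of_diag e i ((mem_liftS.1 ht).2 i) hs
    rw [← this]
    exact mem_liftS.1 ht
  · intro hs
    exact ⟨s, mem_liftS.2 hs, rfl⟩

/-- the image of the upper unitriangular group -/
def Ug : Subgroup (PSpT m F) := (liftS (Uo : Subgroup (SLn (2 * m) F))).map prS

/-- the image of the lower unitriangular group -/
def Vg : Subgroup (PSpT m F) := (liftS (Vo : Subgroup (SLn (2 * m) F))).map prS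

/-- the Bruhat decomposition -/
theorem bruhatT (g : SpT m F) : ∃ (b₁ b₂ w : SpT m F) (σ : Equiv.Perm (Fin (2 * m)))
    (d : Fin (2 * m) → F), (b₁ : SLn (2 * m) F) ∈ (UpS : Subgroup (SLn (2 * m) F)) ∧
    (b₂ : SLn (2 * m) F) ∈ (UpS : Subgroup (SLn (2 * m) F)) ∧
    Mono σ d ((w : SLn (2 * m) F) : Matrix (Fin (2 * m)) (Fin (2 * m)) F) ∧ g = b₁ * w * b₂ := by
  obtain ⟨u, u', σ, d, hu, hu', hw⟩ := bruhat_sp (g : SLn (2 * m) F) g.2
  refine ⟨⟨u⁻¹, (SpS).inv_mem (UpS_le_SpS hu)⟩, ⟨u'⁻¹, (SpS).inv_mem (UpS_le_SpS hu')⟩,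
    ⟨u * g * u', (SpS).mul_mem ((SpS).mul_mem (UpS_le_SpS hu) g.2) (UpS_le_SpS hu')⟩, σ, d,
    (UpS).inv_mem hu, (UpS).inv_mem hu', hw, ?_⟩
  apply Subtype.ext
  show (g : SLn (2 * m) F) = u⁻¹ * (u * g * u') * u'⁻¹
  group

theorem UpS_le_Bo : (UpS : Subgroup (SLn (2 * m) F)) ≤ Bo := fun _ h => (UpS_le_Uo h).1

/-- the image of the triangular group normalises `Ug` -/
theorem pr_Bo_le_Nm {b : SpT m F} (hb : (b : SLn (2 * m) F) ∈ (Bo : Subgroup (SLn (2 * m) F))) :
    prS b ∈ Nm (Ug : Subgroup (PSpT m F)) := fun k =>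
  conj_map_iff prS prS_surj (liftS Uo) (liftS Uo) b
    (fun u => conj_mem_utS_iff Function.injective_id hb (u : SLn (2 * m) F)) k

theorem pr_Bo'_le_Nm {b : SpT m F} (hb : (b : SLn (2 * m) F) ∈ (Bo' : Subgroup (SLn (2 * m) F))) :
    prS b ∈ Nm (Vg : Subgroup (PSpT m F)) := fun k =>
  conj_map_iff prS prS_surj (liftS Vo) (liftS Vo) b
    (fun u => conj_mem_utS_iff OrderDual.toDual.injective hb (u : SLn (2 * m) F)) k

/-- a positive root element as an element of the symplectic group -/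
def eS (a b : Fin (2 * m)) (hab : a ≠ b) (c : F) : SpT m F := ⟨E a b c, E_mem hab c⟩

/-- the normaliser of `Ug` is the image of the triangular group -/
theorem Nm_Ug : Nm (Ug : Subgroup (PSpT m F)) = (liftS (Bo : Subgroup (SLn (2 * m) F))).map prS := by
  apply le_antisymm
  · intro g hg
    obtain ⟨g₀, rfl⟩ := prS_surj g
    obtain ⟨b₁, b₂, w, σ, d, hb₁, hb₂, hw, rfl⟩ := bruhatT g₀
    have hwN : prS w ∈ Nm (Ug : Subgroup (PSpT m F)) := by
      have e : prS w = (prS b₁)⁻¹ * prS (b₁ * w * b₂) * (prS b₂)⁻¹ := by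
        simp only [map_mul]
        group
      rw [e]
      exact (Nm Ug).mul_mem ((Nm Ug).mul_mem ((Nm Ug).inv_mem (pr_Bo_le_Nm (UpS_le_Bo hb₁))) hg)
        ((Nm Ug).inv_mem (pr_Bo_le_Nm (UpS_le_Bo hb₂)))
    have hσ : σ = 1 := by
      by_contra hne
      obtain ⟨i, j, hij, hi⟩ := exists_descent' hne
      have hlt : i < j := Fin.lt_def.2 (by omega)
      have h1 := (hwN (prS (eS i j hlt.ne 1))).2 ⟨eS i j hlt.ne 1, mem_liftS.2 (E_mem_Uo hlt 1), rfl⟩
      have e : prS w * prS (eS i j hlt.ne 1) * (prS w)⁻¹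
          = prS (w * eS i j hlt.ne 1 * w⁻¹) := by
        rw [map_mul, map_mul, map_inv]
      have hne' : σ i ≠ σ j := fun e => hlt.ne (σ.injective e)
      have hconj : ((w * eS i j hlt.ne 1 * w⁻¹ : SpT m F) : SLn (2 * m) F)
          = E (σ i) (σ j) (d i * 1 / d j) := mono_conj_E w.2 hw hlt.ne 1
      rw [e] at h1
      have h2 := (prS_mem_map_utS (σ i) (by rw [hconj]; exact E_diag hne' _ _)).1 h1
      rw [hconj] at h2
      have hc : d i * 1 / d j ≠ 0 :=
        div_ne_zero (mul_ne_zero (hw.ne_zero' _) one_ne_zero) (hw.ne_zero' _)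
      have h3 : (E (σ i) (σ j) (d i * 1 / d j)) (σ i) (σ j) = 0 := h2.1 hi
      rw [E_entry hne'] at h3
      exact hc h3
    subst hσ
    exact ⟨b₁ * w * b₂, mem_liftS.2 (Bo.mul_mem (Bo.mul_mem (UpS_le_Bo hb₁) (hw.one_bt _))
      (UpS_le_Bo hb₂)), rfl⟩
  · rintro _ ⟨b, hb, rfl⟩
    exact pr_Bo_le_Nm (mem_liftS.1 hb)

end fin

section fin

variable [Finite F]

/-- `Ug` is a Sylow subgroup -/
theorem syl_Ug (p : ℕ) [Fact p.Prime] [CharP F p] :
    ∃ P : Sylow p (PSpT m F), ∀ g, g ∈ P ↔ g ∈ (Ug : Subgroup (PSpT m F)) := by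
  have hp : IsPGroup p (Ug : Subgroup (PSpT m F)) :=
    ((isPGroup_Uo' (F := F) p (n := 2 * m)).comap_subtype).map prS
  obtain ⟨k, hk⟩ := hp.exists_card_eq
  have hmod := Sylow.card_quotient_normalizer_modEq_card_quotient hk
  have hnorm : ((Ug : Subgroup (PSpT m F)).comap
      (Subgroup.normalizer ((Ug : Subgroup (PSpT m F)) : Set (PSpT m F))).subtype).Normal :=
    Subgroup.normal_in_normalizer
  have hnd : ¬ p ∣ Nat.card (↥(Subgroup.normalizer ((Ug : Subgroup (PSpT m F)) : Set (PSpT m F)))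
      ⧸ (Ug : Subgroup (PSpT m F)).comap
        (Subgroup.normalizer ((Ug : Subgroup (PSpT m F)) : Set (PSpT m F))).subtype) := by
    intro hdvd
    obtain ⟨x, hx⟩ := exists_prime_orderOf_dvd_card' p hdvd
    obtain ⟨g, rfl⟩ := QuotientGroup.mk_surjective x
    have hgN : (g : PSpT m F) ∈ Nm (Ug : Subgroup (PSpT m F)) := by
      intro k
      exact ((Subgroup.mem_normalizer_iff.1 g.2) k).symm
    rw [Nm_Ug] at hgN
    obtain ⟨b, hb, hbg⟩ := hgN
    have h1 : (QuotientGroup.mk g : _ ⧸ (Ug : Subgroup (PSpT m F)).comap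
        (Subgroup.normalizer ((Ug : Subgroup (PSpT m F)) : Set (PSpT m F))).subtype)
          ^ (Nat.card F - 1) = 1 := by
      rw [← QuotientGroup.mk_pow, QuotientGroup.eq_one_iff]
      show ((g ^ (Nat.card F - 1) : ↥(Subgroup.normalizer
        ((Ug : Subgroup (PSpT m F)) : Set (PSpT m F)))) : PSpT m F) ∈ Ug
      rw [Subgroup.coe_pow, ← hbg, ← map_pow]
      refine ⟨_, mem_liftS.2 ?_, rfl⟩
      rw [Subgroup.coe_pow]
      exact btS_pow_card_sub_one _ (mem_liftS.1 hb)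
    have h2 : p ∣ Nat.card F - 1 := by
      rw [← hx]
      exact orderOf_dvd_of_pow_eq_one h1
    have := Fintype.ofFinite F
    obtain ⟨n, -, hn⟩ := FiniteField.card F p
    rw [Nat.card_eq_fintype_card, hn] at h2
    have h3 : p ∣ p ^ (n : ℕ) := dvd_pow_self p n.ne_zero
    have h4 : 1 ≤ p ^ (n : ℕ) := Nat.one_le_pow _ _ (Fact.out : p.Prime).pos
    have h5 : p ∣ 1 := by
      have := Nat.dvd_sub h3 h2
      rwa [Nat.sub_sub_self h4] at this
    exact (Fact.out : p.Prime).one_lt.ne' (Nat.dvd_one.1 h5)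
  have hind : ¬ p ∣ (Ug : Subgroup (PSpT m F)).index := by
    intro h
    apply hnd
    exact (Nat.modEq_zero_iff_dvd.1 (hmod.trans (Nat.modEq_zero_iff_dvd.2 h)))
  exact ⟨hp.toSylow hind, fun g => Iff.rfl⟩

theorem opp_inf (hm : 0 < m) (g : PSpT m F) (hU : g ∈ (Ug : Subgroup (PSpT m F)))
    (hV : g ∈ (Vg : Subgroup (PSpT m F))) : g = 1 := by
  obtain ⟨u, hu, rfl⟩ := hU
  obtain ⟨v, hv, e⟩ := hV
  have := prS_eq_of_diag e ⟨0, by omega⟩ ((mem_liftS.1 hv).2 _) ((mem_liftS.1 hu).2 _)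
  subst this
  have h1 : (v : SLn (2 * m) F) = 1 := Uo_inf_Vo (mem_liftS.1 hu) (mem_liftS.1 hv)
  have h2 : v = 1 := Subtype.ext h1
  rw [h2, map_one]

theorem opp_Ug (g : PSpT m F)
    (hyp : ∀ k, k ∈ (Ug : Subgroup (PSpT m F)) → g * k * g⁻¹ ∈ (Ug : Subgroup (PSpT m F)) → k = 1) :
    ∃ u ∈ Nm (Ug : Subgroup (PSpT m F)),
      ∀ k, k ∈ (Ug : Subgroup (PSpT m F)) ↔ u⁻¹ * (g * k * g⁻¹) * u ∈ (Vg : Subgroup (PSpT m F)) := by
  obtain ⟨g₀, rfl⟩ := prS_surj g
  obtain ⟨b₁, b₂, w, σ, d, hb₁, hb₂, hw, rfl⟩ := bruhatT g₀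
  have hσ : σ = Fin.revPerm := by
    by_contra hne
    obtain ⟨i, j, hij, hσij⟩ := exists_ascent hne
    have hne' : i ≠ j := hij.ne
    have hk : (b₂⁻¹ * eS i j hne' 1 * b₂ : SpT m F) ∈ liftS (Uo : Subgroup (SLn (2 * m) F)) := by
      rw [mem_liftS]
      have := conj_mem_utS Function.injective_id (Bo.inv_mem (UpS_le_Bo hb₂)) (E_mem_Uo hij (1 : F))
      rwa [inv_inv] at this
    have h1 := hyp (prS (b₂⁻¹ * eS i j hne' 1 * b₂)) ⟨_, hk, rfl⟩ (by
      rw [← map_inv, ← map_mul, ← map_mul]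
      have e : b₁ * w * b₂ * (b₂⁻¹ * eS i j hne' 1 * b₂) * (b₁ * w * b₂)⁻¹
          = b₁ * (w * eS i j hne' 1 * w⁻¹) * b₁⁻¹ := by group
      rw [e]
      refine ⟨_, mem_liftS.2 ?_, rfl⟩
      show (b₁ : SLn (2 * m) F) * ((w : SLn (2 * m) F) * E i j 1 * (w : SLn (2 * m) F)⁻¹)
        * (b₁ : SLn (2 * m) F)⁻¹ ∈ (Uo : Subgroup (SLn (2 * m) F))
      rw [mono_conj_E w.2 hw hne']
      exact conj_mem_utS Function.injective_id (UpS_le_Bo hb₁) (E_mem_Uo hσij _))
    rw [prS_eq_one_iff] at h1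
    have h2 : eS i j hne' (1 : F) ∈ Subgroup.center (SpT m F) := by
      have := (inferInstance : (Subgroup.center (SpT m F)).Normal).conj_mem _ h1 b₂
      have e : b₂ * (b₂⁻¹ * eS i j hne' 1 * b₂) * b₂⁻¹ = eS i j hne' 1 := by group
      rwa [e] at this
    obtain ⟨r, hr⟩ := center_scalar h2
    have h3 := hr i j
    rw [if_neg hne'] at h3
    have h4 : (E i j (1 : F)) i j = 0 := h3
    rw [E_entry hne'] at h4
    exact one_ne_zero h4
  subst hσ
  refine ⟨prS b₁, pr_Bo_le_Nm (UpS_le_Bo hb₁), fun k => ?_⟩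
  have e : (prS b₁)⁻¹ * (prS (b₁ * w * b₂) * k * (prS (b₁ * w * b₂))⁻¹) * prS b₁
      = prS w * (prS b₂ * k * (prS b₂)⁻¹) * (prS w)⁻¹ := by
    simp only [map_mul]
    group
  rw [e]
  show _ ↔ _ ∈ (liftS (Vo : Subgroup (SLn (2 * m) F))).map prS
  rw [conj_map_iff prS prS_surj (liftS Uo) (liftS Vo) w (fun u => hw.conj_rev (u : SLn (2 * m) F))]
  exact ((pr_Bo_le_Nm (UpS_le_Bo hb₂)) k).symm

end fin

/-! ### simple roots -/

/-- the first index of the `k`-th simple root -/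
def i0 (k : Fin m) : Fin (2 * m) := ⟨k.val, by have := k.isLt; omega⟩

/-- the second index of the `k`-th simple root -/
def i1 (k : Fin m) : Fin (2 * m) := ⟨k.val + 1, by have := k.isLt; omega⟩

theorem i0_val (k : Fin m) : (i0 k).val = k.val := rfl

theorem i1_val (k : Fin m) : (i1 k).val = k.val + 1 := rfl

theorem i01_ne (k : Fin m) : i0 k ≠ i1 k := by
  intro e
  have := congrArg Fin.val e
  rw [i0_val, i1_val] at this
  omega

theorem i01_lt (k : Fin m) : i0 k < i1 k := Fin.lt_def.2 (by rw [i0_val, i1_val]; omega)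

/-- positive simple root elements of the symplectic group -/
def xs (k : Fin m) (c : F) : SpT m F := ⟨E (i0 k) (i1 k) c, E_mem (i01_ne k) c⟩

/-- negative simple root elements of the symplectic group -/
def ys (k : Fin m) (c : F) : SpT m F := ⟨E (i1 k) (i0 k) c, E_mem (i01_ne k).symm c⟩

/-- positive simple root elements -/
def xg (k : Fin m) (c : F) : PSpT m F := prS (xs k c)

/-- negative simple root elements -/
def yg (k : Fin m) (c : F) : PSpT m F := prS (ys k c)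

/-- a negative root element with adjacent indices is a simple one -/
theorem adj_neg (j j' : Fin (2 * m)) (h : j.val + 1 = j'.val) :
    ∃ (k : Fin m) (e : F), e ≠ 0 ∧ ∀ c : F, E j' j c = E (i1 k) (i0 k) (e * c) := by
  have hj' := j'.isLt
  by_cases hj : j.val < m
  · refine ⟨⟨j.val, hj⟩, 1, one_ne_zero, fun c => ?_⟩
    have e0 : i0 (⟨j.val, hj⟩ : Fin m) = j := Fin.ext rfl
    have e1 : i1 (⟨j.val, hj⟩ : Fin m) = j' := Fin.ext (by rw [i1_val]; exact h)
    rw [e0, e1, one_mul]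
  · refine ⟨⟨2 * m - 2 - j.val, by omega⟩, -(ep j' * ep j),
      neg_ne_zero.2 (mul_ne_zero (ep_ne_zero _) (ep_ne_zero _)), fun c => ?_⟩
    have e0 : i0 (⟨2 * m - 2 - j.val, by omega⟩ : Fin m) = Fin.rev j' :=
      Fin.ext (by rw [Fin.val_rev, i0_val]; show 2 * m - 2 - j.val = 2 * m - (j'.val + 1); omega)
    have e1 : i1 (⟨2 * m - 2 - j.val, by omega⟩ : Fin m) = Fin.rev j :=
      Fin.ext (by rw [Fin.val_rev, i1_val]; show 2 * m - 2 - j.val + 1 = 2 * m - (j.val + 1); omega)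
    rw [e0, e1]
    have hne : j' ≠ j := by
      intro e
      rw [e] at h
      omega
    have hsh : j ≠ Fin.rev j' := by
      intro e
      have := congrArg Fin.val e
      rw [Fin.val_rev] at this
      omega
    rw [E_symm hne hsh]
    congr 1
    ring

section fin

variable [Finite F]

theorem ovr_Ug (M : Subgroup (PSpT m F)) (hM : Nm (Ug : Subgroup (PSpT m F)) ≤ M)
    (hne : M ≠ Nm (Ug : Subgroup (PSpT m F))) : ∃ k : Fin m, ∀ a : F, yg k a ∈ M := by
  obtain ⟨g, hgM, hgN⟩ : ∃ g, g ∈ M ∧ g ∉ Nm (Ug : Subgroup (PSpT m F)) := by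
    by_contra hcon
    push Not at hcon
    exact hne (le_antisymm hcon hM)
  obtain ⟨g₀, rfl⟩ := prS_surj g
  obtain ⟨b₁, b₂, w, σ, d, hb₁, hb₂, hw, rfl⟩ := bruhatT g₀
  have hwM : prS w ∈ M := by
    have e : prS w = (prS b₁)⁻¹ * prS (b₁ * w * b₂) * (prS b₂)⁻¹ := by
      simp only [map_mul]
      group
    rw [e]
    exact M.mul_mem (M.mul_mem (M.inv_mem (hM (pr_Bo_le_Nm (UpS_le_Bo hb₁)))) hgM)
      (M.inv_mem (hM (pr_Bo_le_Nm (UpS_le_Bo hb₂))))
  have hσ : σ ≠ 1 := by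
    rintro rfl
    apply hgN
    apply pr_Bo_le_Nm
    exact Bo.mul_mem (Bo.mul_mem (UpS_le_Bo hb₁) (hw.one_bt _)) (UpS_le_Bo hb₂)
  have hσ' : σ⁻¹ ≠ 1 := fun e => hσ (inv_eq_one.1 e)
  obtain ⟨j, j', hjj, hdesc⟩ := exists_descent' hσ'
  obtain ⟨k, e, he, hk⟩ := adj_neg (F := F) j j' hjj
  refine ⟨k, fun a => ?_⟩
  have hab : σ⁻¹ j' ≠ σ⁻¹ j := hdesc.ne
  have hd := hw.ne_zero'
  have hconj : ((w * eS (σ⁻¹ j') (σ⁻¹ j) hab (d (σ⁻¹ j) * (a / e) / d (σ⁻¹ j')) * w⁻¹ : SpT m F) :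
      SLn (2 * m) F) = E j' j (a / e) := by
    have h1 := mono_conj_E w.2 hw hab (d (σ⁻¹ j) * (a / e) / d (σ⁻¹ j'))
    have hp : ∀ x, σ (σ⁻¹ x) = x := fun x => σ.apply_symm_apply x
    rw [hp, hp] at h1
    have h2 : d (σ⁻¹ j') * (d (σ⁻¹ j) * (a / e) / d (σ⁻¹ j')) / d (σ⁻¹ j) = a / e := by
      have h3 := hd (σ⁻¹ j')
      have h4 := hd (σ⁻¹ j)
      field_simp
    rw [h2] at h1
    exact h1
  have hmem : prS (w * eS (σ⁻¹ j') (σ⁻¹ j) hab (d (σ⁻¹ j) * (a / e) / d (σ⁻¹ j')) * w⁻¹) ∈ M := by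
    rw [map_mul, map_mul, map_inv]
    exact M.mul_mem (M.mul_mem hwM (hM (le_Nm Ug ⟨_, mem_liftS.2 (E_mem_Uo hdesc _), rfl⟩)))
      (M.inv_mem hwM)
  have heq : yg k a = prS (w * eS (σ⁻¹ j') (σ⁻¹ j) hab (d (σ⁻¹ j) * (a / e) / d (σ⁻¹ j')) * w⁻¹) := by
    show prS (ys k a) = _
    congr 1
    apply Subtype.ext
    rw [hconj, hk]
    show E (i1 k) (i0 k) a = _
    congr 1
    field_simp
  rw [heq]
  exact hmem

end fin

theorem ne_of_val {n : ℕ} {a b : Fin n} (h : a.val ≠ b.val) : a ≠ b :=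
  fun e => h (congrArg Fin.val e)

section fin

variable [Finite F]

theorem E_mem_Vo {a b : Fin (2 * m)} (hba : b < a) (c : F) :
    E a b c ∈ (Vo : Subgroup (SLn (2 * m) F)) := by
  have h := tInv_E hba.ne (-c)
  rw [neg_neg] at h
  rw [← h, tInv_mem_Vo]
  exact E_mem_Uo hba _

theorem xs_mem (k : Fin m) (a : F) : xs k a ∈ liftS (Uo : Subgroup (SLn (2 * m) F)) :=
  mem_liftS.2 (E_mem_Uo (i01_lt k) a)

theorem ys_mem (k : Fin m) (a : F) : ys k a ∈ liftS (Vo : Subgroup (SLn (2 * m) F)) :=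
  mem_liftS.2 (E_mem_Vo (i01_lt k) a)

theorem xg_mem (k : Fin m) (a : F) : xg k a ∈ (Ug : Subgroup (PSpT m F)) := ⟨xs k a, xs_mem k a, rfl⟩

theorem yg_mem (k : Fin m) (a : F) : yg k a ∈ (Vg : Subgroup (PSpT m F)) := ⟨ys k a, ys_mem k a, rfl⟩

omit [Finite F] in
theorem xg_add (k : Fin m) (a b : F) : xg k (a + b) = xg k a * xg k b := by
  show prS (xs k (a + b)) = prS (xs k a) * prS (xs k b)
  rw [← map_mul]
  congr 1
  exact Subtype.ext (E_add (i01_ne k) a b)

omit [Finite F] in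
theorem yg_add (k : Fin m) (a b : F) : yg k (a + b) = yg k a * yg k b := by
  show prS (ys k (a + b)) = prS (ys k a) * prS (ys k b)
  rw [← map_mul]
  congr 1
  exact Subtype.ext (E_add (i01_ne k).symm a b)

omit [Finite F] in
theorem xg_disj (i j : Fin m) (a b : F) (h : xg i a = xg j b) (ha : a ≠ 0) : i = j ∧ a = b := by
  have h1 : xs i a = xs j b :=
    prS_eq_of_diag h (i0 i) (E_diag (i01_ne i) a _) (E_diag (i01_ne j) b _)
  have h2 : E (i0 i) (i1 i) a = E (i0 j) (i1 j) b := congrArg Subtype.val h1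
  have h3 : (E (i0 j) (i1 j) b) (i0 i) (i1 i) = a := by
    rw [← h2]
    exact E_entry (i01_ne i) a
  have hi := i.isLt
  have hj := j.isLt
  have hij : i = j := by
    by_contra hne
    have hne' : i.val ≠ j.val := fun e => hne (Fin.ext e)
    rw [E_entry_zero (i01_ne j) b (i01_ne i) ?_ ?_] at h3
    · exact ha h3.symm
    · rintro ⟨e1, -⟩
      have := congrArg Fin.val e1
      rw [i0_val, i0_val] at this
      exact hne' this
    · rintro ⟨e1, -⟩
      have := congrArg Fin.val e1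
      rw [Fin.val_rev, i0_val, i1_val] at this
      omega
  subst hij
  rw [E_entry (i01_ne i)] at h3
  exact ⟨rfl, h3.symm⟩

/-! ### the minimal parabolic subgroups -/

/-- the minimal parabolic subgroups -/
def Qg (k : Fin m) : Subgroup (PSpT m F) :=
  Nm (Ug : Subgroup (PSpT m F)) ⊔ Subgroup.closure (Set.range (yg k : F → PSpT m F))

/-- the block labelling of the `k`-th minimal parabolic subgroup -/
def lab (k : Fin m) : Fin (2 * m) → ℕ := fun j =>
  if j = i1 k then k.val else if j = Fin.rev (i0 k) then (Fin.rev (i1 k)).val else j.val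

omit [Finite F] in
theorem lab_mono (k : Fin m) {i j : Fin (2 * m)} (h : lab k j < lab k i) : j < i := by
  have hk := k.isLt
  have hi := i.isLt
  have hj := j.isLt
  rw [Fin.lt_def]
  unfold lab at h
  split_ifs at h <;> simp only [Fin.ext_iff, Fin.val_rev, i0_val, i1_val] at * <;> omega

omit [Finite F] in
theorem lab_lt (k : Fin m) {i j : Fin (2 * m)} (hji : j < i) (h1 : ¬ (i = i1 k ∧ j = i0 k))
    (h2 : ¬ (i = Fin.rev (i0 k) ∧ j = Fin.rev (i1 k))) : lab k j < lab k i := by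
  have hk := k.isLt
  have hi := i.isLt
  have hj := j.isLt
  rw [Fin.lt_def] at hji
  unfold lab
  split_ifs <;> simp only [Fin.ext_iff, Fin.val_rev, i0_val, i1_val] at * <;> omega

theorem Bo_le_lab (k : Fin m) : (Bo : Subgroup (SLn (2 * m) F)) ≤ btS (lab k) :=
  fun _ hs _ _ hij => hs (lab_mono k hij)

theorem E_mem_btS {α : Type*} [LinearOrder α] {b : Fin (2 * m) → α} {x y : Fin (2 * m)}
    (hxy : x ≠ y) (h1 : b x ≤ b y) (h2 : y ≠ Fin.rev x → b (Fin.rev y) ≤ b (Fin.rev x)) (c : F) :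
    E x y c ∈ (btS b : Subgroup (SLn (2 * m) F)) := by
  unfold E E2
  refine (btS b).mul_mem (tv_mem_btS hxy h1 c) ?_
  split_ifs with h
  · exact (btS b).one_mem
  · exact tv_mem_btS (rev_ne_rev hxy) (h2 h) _

omit [Finite F] in
theorem lab_i1 (k : Fin m) : lab k (i1 k) = k.val := by
  unfold lab; rw [if_pos rfl]

omit [Finite F] in
theorem lab_i0 (k : Fin m) : lab k (i0 k) = k.val := by
  have hk := k.isLt
  unfold lab
  rw [if_neg, if_neg]
  · rfl
  · intro h
    have := congrArg Fin.val h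
    rw [Fin.val_rev, i0_val] at this
    omega
  · intro h
    have := congrArg Fin.val h
    rw [i0_val, i1_val] at this
    omega

omit [Finite F] in
theorem lab_r0 (k : Fin m) (h : k.val + 1 < m) :
    lab k (Fin.rev (i0 k)) = 2 * m - (k.val + 2) := by
  have hk := k.isLt
  unfold lab
  rw [if_neg, if_pos rfl, Fin.val_rev, i1_val]
  intro h
  have := congrArg Fin.val h
  rw [Fin.val_rev, i0_val, i1_val] at this
  omega

omit [Finite F] in
theorem lab_r1 (k : Fin m) (h : k.val + 1 < m) :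
    lab k (Fin.rev (i1 k)) = 2 * m - (k.val + 2) := by
  have hk := k.isLt
  unfold lab
  rw [if_neg, if_neg, Fin.val_rev, i1_val]
  · intro h
    have := congrArg Fin.val h
    rw [Fin.val_rev, Fin.val_rev, i0_val, i1_val] at this
    omega
  · intro h
    have := congrArg Fin.val h
    rw [Fin.val_rev, i1_val] at this
    omega

theorem ys_mem_lab (k : Fin m) (a : F) :
    (ys k a : SLn (2 * m) F) ∈ (btS (lab k) : Subgroup (SLn (2 * m) F)) := by
  have hk := k.isLt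
  apply E_mem_btS (i01_ne k).symm
  · rw [lab_i1, lab_i0]
  · intro h
    have hlt : k.val + 1 < m := by
      by_contra hc
      apply h
      apply Fin.ext
      rw [Fin.val_rev, i0_val, i1_val]
      omega
    rw [lab_r0 k hlt, lab_r1 k hlt]

theorem Qg_le (k : Fin m) :
    (Qg k : Subgroup (PSpT m F)) ≤ (liftS (btS (lab k) : Subgroup (SLn (2 * m) F))).map prS := by
  apply sup_le
  · rw [Nm_Ug]
    apply Subgroup.map_mono
    intro s hs
    exact mem_liftS.2 (Bo_le_lab k (mem_liftS.1 hs))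
  · rw [Subgroup.closure_le]
    rintro _ ⟨a, rfl⟩
    exact ⟨ys k a, mem_liftS.2 (ys_mem_lab k a), rfl⟩

theorem Qg_ge (k : Fin m) : Nm (Ug : Subgroup (PSpT m F)) ≤ Qg k := le_sup_left

theorem Qg_y (k : Fin m) (a : F) : yg k a ∈ (Qg k : Subgroup (PSpT m F)) :=
  (le_sup_right : _ ≤ Qg k) (Subgroup.subset_closure ⟨a, rfl⟩)

theorem Qg_ne (k : Fin m) : (Qg k : Subgroup (PSpT m F)) ≠ Nm Ug := by
  intro e
  have h1 : yg k (1 : F) ∈ Nm (Ug : Subgroup (PSpT m F)) := e ▸ Qg_y k 1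
  rw [Nm_Ug] at h1
  have h2 := prS_mem_map_btS.1 h1
  have h3 : (E (i1 k) (i0 k) (1 : F)) (i1 k) (i0 k) = 0 := h2 (i01_lt k)
  rw [E_entry (i01_ne k).symm] at h3
  exact one_ne_zero h3

theorem Qg_inj (j k : Fin m) (h : yg j (1 : F) ∈ (Qg k : Subgroup (PSpT m F))) : j = k := by
  have h1 := prS_mem_map_btS.1 (Qg_le k h)
  by_contra hne
  have hj := j.isLt
  have hk := k.isLt
  have hne' : j.val ≠ k.val := fun e => hne (Fin.ext e)
  have h3 := lab_lt k (i01_lt j)
    (by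
      rintro ⟨e1, -⟩
      have := congrArg Fin.val e1
      rw [i1_val, i1_val] at this
      omega)
    (by
      rintro ⟨e1, -⟩
      have := congrArg Fin.val e1
      rw [Fin.val_rev, i0_val, i1_val] at this
      omega)
  have h4 : (E (i1 j) (i0 j) (1 : F)) (i1 j) (i0 j) = 0 := h1 h3
  rw [E_entry (i01_ne j).symm] at h4
  exact one_ne_zero h4

theorem Qg_le' (k : Fin m) (M : Subgroup (PSpT m F))
    (hM : Nm (Ug : Subgroup (PSpT m F)) ≤ M) (hy : ∀ a : F, yg k a ∈ M) : Qg k ≤ M := by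
  apply sup_le hM
  rw [Subgroup.closure_le]
  rintro _ ⟨a, rfl⟩
  exact hy a

theorem Qg_V (k : Fin m) (g : PSpT m F) (hV : g ∈ (Vg : Subgroup (PSpT m F)))
    (hQ : g ∈ (Qg k : Subgroup (PSpT m F))) : ∃ a : F, g = yg k a := by
  obtain ⟨v, hv, rfl⟩ := hV
  have h1 := prS_mem_map_btS.1 (Qg_le k hQ)
  have hv' := mem_liftS.1 hv
  obtain ⟨a, ha⟩ : ∃ a : F, a = (v : SLn (2 * m) F) (i1 k) (i0 k) := ⟨_, rfl⟩
  refine ⟨a, ?_⟩
  obtain ⟨v', hv'def⟩ : ∃ v' : SpT m F, v' = v * ys k (-a) := ⟨_, rfl⟩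
  have hV' : (v' : SLn (2 * m) F) ∈ (Vo : Subgroup (SLn (2 * m) F)) := by
    rw [hv'def]
    exact Vo.mul_mem hv' (mem_liftS.1 (ys_mem k (-a)))
  have hL' : (v' : SLn (2 * m) F) ∈ (btS (lab k) : Subgroup (SLn (2 * m) F)) := by
    rw [hv'def]
    exact (btS (lab k)).mul_mem h1 (ys_mem_lab k (-a))
  have h10 : (v' : SLn (2 * m) F) (i1 k) (i0 k) = 0 := by
    rw [hv'def]
    show ((v : SLn (2 * m) F) * E (i1 k) (i0 k) (-a)) (i1 k) (i0 k) = 0
    rw [mul_E_col (i01_ne k).symm, ← ha, hv'.2 (i1 k)]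
    ring
  have hcol : ∀ x, x ≠ i0 k → (v' : SLn (2 * m) F) x (i0 k) = 0 := by
    intro x hx
    rcases lt_or_gt_of_ne hx with hlt | hgt
    · exact hV'.1 (OrderDual.toDual_lt_toDual.2 hlt)
    · by_cases hx1 : x = i1 k
      · rw [hx1]
        exact h10
      · apply hL'
        apply lab_lt k hgt (fun e => hx1 e.1)
        rintro ⟨e1, e2⟩
        apply hx1
        rw [e1]
        have hk := k.isLt
        have := congrArg Fin.val e2
        rw [Fin.val_rev, i0_val, i1_val] at this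
        apply Fin.ext
        rw [Fin.val_rev, i0_val, i1_val]
        omega
  have hone : (v' : SLn (2 * m) F) = 1 := by
    apply Matrix.SpecialLinearGroup.ext
    intro x y
    show (v' : SLn (2 * m) F) x y = (1 : Matrix (Fin (2 * m)) (Fin (2 * m)) F) x y
    rw [Matrix.one_apply]
    by_cases hxy : x = y
    · rw [if_pos hxy, hxy]
      exact hV'.2 y
    · rw [if_neg hxy]
      rcases lt_or_gt_of_ne hxy with hlt | hgt
      · exact hV'.1 (OrderDual.toDual_lt_toDual.2 hlt)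
      · by_cases hc1 : x = i1 k ∧ y = i0 k
        · rw [hc1.1, hc1.2]
          exact h10
        · by_cases hc2 : x = Fin.rev (i0 k) ∧ y = Fin.rev (i1 k)
          · rw [hc2.1, hc2.2]
            apply mirror_row v'.2 hcol
            intro e
            exact i01_ne k (Fin.rev_injective e).symm
          · exact hL' (lab_lt k hgt hc1 hc2)
  have hfin : v = ys k a := by
    have h2 : v' = 1 := Subtype.ext hone
    rw [hv'def] at h2
    have h3 : v = (ys k (-a))⁻¹ := eq_inv_of_mul_eq_one_left h2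
    rw [h3]
    apply Subtype.ext
    show (E (i1 k) (i0 k) (-a))⁻¹ = E (i1 k) (i0 k) a
    rw [E_inv (i01_ne k).symm, neg_neg]
  rw [hfin]
  rfl

/-! ### automorphisms induced from `SL` -/

/-- the restriction to the symplectic group of an automorphism of `SL` -/
noncomputable def resS (e : SLn (2 * m) F ≃* SLn (2 * m) F)
    (he : ∀ s, s ∈ (SpS : Subgroup (SLn (2 * m) F)) → e s ∈ (SpS : Subgroup (SLn (2 * m) F))) :
    SpT m F ≃* SpT m F :=
  MulEquiv.ofBijective
    ((e.toMonoidHom.comp (SpS : Subgroup (SLn (2 * m) F)).subtype).codRestrict SpS (fun s => he s s.2))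
    (by
      have hinj : Function.Injective ((e.toMonoidHom.comp
          (SpS : Subgroup (SLn (2 * m) F)).subtype).codRestrict SpS (fun s => he s s.2)) := by
        intro a b hab
        have := congrArg Subtype.val hab
        exact Subtype.ext (e.injective this)
      exact ⟨hinj, Finite.injective_iff_surjective.1 hinj⟩)

theorem resS_coe (e : SLn (2 * m) F ≃* SLn (2 * m) F)
    (he : ∀ s, s ∈ (SpS : Subgroup (SLn (2 * m) F)) → e s ∈ (SpS : Subgroup (SLn (2 * m) F)))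
    (s : SpT m F) : ((resS e he s : SpT m F) : SLn (2 * m) F) = e s := rfl

/-- the induced automorphism of the projective group -/
noncomputable def descS (e : SLn (2 * m) F ≃* SLn (2 * m) F)
    (he : ∀ s, s ∈ (SpS : Subgroup (SLn (2 * m) F)) → e s ∈ (SpS : Subgroup (SLn (2 * m) F))) :
    MulAut (PSpT m F) :=
  QuotientGroup.congr (Subgroup.center (SpT m F)) (Subgroup.center (SpT m F)) (resS e he)
    (Subgroup.characteristic_iff_map_eq.1 inferInstance (resS e he))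

theorem descS_prS (e : SLn (2 * m) F ≃* SLn (2 * m) F)
    (he : ∀ s, s ∈ (SpS : Subgroup (SLn (2 * m) F)) → e s ∈ (SpS : Subgroup (SLn (2 * m) F)))
    (s : SpT m F) : descS e he (prS s) = prS (resS e he s) := rfl

theorem descS_mem_map_iff (e : SLn (2 * m) F ≃* SLn (2 * m) F)
    (he : ∀ s, s ∈ (SpS : Subgroup (SLn (2 * m) F)) → e s ∈ (SpS : Subgroup (SLn (2 * m) F)))
    (H H' : Subgroup (SLn (2 * m) F)) (hH : ∀ s, e s ∈ H' ↔ s ∈ H) (k : PSpT m F) :
    descS e he k ∈ (liftS H').map prS ↔ k ∈ (liftS H).map prS := by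
  constructor
  · rintro ⟨h', hh', eq⟩
    obtain ⟨k₀, rfl⟩ := prS_surj k
    refine ⟨(resS e he).symm h', ?_, ?_⟩
    · refine mem_liftS.2 ?_
      rw [← hH, ← resS_coe e he, MulEquiv.apply_symm_apply]
      exact mem_liftS.1 hh'
    · apply (descS e he).injective
      rw [descS_prS, MulEquiv.apply_symm_apply]
      exact eq
  · rintro ⟨u, hu, rfl⟩
    exact ⟨resS e he u, mem_liftS.2 ((hH _).2 (mem_liftS.1 hu)), rfl⟩

theorem tau_Ug : ∃ τ : MulAut (PSpT m F),
    (∀ g, τ g ∈ (Vg : Subgroup (PSpT m F)) ↔ g ∈ (Ug : Subgroup (PSpT m F))) ∧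
    (∀ g, τ g ∈ (Ug : Subgroup (PSpT m F)) ↔ g ∈ (Vg : Subgroup (PSpT m F))) ∧
    (∀ (k : Fin m) (a : F), τ (xg k a) = yg k (-a)) ∧
    (∀ (k : Fin m) (a : F), τ (yg k a) = xg k (-a)) := by
  refine ⟨descS tInv (fun s hs => tInv_mem hs), descS_mem_map_iff _ _ Uo Vo tInv_mem_Vo,
    descS_mem_map_iff _ _ Vo Uo tInv_mem_Uo, fun k a => ?_, fun k a => ?_⟩
  · show descS tInv _ (prS (xs k a)) = prS (ys k (-a))
    rw [descS_prS]
    congr 1
    exact Subtype.ext (tInv_E (i01_ne k) a)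
  · show descS tInv _ (prS (ys k a)) = prS (xs k (-a))
    rw [descS_prS]
    congr 1
    exact Subtype.ext (tInv_E (i01_ne k).symm a)

/-! ### commutation relations -/

omit [Finite F] in
theorem comm_xy (i j : Fin m) (a b : F) (h : i ≠ j) : xg i a * yg j b = yg j b * xg i a := by
  have hi := i.isLt
  have hj := j.isLt
  have hne : i.val ≠ j.val := fun e => h (Fin.ext e)
  show prS (xs i a) * prS (ys j b) = prS (ys j b) * prS (xs i a)
  rw [← map_mul, ← map_mul]
  congr 1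
  apply Subtype.ext
  exact (E_comm (i01_ne i) (i01_ne j).symm
    (ne_of_val (by rw [i1_val, i1_val]; omega))
    (ne_of_val (by rw [i0_val, i0_val]; omega))
    (ne_of_val (by rw [Fin.val_rev, i0_val, i1_val]; omega))
    (ne_of_val (by rw [Fin.val_rev, i0_val, i1_val]; omega)) a b).eq

omit [Finite F] in
theorem comm_xx (i j : Fin m) (a b : F) (h : ¬ Adj i j) : xg i a * xg j b = xg j b * xg i a := by
  have hi := i.isLt
  have hj := j.isLt
  have h1 : ¬ (i.val + 1 = j.val) := fun e => h (Or.inl e)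
  have h2 : ¬ (j.val + 1 = i.val) := fun e => h (Or.inr e)
  show prS (xs i a) * prS (xs j b) = prS (xs j b) * prS (xs i a)
  rw [← map_mul, ← map_mul]
  congr 1
  apply Subtype.ext
  exact (E_comm (i01_ne i) (i01_ne j)
    (ne_of_val (by rw [i1_val, i0_val]; omega))
    (ne_of_val (by rw [i0_val, i1_val]; omega))
    (ne_of_val (by rw [Fin.val_rev, i1_val, i1_val]; omega))
    (ne_of_val (by rw [Fin.val_rev, i0_val, i0_val]; omega)) a b).eq

omit [Finite F] in
theorem ncomm_xy (i : Fin m) (a b : F) (ha : a ≠ 0) (hb : b ≠ 0) :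
    xg i a * yg i b ≠ yg i b * xg i a := by
  intro h
  have h' : prS (xs i a * ys i b) = prS (ys i b * xs i a) := by
    rw [map_mul, map_mul]
    exact h
  obtain ⟨r, hr⟩ := prS_eq h'
  have hne := i01_ne i
  have h1 : (E (i1 i) (i0 i) b * E (i0 i) (i1 i) a) (i0 i) (i1 i)
      = (E (i0 i) (i1 i) a * E (i1 i) (i0 i) b) (i0 i) (i1 i) * r := hr (i0 i) (i1 i)
  have h2 : (E (i1 i) (i0 i) b * E (i0 i) (i1 i) a) (i0 i) (i0 i)
      = (E (i0 i) (i1 i) a * E (i1 i) (i0 i) b) (i0 i) (i0 i) * r := hr (i0 i) (i0 i)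
  simp only [E_mul_row_b hne.symm, E_mul_row_a hne, E_row_a hne, E_row_b hne.symm,
    E_row_a hne.symm, if_true, if_neg hne, if_neg hne.symm, zero_add, add_zero,
    mul_one] at h1 h2
  have hr1 : r = 1 := by
    have : a * (1 - r) = 0 := by linear_combination h1
    rcases mul_eq_zero.1 this with h3 | h3
    · exact absurd h3 ha
    · linear_combination -h3
  rw [hr1] at h2
  have : a * b = 0 := by linear_combination -h2
  rcases mul_eq_zero.1 this with h3 | h3
  · exact ha h3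
  · exact hb h3

omit [Finite F] in
theorem i1_eq_i0 {i j : Fin m} (h : i.val + 1 = j.val) : i1 i = i0 j :=
  Fin.ext (by rw [i1_val, i0_val]; exact h)

theorem prS_inj_Uo {u v : SpT m F} (hu : u ∈ liftS (Uo : Subgroup (SLn (2 * m) F)))
    (hv : v ∈ liftS (Uo : Subgroup (SLn (2 * m) F))) (h : prS u = prS v) : u = v := by
  rcases Nat.eq_zero_or_pos m with hm | hm
  · subst hm
    apply Subtype.ext
    apply Matrix.SpecialLinearGroup.ext
    intro i
    exact i.elim0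
  · exact prS_eq_of_diag h ⟨0, by omega⟩ ((mem_liftS.1 hu).2 _) ((mem_liftS.1 hv).2 _)

theorem ncomm_xx_aux (i j : Fin m) (hij : i.val + 1 = j.val) (a b : F) (ha : a ≠ 0) (hb : b ≠ 0) :
    xg i a * xg j b ≠ xg j b * xg i a := by
  intro h
  have hi := i.isLt
  have hj := j.isLt
  have h' : prS (xs i a * xs j b) = prS (xs j b * xs i a) := by
    rw [map_mul, map_mul]
    exact h
  have h2 := prS_inj_Uo ((liftS Uo).mul_mem (xs_mem i a) (xs_mem j b))
    ((liftS Uo).mul_mem (xs_mem j b) (xs_mem i a)) h'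
  have h3 : (E (i0 i) (i1 i) a * E (i0 j) (i1 j) b) (i0 i) (i1 j)
      = (E (i0 j) (i1 j) b * E (i0 i) (i1 i) a) (i0 i) (i1 j) :=
    congrArg (fun s : SpT m F => (s : SLn (2 * m) F) (i0 i) (i1 j)) h2
  have e01 : i1 i = i0 j := i1_eq_i0 hij
  have n1 : i0 i ≠ i1 j := ne_of_val (by rw [i0_val, i1_val]; omega)
  have n2 : i0 i ≠ i0 j := ne_of_val (by rw [i0_val, i0_val]; omega)
  have n3 : i0 i ≠ Fin.rev (i1 j) := ne_of_val (by rw [Fin.val_rev, i0_val, i1_val]; omega)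
  have k1 : (E (i0 j) (i1 j) b) (i0 i) (i1 j) = 0 :=
    E_entry_zero (i01_ne j) b n1 (fun e => n2 e.1) (fun e => n3 e.1)
  have k2 : (E (i0 j) (i1 j) b) (i1 i) (i1 j) = b := by
    rw [e01]
    exact E_entry (i01_ne j) b
  have k3 : (E (i0 i) (i1 i) a) (i0 i) (i1 j) = 0 :=
    E_entry_zero (i01_ne i) a n1
      (fun e => ne_of_val (by rw [i1_val, i1_val]; omega) e.2)
      (fun e => ne_of_val (by rw [Fin.val_rev, i0_val, i1_val]; omega) e.1)
  rw [E_mul_row_a (i01_ne i), k1, k2, E_mul_row (i01_ne j) b _ _ _ (fun _ => n3), if_neg n2,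
    add_zero, k3, zero_add] at h3
  exact mul_ne_zero ha hb h3

theorem ncomm_xx (i j : Fin m) (a b : F) (h : Adj i j) (ha : a ≠ 0) (hb : b ≠ 0) :
    xg i a * xg j b ≠ xg j b * xg i a := by
  rcases h with h | h
  · exact ncomm_xx_aux i j h a b ha hb
  · exact fun e => ncomm_xx_aux j i h b a hb ha e.symm

/-- the index of the third coordinate -/
def zidx (i : Fin m) : Fin (2 * m) := if h : i.val + 2 < 2 * m then ⟨i.val + 2, h⟩ else i1 i

omit [Finite F] in
theorem zidx_ne (i : Fin m) : i0 i ≠ zidx i := by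
  unfold zidx
  split_ifs with h
  · exact ne_of_val (by rw [i0_val]; show i.val ≠ i.val + 2; omega)
  · exact i01_ne i

theorem chev_Ug : ∃ z : Fin m → F → PSpT m F, (∀ i, Function.Injective (z i)) ∧
    ∀ i j : Fin m, i.val + 1 = j.val → j.val + 1 < m →
      ∀ a b : F, xg i a * xg j b * (xg i a)⁻¹ * (xg j b)⁻¹ = z i (a * b) := by
  refine ⟨fun i c => prS (eS (i0 i) (zidx i) (zidx_ne i) c), fun i c c' h => ?_,
    fun i j hij hj a b => ?_⟩
  · have h1 := prS_eq_of_diag h (i0 i) (E_diag (zidx_ne i) c _) (E_diag (zidx_ne i) c' _)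
    have h2 : E (i0 i) (zidx i) c = E (i0 i) (zidx i) c' := congrArg Subtype.val h1
    have h3 := E_entry (zidx_ne i) c
    rw [h2, E_entry (zidx_ne i)] at h3
    exact h3.symm
  · have hi := i.isLt
    have e01 : i1 i = i0 j := i1_eq_i0 hij
    have ez : zidx i = i1 j := by
      unfold zidx
      rw [dif_pos (by omega)]
      exact Fin.ext (by rw [i1_val]; show i.val + 2 = j.val + 1; omega)
    show prS (xs i a) * prS (xs j b) * (prS (xs i a))⁻¹ * (prS (xs j b))⁻¹ = prS _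
    rw [← map_inv, ← map_inv, ← map_mul, ← map_mul, ← map_mul]
    congr 1
    apply Subtype.ext
    show E (i0 i) (i1 i) a * E (i0 j) (i1 j) b * (E (i0 i) (i1 i) a)⁻¹ * (E (i0 j) (i1 j) b)⁻¹
      = E (i0 i) (zidx i) (a * b)
    rw [ez, ← e01]
    exact E_chev (i01_ne i) (ne_of_val (by rw [i1_val, i1_val]; omega))
      (ne_of_val (by rw [i0_val, i1_val]; omega))
      (ne_of_val (by rw [Fin.val_rev, i0_val, i1_val]; omega))
      (ne_of_val (by rw [Fin.val_rev, i1_val, i1_val]; omega))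
      (ne_of_val (by rw [Fin.val_rev, i0_val, i1_val]; omega)) a b

omit [Finite F] in
theorem nn_eq (i : Fin m) (c : F) :
    nn (xg : Fin m → F → PSpT m F) yg i c
      = prS ⟨nE (i0 i) (i1 i) c, nE_mem (i01_ne i) c⟩ := by
  show prS (xs i c) * prS (ys i (-c⁻¹)) * prS (xs i c) = _
  rw [← map_mul, ← map_mul]
  rfl

omit [Finite F] in
/-- conjugation of a simple root element by a Weyl element -/
theorem nn_conj (l s : Fin m) {c : F} (hc : c ≠ 0) (a : F) :
    nn (xg : Fin m → F → PSpT m F) yg l c * xg s a * (nn xg yg l c)⁻¹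
      = prS (eS (sw (i0 l) (i1 l) (i0 s)) (sw (i0 l) (i1 l) (i1 s))
          (fun e => i01_ne s ((sw (i0 l) (i1 l)).injective e))
          (dE (i0 l) (i1 l) c (i0 s) * a / dE (i0 l) (i1 l) c (i1 s))) := by
  rw [nn_eq]
  show prS _ * prS (xs s a) * (prS _)⁻¹ = _
  rw [← map_inv, ← map_mul, ← map_mul]
  congr 1
  apply Subtype.ext
  exact mono_conj_E (nE_mem (i01_ne l) c) (nE_mono (i01_ne l) hc) (i01_ne s) a

omit [Finite F] in
theorem prS_eS_congr {a b a' b' : Fin (2 * m)} (hab : a ≠ b) (hab' : a' ≠ b') (c : F)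
    (ha : a = a') (hb : b = b') : prS (eS a b hab c) = prS (eS a' b' hab' c) := by
  subst ha
  subst hb
  rfl

theorem dbl_Ug (hm : 2 ≤ m) : ∃ z₁ z₂ : F → PSpT m F, z₁ 0 = 1 ∧ z₂ 0 = 1 ∧
    (∀ u v u' v', z₁ u * z₂ v = z₁ u' * z₂ v' → u = u' ∧ v = v') ∧
    ∀ s l : Fin m, s.val + 2 = m → l.val + 1 = m →
      (∀ a b : F, xg s a * xg l b * (xg s a)⁻¹ * (xg l b)⁻¹ = z₁ (a * b) * z₂ (a ^ 2 * b)) ∧
      (∀ c : F, c ≠ 0 → ∀ a, ∃ u, nn xg yg l c * xg s a * (nn xg yg l c)⁻¹ = z₁ u) ∧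
      (∀ c : F, c ≠ 0 → ∀ b, ∃ v, nn xg yg s c * xg l b * (nn xg yg s c)⁻¹ = z₂ v) := by
  obtain ⟨s₀, hs₀⟩ : ∃ s₀ : Fin m, s₀.val + 2 = m :=
    ⟨⟨m - 2, by omega⟩, by show m - 2 + 2 = m; omega⟩
  have n1 : i0 s₀ ≠ Fin.rev (i1 s₀) := ne_of_val (by rw [Fin.val_rev, i0_val, i1_val]; omega)
  have n2 : i0 s₀ ≠ Fin.rev (i0 s₀) := (rev_ne _).symm
  have n3 : Fin.rev (i1 s₀) ≠ Fin.rev (i0 s₀) := rev_ne_rev (i01_ne s₀)
  have hent1 : ∀ u v : F, (E (i0 s₀) (Fin.rev (i1 s₀)) u * E (i0 s₀) (Fin.rev (i0 s₀)) v)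
      (i0 s₀) (Fin.rev (i1 s₀)) = u := by
    intro u v
    rw [E_mul_row_a n1, E_diag n2, mul_one,
      E_entry_zero n2 v n1 (fun e => n3 e.2) (fun e => n3 e.2), zero_add]
  have hent2 : ∀ u v : F, (E (i0 s₀) (Fin.rev (i1 s₀)) u * E (i0 s₀) (Fin.rev (i0 s₀)) v)
      (i0 s₀) (Fin.rev (i0 s₀)) = v := by
    intro u v
    rw [E_mul_row_a n1, E_entry n2,
      E_entry_zero n2 v n3 (fun e => n1 e.1.symm)
        (fun e => n1 (by rw [e.1, Fin.rev_rev])), mul_zero, add_zero]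
  have hdiag : ∀ u v : F, (E (i0 s₀) (Fin.rev (i1 s₀)) u * E (i0 s₀) (Fin.rev (i0 s₀)) v)
      (Fin.rev (i1 s₀)) (Fin.rev (i1 s₀)) = 1 := by
    intro u v
    rw [E_mul_row_b n1, E_diag n2]
  refine ⟨fun u => prS (eS (i0 s₀) (Fin.rev (i1 s₀)) n1 u),
    fun v => prS (eS (i0 s₀) (Fin.rev (i0 s₀)) n2 v), ?_, ?_, ?_, ?_⟩
  · show prS (eS _ _ n1 0) = 1
    have : eS (i0 s₀) (Fin.rev (i1 s₀)) n1 (0 : F) = 1 := Subtype.ext (E_zero _ _)
    rw [this, map_one]
  · show prS (eS _ _ n2 0) = 1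
    have : eS (i0 s₀) (Fin.rev (i0 s₀)) n2 (0 : F) = 1 := Subtype.ext (E_zero _ _)
    rw [this, map_one]
  · intro u v u' v' h
    have h' : prS (eS _ _ n1 u * eS _ _ n2 v) = prS (eS _ _ n1 u' * eS _ _ n2 v') := by
      rw [map_mul, map_mul]
      exact h
    have h1 := prS_eq_of_diag h' (Fin.rev (i1 s₀)) (hdiag u v) (hdiag u' v')
    have h2 : E (i0 s₀) (Fin.rev (i1 s₀)) u * E (i0 s₀) (Fin.rev (i0 s₀)) v
        = E (i0 s₀) (Fin.rev (i1 s₀)) u' * E (i0 s₀) (Fin.rev (i0 s₀)) v' :=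
      congrArg Subtype.val h1
    constructor
    · have := hent1 u v
      rw [h2, hent1] at this
      exact this.symm
    · have := hent2 u v
      rw [h2, hent2] at this
      exact this.symm
  · intro s l hs hl
    have hss : s = s₀ := Fin.ext (by omega)
    subst hss
    have e01 : i1 s = i0 l := i1_eq_i0 (by omega)
    have e11 : i1 l = Fin.rev (i0 l) :=
      Fin.ext (by rw [Fin.val_rev, i1_val, i0_val]; omega)
    refine ⟨fun a b => ?_, fun c hc a => ?_, fun c hc b => ?_⟩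
    · show prS (xs s a) * prS (xs l b) * (prS (xs s a))⁻¹ * (prS (xs l b))⁻¹
        = prS (eS _ _ n1 (a * b)) * prS (eS _ _ n2 (a ^ 2 * b))
      rw [← map_inv, ← map_inv, ← map_mul, ← map_mul, ← map_mul, ← map_mul]
      congr 1
      apply Subtype.ext
      show E (i0 s) (i1 s) a * E (i0 l) (i1 l) b * (E (i0 s) (i1 s) a)⁻¹ * (E (i0 l) (i1 l) b)⁻¹
        = E (i0 s) (Fin.rev (i1 s)) (a * b) * E (i0 s) (Fin.rev (i0 s)) (a ^ 2 * b)
      have ep0 : (ep (i0 s) : F) = 1 := by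
        unfold ep
        rw [if_pos (by rw [i0_val]; omega)]
      have ep1 : (ep (i1 s) : F) = 1 := by
        unfold ep
        rw [if_pos (by rw [i1_val]; omega)]
      rw [e11, ← e01, E_dbl (i01_ne s) (fun e => n1 (by rw [e, Fin.rev_rev])) a b, ep0, ep1,
        one_mul, one_mul]
      exact (E_comm n2 n1 (rev_ne _) n1 (fun e => n1 (Fin.rev_injective e)) n2 _ _).eq
    · have k1 : sw (i0 l) (i1 l) (i0 s) = i0 s :=
        sw_of_ne (ne_of_val (by rw [i0_val, i0_val]; omega))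
          (ne_of_val (by rw [i0_val, i1_val]; omega))
          (ne_of_val (by rw [Fin.val_rev, i0_val, i0_val]; omega))
          (ne_of_val (by rw [Fin.val_rev, i0_val, i1_val]; omega))
      have k2 : sw (i0 l) (i1 l) (i1 s) = Fin.rev (i1 s) := by
        rw [e01, sw_left (i01_ne l), e11]
      exact ⟨_, (nn_conj l s hc a).trans (prS_eS_congr _ _ _ k1 k2)⟩
    · have k1 : sw (i0 s) (i1 s) (i0 l) = i0 s := by
        rw [← e01, sw_right (i01_ne s)]
      have k2 : sw (i0 s) (i1 s) (i1 l) = Fin.rev (i0 s) := by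
        rw [e11, ← e01, sw_rev (i01_ne s), sw_right (i01_ne s)]
      exact ⟨_, (nn_conj s l hc b).trans (prS_eS_congr _ _ _ k1 k2)⟩

theorem braid_Ug (hm : 3 ≤ m) (i j : Fin m) (hi : i.val = 0) (hj : j.val = 1) (c d a : F)
    (hc : c ≠ 0) (hd : d ≠ 0) :
    ∃ a', nn xg yg i c * nn xg yg j d * xg i a * (nn xg yg i c * nn xg yg j d)⁻¹
      = (xg j a' : PSpT m F) := by
  have e01 : i1 i = i0 j := i1_eq_i0 (by omega)
  have hwS : nE (i0 i) (i1 i) c * nE (i0 j) (i1 j) d ∈ (SpS : Subgroup (SLn (2 * m) F)) :=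
    (SpS).mul_mem (nE_mem (i01_ne i) c) (nE_mem (i01_ne j) d)
  have hw : nn (xg : Fin m → F → PSpT m F) yg i c * nn xg yg j d
      = prS ⟨nE (i0 i) (i1 i) c * nE (i0 j) (i1 j) d, hwS⟩ := by
    rw [nn_eq, nn_eq, ← map_mul]
    rfl
  have hmono := Mono.mul (nE_mono (i01_ne i) hc) (nE_mono (i01_ne j) hd)
  rw [← Matrix.SpecialLinearGroup.coe_mul] at hmono
  have hconj := mono_conj_E hwS hmono (i01_ne i) a
  have k0 : sw (i0 j) (i1 j) (i0 i) = i0 i :=
    sw_of_ne (ne_of_val (by rw [i0_val, i0_val]; omega))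
      (ne_of_val (by rw [i0_val, i1_val]; omega))
      (ne_of_val (by rw [Fin.val_rev, i0_val, i0_val]; omega))
      (ne_of_val (by rw [Fin.val_rev, i0_val, i1_val]; omega))
  have k1 : (sw (i0 i) (i1 i) * sw (i0 j) (i1 j)) (i0 i) = i0 j := by
    rw [Equiv.Perm.mul_apply, k0, sw_left (i01_ne i), e01]
  have k2 : (sw (i0 i) (i1 i) * sw (i0 j) (i1 j)) (i1 i) = i1 j := by
    rw [Equiv.Perm.mul_apply]
    have : sw (i0 j) (i1 j) (i1 i) = i1 j := by
      rw [e01]
      exact sw_left (i01_ne j)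
    rw [this]
    exact sw_of_ne (ne_of_val (by rw [i0_val, i1_val]; omega))
      (ne_of_val (by rw [i1_val, i1_val]; omega))
      (ne_of_val (by rw [Fin.val_rev, i0_val, i1_val]; omega))
      (ne_of_val (by rw [Fin.val_rev, i1_val, i1_val]; omega))
  rw [k1, k2] at hconj
  refine ⟨dE (i0 i) (i1 i) c ((sw (i0 j) (i1 j)) (i0 i)) * dE (i0 j) (i1 j) d (i0 i) * a /
        (dE (i0 i) (i1 i) c ((sw (i0 j) (i1 j)) (i1 i)) * dE (i0 j) (i1 j) d (i1 i)), ?_⟩
  rw [hw]
  show prS _ * prS (xs i a) * (prS _)⁻¹ = prS (xs j _)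
  rw [← map_inv, ← map_mul, ← map_mul]
  congr 1
  apply Subtype.ext
  exact hconj

/-! ### the torus -/

omit [Finite F] in
theorem mono_act {s : SpT m F} {d : Fin (2 * m) → F}
    (hs : Mono 1 d ((s : SLn (2 * m) F) : Matrix (Fin (2 * m)) (Fin (2 * m)) F)) (i : Fin m)
    (a : F) : prS s * xg i a * (prS s)⁻¹ = xg i (d (i0 i) * a / d (i1 i)) := by
  show prS s * prS (xs i a) * (prS s)⁻¹ = prS (xs i _)
  rw [← map_inv, ← map_mul, ← map_mul]
  congr 1
  apply Subtype.ext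
  exact mono_conj_E s.2 hs (i01_ne i) a

theorem mono_mem_Nm {s : SpT m F} {d : Fin (2 * m) → F}
    (hs : Mono 1 d ((s : SLn (2 * m) F) : Matrix (Fin (2 * m)) (Fin (2 * m)) F)) :
    prS s ∈ Nm (Ug : Subgroup (PSpT m F)) ∧ prS s ∈ Nm (Vg : Subgroup (PSpT m F)) :=
  ⟨pr_Bo_le_Nm (hs.one_bt _), pr_Bo'_le_Nm (hs.one_bt _)⟩

/-- elements normalising both `Ug` and `Vg` are diagonal -/
theorem torus_rep (t : PSpT m F) (hU : t ∈ Nm (Ug : Subgroup (PSpT m F)))
    (hV : t ∈ Nm (Vg : Subgroup (PSpT m F))) :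
    ∃ (s : SpT m F) (d : Fin (2 * m) → F),
      Mono 1 d ((s : SLn (2 * m) F) : Matrix (Fin (2 * m)) (Fin (2 * m)) F) ∧ prS s = t := by
  rw [Nm_Ug] at hU
  obtain ⟨b, hb, rfl⟩ := hU
  have hτ : descS tInv (fun s hs => tInv_mem hs) (prS b) ∈ Nm (Ug : Subgroup (PSpT m F)) := by
    intro k
    obtain ⟨k', rfl⟩ := (descS tInv (fun s hs => tInv_mem hs)).surjective k
    rw [← map_inv, ← map_mul, ← map_mul]
    exact ((descS_mem_map_iff tInv _ Vo Uo tInv_mem_Uo _).trans (hV k')).trans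
      (descS_mem_map_iff tInv _ Vo Uo tInv_mem_Uo _).symm
  rw [Nm_Ug] at hτ
  obtain ⟨b', hb', e⟩ := hτ
  have h1 : prS (resS tInv (fun s hs => tInv_mem hs) b)
      ∈ (liftS (Bo : Subgroup (SLn (2 * m) F))).map prS := ⟨b', hb', e⟩
  have h2 : tInv (b : SLn (2 * m) F) ∈ (Bo : Subgroup (SLn (2 * m) F)) := prS_mem_map_btS.1 h1
  have h3 : (b : SLn (2 * m) F) ∈ (Bo' : Subgroup (SLn (2 * m) F)) := (tInv_mem_Bo _).1 h2
  exact ⟨b, fun i => (b : SLn (2 * m) F) i i, mono_of_diag (mem_liftS.1 hb) h3, rfl⟩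

theorem tor_Ug (t : PSpT m F) (hU : t ∈ Nm (Ug : Subgroup (PSpT m F)))
    (hV : t ∈ Nm (Vg : Subgroup (PSpT m F))) (i : Fin m) :
    ∃ k : Fˣ, ∀ a : F, t * xg i a * t⁻¹ = xg i (k * a) := by
  obtain ⟨s, d, hs, rfl⟩ := torus_rep t hU hV
  have hd := hs.ne_zero'
  refine ⟨Units.mk0 (d (i0 i) / d (i1 i)) (div_ne_zero (hd _) (hd _)), fun a => ?_⟩
  rw [mono_act hs i a, Units.val_mk0, mul_div_right_comm]

theorem tor_sq_Ug (i : Fin m) (k : Fˣ) : ∃ t : PSpT m F, t ∈ Nm (Ug : Subgroup (PSpT m F)) ∧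
    t ∈ Nm (Vg : Subgroup (PSpT m F)) ∧ ∀ a : F, t * xg i a * t⁻¹ = xg i ((k : F) ^ 2 * a) := by
  obtain ⟨d, hd, h1, h2, -⟩ := hE_mono (i01_ne i) (c := (k : F)) k.ne_zero
  have hs : Mono 1 d (((⟨hE (i0 i) (i1 i) (k : F), hE_mem (i01_ne i) _⟩ : SpT m F) :
      SLn (2 * m) F) : Matrix (Fin (2 * m)) (Fin (2 * m)) F) := hd
  refine ⟨prS ⟨hE (i0 i) (i1 i) (k : F), hE_mem (i01_ne i) _⟩, (mono_mem_Nm hs).1,
    (mono_mem_Nm hs).2, fun a => ?_⟩
  rw [mono_act hs i a, h1, h2, div_inv_eq_mul]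
  congr 1
  ring

theorem tor_short_Ug (hm : 2 ≤ m) (i : Fin m) (hi : i.val = 0) (k : Fˣ) :
    ∃ t : PSpT m F, t ∈ Nm (Ug : Subgroup (PSpT m F)) ∧
    t ∈ Nm (Vg : Subgroup (PSpT m F)) ∧ ∀ a : F, t * xg i a * t⁻¹ = xg i (k * a) := by
  obtain ⟨j, hj⟩ : ∃ j : Fin m, j.val = 1 := ⟨⟨1, by omega⟩, rfl⟩
  have e01 : i1 i = i0 j := i1_eq_i0 (by omega)
  obtain ⟨d, hd, h1, -, h3⟩ := hE_mono (i01_ne j) (c := ((k : F))⁻¹) (inv_ne_zero k.ne_zero)
  have hs : Mono 1 d (((⟨hE (i0 j) (i1 j) ((k : F))⁻¹, hE_mem (i01_ne j) _⟩ : SpT m F) :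
      SLn (2 * m) F) : Matrix (Fin (2 * m)) (Fin (2 * m)) F) := hd
  refine ⟨prS ⟨hE (i0 j) (i1 j) ((k : F))⁻¹, hE_mem (i01_ne j) _⟩, (mono_mem_Nm hs).1,
    (mono_mem_Nm hs).2, fun a => ?_⟩
  have h4 : d (i0 i) = 1 := h3 _ (ne_of_val (by rw [i0_val, i0_val]; omega))
    (ne_of_val (by rw [i0_val, i1_val]; omega))
    (ne_of_val (by rw [Fin.val_rev, i0_val, i0_val]; omega))
    (ne_of_val (by rw [Fin.val_rev, i0_val, i1_val]; omega))
  rw [mono_act hs i a, h4, e01, h1, div_inv_eq_mul]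
  congr 1
  ring

theorem tor_long_Ug (l : Fin m) (hl : l.val + 1 = m) (t : PSpT m F)
    (hU : t ∈ Nm (Ug : Subgroup (PSpT m F))) (hV : t ∈ Nm (Vg : Subgroup (PSpT m F))) :
    ∃ k : Fˣ, ∀ a : F, t * xg l a * t⁻¹ = xg l ((k : F) ^ 2 * a) := by
  obtain ⟨s, d, hs, rfl⟩ := torus_rep t hU hV
  have hd := hs.ne_zero'
  have e11 : i1 l = Fin.rev (i0 l) :=
    Fin.ext (by rw [Fin.val_rev, i1_val, i0_val]; omega)
  have h1 := mono_d s.2 hs (i0 l)
  rw [Equiv.Perm.one_apply, ep_mul_self] at h1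
  refine ⟨Units.mk0 (d (i0 l)) (hd _), fun a => ?_⟩
  rw [mono_act hs l a, Units.val_mk0, e11]
  congr 1
  rw [div_eq_iff (hd _)]
  linear_combination (-(d (i0 l) * a)) * h1

/-! ### rank one -/

theorem rk1_Ug (i : Fin m) (c : F) (hc : c ≠ 0) (a : F) :
    ∃ b : F, nn xg yg i c * xg i a * (nn xg yg i c)⁻¹ = (yg i b : PSpT m F) := by
  exact ⟨_, (nn_conj i i hc a).trans
    (prS_eS_congr _ (i01_ne i).symm _ (sw_left (i01_ne i)) (sw_right (i01_ne i)))⟩

omit [Finite F] in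
/-- a column of a product with a root element which is not affected -/
theorem mul_E_col' {a b : Fin (2 * m)} (hab : a ≠ b) (c : F) (s : SLn (2 * m) F)
    (x y : Fin (2 * m)) (hy : y ≠ b) (hy' : y ≠ Fin.rev a) : (s * E a b c) x y = s x y := by
  by_cases hb : b = Fin.rev a
  · subst hb
    rw [E_long, mul_tv_apply hab, if_neg hy, add_zero]
  · rw [mul_E_apply hab hb, if_neg hy, if_neg hy', add_zero, add_zero]

theorem rk2_Ug (i : Fin m) (c c' a b : F) (ha : a ≠ 0)
    (h : (xg i c * yg i c' * xg i c) * xg i a * (xg i c * yg i c' * xg i c)⁻¹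
      = (yg i b : PSpT m F)) : c * c' = -1 := by
  have hne := i01_ne i
  have h' : prS ((xs i c * ys i c' * xs i c) * xs i a) = prS (ys i b * (xs i c * ys i c' * xs i c)) := by
    have h1 : (xg i c * yg i c' * xg i c) * xg i a
        = (yg i b : PSpT m F) * (xg i c * yg i c' * xg i c) := by
      rw [← h]
      group
    simp only [map_mul]
    exact h1
  obtain ⟨r, hr⟩ := prS_eq h'
  have hg : ∀ y, (E (i0 i) (i1 i) c * E (i1 i) (i0 i) c' * E (i0 i) (i1 i) c) (i0 i) y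
      = ((if i0 i = y then 1 else 0) + (if y = i1 i then c else 0))
        + c * ((if i1 i = y then 1 else 0)
          + c' * ((if i0 i = y then 1 else 0) + (if y = i1 i then c else 0))) := by
    intro y
    rw [mul_assoc, E_mul_row_a hne, E_mul_row_b hne.symm, E_mul_row_a hne.symm, E_row_a hne,
      E_row_b hne]
  have hAA := hr (i0 i) (i0 i)
  have hAB := hr (i0 i) (i1 i)
  have e1 : ((ys i b * (xs i c * ys i c' * xs i c) : SpT m F) : SLn (2 * m) F)
      = E (i1 i) (i0 i) b * (E (i0 i) (i1 i) c * E (i1 i) (i0 i) c' * E (i0 i) (i1 i) c) := rfl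
  have e2 : (((xs i c * ys i c' * xs i c) * xs i a : SpT m F) : SLn (2 * m) F)
      = (E (i0 i) (i1 i) c * E (i1 i) (i0 i) c' * E (i0 i) (i1 i) c) * E (i0 i) (i1 i) a := rfl
  rw [e1, e2, E_mul_row_b hne.symm, hg,
    mul_E_col' hne a _ _ _ hne (rev_ne _).symm, hg] at hAA
  rw [e1, e2, E_mul_row_b hne.symm, hg, mul_E_col hne, hg, hg] at hAB
  simp only [if_true, if_neg hne, if_neg hne.symm, add_zero, zero_add, mul_one] at hAA hAB
  by_contra hcc
  have hcc' : 1 + c * c' ≠ 0 := fun e => hcc (by linear_combination e)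
  have hr1 : r = 1 := by
    have : (1 + c * c') * (1 - r) = 0 := by linear_combination hAA
    rcases mul_eq_zero.1 this with h3 | h3
    · exact absurd h3 hcc'
    · linear_combination -h3
  rw [hr1] at hAB
  have : (1 + c * c') * a = 0 := by linear_combination -hAB
  rcases mul_eq_zero.1 this with h3 | h3
  · exact hcc' h3
  · exact ha h3

/-! ### field and diagonal automorphisms -/

theorem field_Ug (σ : F ≃+* F) : ∃ φ : MulAut (PSpT m F),
    (∀ (i : Fin m) (a : F), φ (xg i a) = xg i (σ a)) ∧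
    (∀ g, φ g ∈ (Ug : Subgroup (PSpT m F)) ↔ g ∈ (Ug : Subgroup (PSpT m F))) ∧
    (∀ g, φ g ∈ (Vg : Subgroup (PSpT m F)) ↔ g ∈ (Vg : Subgroup (PSpT m F))) := by
  refine ⟨descS (fAut σ) (fun s hs => fAut_mem σ hs), fun i a => ?_,
    descS_mem_map_iff (fAut σ) _ Uo Uo (fAut_mem_utS σ _ _),
    descS_mem_map_iff (fAut σ) _ Vo Vo (fAut_mem_utS σ _ _)⟩
  show descS (fAut σ) _ (prS (xs i a)) = prS (xs i (σ a))
  rw [descS_prS]
  congr 1
  exact Subtype.ext (fAut_E σ (i01_ne i) a)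

/-- partial products -/
def eprodS (d : Fin m → Fˣ) (n : ℕ) : Fˣ :=
  ∏ i ∈ Finset.univ.filter (fun i : Fin m => n ≤ i.val), d i

omit [Finite F] in
theorem eprodS_step (d : Fin m → Fˣ) (i : Fin m) :
    eprodS d i.val = d i * eprodS d (i.val + 1) := by
  unfold eprodS
  have : Finset.univ.filter (fun k : Fin m => i.val ≤ k.val)
      = insert i (Finset.univ.filter (fun k : Fin m => i.val + 1 ≤ k.val)) := by
    ext k
    simp only [Finset.mem_filter, Finset.mem_univ, true_and, Finset.mem_insert]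
    constructor
    · intro h
      by_cases e : k = i
      · exact Or.inl e
      · right
        have : k.val ≠ i.val := fun e' => e (Fin.ext e')
        omega
    · rintro (rfl | h)
      · exact le_rfl
      · omega
  rw [this, Finset.prod_insert]
  simp only [Finset.mem_filter, Finset.mem_univ, true_and]
  omega

omit [Finite F] in
theorem eprodS_top (d : Fin m → Fˣ) : eprodS d m = 1 := by
  unfold eprodS
  apply Finset.prod_eq_one
  intro i hi
  simp only [Finset.mem_filter, Finset.mem_univ, true_and] at hi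
  exact absurd i.isLt (by omega)

/-- the diagonal matrix inducing a diagonal automorphism -/
def dlt (d : Fin m → Fˣ) (j : Fin (2 * m)) : Fˣ :=
  if j.val < m then eprodS d j.val else eprodS d (m - 1) * (eprodS d (Fin.rev j).val)⁻¹

omit [Finite F] in
theorem dlt_rev (d : Fin m → Fˣ) (j : Fin (2 * m)) :
    dlt d j * dlt d (Fin.rev j) = eprodS d (m - 1) := by
  have hj := j.isLt
  unfold dlt
  by_cases h : j.val < m
  · rw [if_pos h, if_neg (by rw [Fin.val_rev]; omega), Fin.rev_rev, mul_comm, inv_mul_cancel_right]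
  · rw [if_neg h, if_pos (by rw [Fin.val_rev]; omega), inv_mul_cancel_right]

omit [Finite F] in
theorem dlt_ratio (d : Fin m → Fˣ) (i : Fin m) : dlt d (i0 i) = d i * dlt d (i1 i) := by
  have hi := i.isLt
  unfold dlt
  rw [if_pos (by rw [i0_val]; exact hi), i0_val]
  by_cases h : i.val + 1 < m
  · rw [if_pos (by rw [i1_val]; exact h), i1_val]
    exact eprodS_step d i
  · have e : (Fin.rev (i1 i)).val = m - 1 := by
      rw [Fin.val_rev, i1_val]
      omega
    have e' : m - 1 = i.val := by omega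
    rw [if_neg (by rw [i1_val]; exact h), e, mul_inv_cancel, mul_one, eprodS_step d i]
    have e'' : i.val + 1 = m := by omega
    rw [e'', eprodS_top, mul_one]

theorem glConj_mem_ut' {n : ℕ} (δ : Fin n → Fˣ) {α : Type*} [LinearOrder α] (b : Fin n → α)
    (hb : Function.Injective b) (s : SLn n F) :
    glConj (dGL δ) s ∈ utS b hb ↔ s ∈ utS b hb :=
  (dGL_mono δ).rel_ut (fun _ => Units.ne_zero _) (glConj_key _ s) b b hb hb (fun _ _ => Iff.rfl)

theorem diag_Ug (d : Fin m → Fˣ) : ∃ φ : MulAut (PSpT m F),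
    (∀ (i : Fin m) (a : F), φ (xg i a) = xg i (d i * a)) ∧
    (∀ g, φ g ∈ (Ug : Subgroup (PSpT m F)) ↔ g ∈ (Ug : Subgroup (PSpT m F))) ∧
    (∀ g, φ g ∈ (Vg : Subgroup (PSpT m F)) ↔ g ∈ (Vg : Subgroup (PSpT m F))) := by
  refine ⟨descS (glConj (dGL (dlt d))) (fun s hs => glConj_dGL_mem _ _ (dlt_rev d) hs),
    fun i a => ?_, descS_mem_map_iff _ _ Uo Uo (glConj_mem_ut' _ _ _),
    descS_mem_map_iff _ _ Vo Vo (glConj_mem_ut' _ _ _)⟩
  show descS _ _ (prS (xs i a)) = prS (xs i _)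
  rw [descS_prS]
  congr 1
  apply Subtype.ext
  show glConj (dGL (dlt d)) (E (i0 i) (i1 i) a) = E (i0 i) (i1 i) (d i * a)
  rw [glConj_dGL_E _ _ (dlt_rev d) (i01_ne i), dlt_ratio, Units.val_mul]
  congr 1
  have hz : ((dlt d (i1 i) : Fˣ) : F) ≠ 0 := Units.ne_zero _
  field_simp

end fin

/-! ### generation -/

section gen

variable [Finite F]

omit [Finite F] in
/-- positive adjacent root elements are simple -/
theorem adj_pos (j j' : Fin (2 * m)) (h : j.val + 1 = j'.val) :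
    ∃ (k : Fin m) (e : F), e ≠ 0 ∧ ∀ c : F, E j j' c = E (i0 k) (i1 k) (e * c) := by
  obtain ⟨k, e, he, hk⟩ := adj_neg (F := F) j j' h
  refine ⟨k, e, he, fun c => ?_⟩
  have hne : j ≠ j' := ne_of_val (by omega)
  have h1 := hk (-c)
  have h2 := congrArg tInv h1
  rw [tInv_E hne.symm, tInv_E (i01_ne k).symm, neg_neg] at h2
  rw [h2]
  congr 1
  ring

/-- the root subgroups contained in a subgroup -/
def Rt (K : Subgroup (SLn (2 * m) F)) (a b : Fin (2 * m)) : Prop := ∀ c : F, E a b c ∈ K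

omit [Finite F] in
theorem Rt_adj {K : Subgroup (SLn (2 * m) F)} (hx : ∀ (k : Fin m) (c : F), E (i0 k) (i1 k) c ∈ K)
    (hy : ∀ (k : Fin m) (c : F), E (i1 k) (i0 k) c ∈ K) (j j' : Fin (2 * m))
    (h : j.val + 1 = j'.val) : Rt K j j' ∧ Rt K j' j := by
  constructor
  · obtain ⟨k, e, -, hk⟩ := adj_pos (F := F) j j' h
    intro c
    rw [hk]
    exact hx k _
  · obtain ⟨k, e, -, hk⟩ := adj_neg (F := F) j j' h
    intro c
    rw [hk]
    exact hy k _

omit [Finite F] in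
theorem nE_mem_K {K : Subgroup (SLn (2 * m) F)} {a b : Fin (2 * m)} (h1 : Rt K a b)
    (h2 : Rt K b a) (c : F) : nE a b c ∈ K :=
  K.mul_mem (K.mul_mem (h1 c) (h2 _)) (h1 c)

theorem Rt_conj {K : Subgroup (SLn (2 * m) F)} {j j' : Fin (2 * m)} (hjj : j ≠ j')
    (h1 : Rt K j j') (h2 : Rt K j' j) {a b : Fin (2 * m)} (hab : a ≠ b) (h : Rt K a b) :
    Rt K (sw j j' a) (sw j j' b) := by
  intro c
  have hn := nE_mem_K h1 h2 (1 : F)
  have hmono := nE_mono hjj (one_ne_zero (α := F))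
  have hd := hmono.ne_zero'
  have hconj := mono_conj_E (nE_mem hjj 1) hmono hab (c * dE j j' 1 b / dE j j' 1 a)
  have e : dE j j' (1 : F) a * (c * dE j j' 1 b / dE j j' 1 a) / dE j j' 1 b = c := by
    have := hd a
    have := hd b
    field_simp
  rw [e] at hconj
  rw [← hconj]
  exact K.mul_mem (K.mul_mem hn (h _)) (K.inv_mem hn)

theorem Rt_long {K : Subgroup (SLn (2 * m) F)}
    (hadj : ∀ j j' : Fin (2 * m), j.val + 1 = j'.val → Rt K j j' ∧ Rt K j' j) :
    ∀ (n : ℕ) (a : Fin (2 * m)), a.val + n + 1 = m → Rt K a (Fin.rev a) ∧ Rt K (Fin.rev a) a := by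
  intro n
  induction n with
  | zero =>
    intro a ha
    have : a.val + 1 = (Fin.rev a).val := by
      rw [Fin.val_rev]
      omega
    exact hadj a (Fin.rev a) this
  | succ n ih =>
    intro a ha
    obtain ⟨a', ha'⟩ : ∃ a' : Fin (2 * m), a'.val = a.val + 1 := ⟨⟨a.val + 1, by omega⟩, rfl⟩
    have hne : a ≠ a' := ne_of_val (by omega)
    obtain ⟨h1, h2⟩ := ih a' (by omega)
    obtain ⟨g1, g2⟩ := hadj a a' ha'.symm
    have c1 := Rt_conj hne g1 g2 (rev_ne a').symm h1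
    have c2 := Rt_conj hne g1 g2 (rev_ne a') h2
    rw [sw_rev hne, sw_right hne] at c1
    rw [sw_rev hne, sw_right hne] at c2
    exact ⟨c1, c2⟩

theorem Rt_all {K : Subgroup (SLn (2 * m) F)}
    (hadj : ∀ j j' : Fin (2 * m), j.val + 1 = j'.val → Rt K j j' ∧ Rt K j' j) :
    ∀ (n : ℕ) (a b : Fin (2 * m)), a.val + n + 1 = b.val → Rt K a b ∧ Rt K b a := by
  intro n
  induction n with
  | zero =>
    intro a b hab
    exact hadj a b hab
  | succ n ih =>
    intro a b hab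
    have ha := a.isLt
    have hb := b.isLt
    by_cases hlong : b = Fin.rev a
    · subst hlong
      rw [Fin.val_rev] at hab
      exact Rt_long hadj (m - 1 - a.val) a (by omega)
    · have hlong' : a.val + b.val + 1 ≠ 2 * m := by
        intro e
        apply hlong
        apply Fin.ext
        rw [Fin.val_rev]
        omega
      by_cases hsum : a.val + b.val = 2 * m
      · obtain ⟨a', ha'⟩ : ∃ a' : Fin (2 * m), a'.val = a.val + 1 := ⟨⟨a.val + 1, by omega⟩, rfl⟩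
        have hne : a ≠ a' := ne_of_val (by omega)
        obtain ⟨h1, h2⟩ := ih a' b (by omega)
        obtain ⟨g1, g2⟩ := hadj a a' ha'.symm
        have hb' : sw a a' b = b :=
          sw_of_ne (ne_of_val (by omega)) (ne_of_val (by omega))
            (ne_of_val (by rw [Fin.val_rev]; omega)) (ne_of_val (by rw [Fin.val_rev]; omega))
        have hne' : a' ≠ b := ne_of_val (by omega)
        have c1 := Rt_conj hne g1 g2 hne' h1
        have c2 := Rt_conj hne g1 g2 hne'.symm h2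
        rw [sw_right hne, hb'] at c1
        rw [sw_right hne, hb'] at c2
        exact ⟨c1, c2⟩
      · obtain ⟨b', hb'⟩ : ∃ b' : Fin (2 * m), b'.val + 1 = b.val :=
          ⟨⟨b.val - 1, by omega⟩, by show b.val - 1 + 1 = b.val; omega⟩
        have hne : b' ≠ b := ne_of_val (by omega)
        obtain ⟨h1, h2⟩ := ih a b' (by omega)
        obtain ⟨g1, g2⟩ := hadj b' b hb'
        have ha' : sw b' b a = a :=
          sw_of_ne (ne_of_val (by omega)) (ne_of_val (by omega))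
            (ne_of_val (by rw [Fin.val_rev]; omega)) (ne_of_val (by rw [Fin.val_rev]; omega))
        have hne' : a ≠ b' := ne_of_val (by omega)
        have c1 := Rt_conj hne g1 g2 hne' h1
        have c2 := Rt_conj hne g1 g2 hne'.symm h2
        rw [sw_left hne, ha'] at c1
        rw [sw_left hne, ha'] at c2
        exact ⟨c1, c2⟩

theorem Rt_ne {K : Subgroup (SLn (2 * m) F)}
    (hadj : ∀ j j' : Fin (2 * m), j.val + 1 = j'.val → Rt K j j' ∧ Rt K j' j)
    {a b : Fin (2 * m)} (hab : a ≠ b) : Rt K a b := by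
  rcases lt_or_gt_of_ne (fun e => hab (Fin.ext e) : a.val ≠ b.val) with h | h
  · exact (Rt_all hadj (b.val - a.val - 1) a b (by omega)).1
  · exact (Rt_all hadj (a.val - b.val - 1) b a (by omega)).2

theorem torus_mem_K {K : Subgroup (SLn (2 * m) F)} (hR : ∀ a b : Fin (2 * m), a ≠ b → Rt K a b) :
    ∀ (k : ℕ), k ≤ m → ∀ (w : SLn (2 * m) F) (d : Fin (2 * m) → F),
      w ∈ (SpS : Subgroup (SLn (2 * m) F)) →
      Mono 1 d (w : Matrix (Fin (2 * m)) (Fin (2 * m)) F) →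
      (∀ j : Fin (2 * m), k ≤ j.val → k ≤ (Fin.rev j).val → d j = 1) → w ∈ K := by
  intro k
  induction k with
  | zero =>
    intro _ w d _ hw hd
    have : w = 1 := by
      apply Matrix.SpecialLinearGroup.ext
      intro i j
      show (w : Matrix (Fin (2 * m)) (Fin (2 * m)) F) i j
        = (1 : Matrix (Fin (2 * m)) (Fin (2 * m)) F) i j
      rw [hw, Matrix.one_apply, hd j (Nat.zero_le _) (Nat.zero_le _)]
      rfl
    rw [this]
    exact K.one_mem
  | succ k ih =>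
    intro hk w d hwS hw hd
    obtain ⟨a, ha⟩ : ∃ a : Fin (2 * m), a.val = k := ⟨⟨k, by omega⟩, rfl⟩
    have hne : a ≠ Fin.rev a := (rev_ne a).symm
    have hda := hw.ne_zero' a
    obtain ⟨d', hd', h1, h2, h3⟩ := hE_mono hne (c := (d a)⁻¹) (inv_ne_zero hda)
    have hmul : Mono 1 (fun j => d j * d' j)
        ((w * hE a (Fin.rev a) (d a)⁻¹ : SLn (2 * m) F) : Matrix (Fin (2 * m)) (Fin (2 * m)) F) := by
      have := Mono.mul hw hd'
      rw [one_mul] at this
      exact this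
    have hmem : w * hE a (Fin.rev a) (d a)⁻¹ ∈ K := by
      refine ih (by omega) _ _ ((SpS).mul_mem hwS (hE_mem hne _)) hmul ?_
      intro j hj1 hj2
      show d j * d' j = 1
      by_cases e1 : j = a
      · rw [e1, h1, mul_inv_cancel₀ hda]
      by_cases e2 : j = Fin.rev a
      · have := mono_d hwS hw a
        rw [Equiv.Perm.one_apply, ep_mul_self] at this
        rw [e2, h2, inv_inv, this]
      · have hj : j.val ≠ k := fun e => e1 (Fin.ext (e.trans ha.symm))
        have hj' : (Fin.rev j).val ≠ k := fun e => e2 (by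
          have : Fin.rev j = a := Fin.ext (e.trans ha.symm)
          rw [← this, Fin.rev_rev])
        rw [hd j (by omega) (by omega), h3 j e1 e2 e2 (by rw [Fin.rev_rev]; exact e1), mul_one]
    have hh : hE a (Fin.rev a) (d a)⁻¹ ∈ K :=
      K.mul_mem (nE_mem_K (hR _ _ hne) (hR _ _ hne.symm) _)
        (nE_mem_K (hR _ _ hne) (hR _ _ hne.symm) _)
    have : w = w * hE a (Fin.rev a) (d a)⁻¹ * (hE a (Fin.rev a) (d a)⁻¹)⁻¹ := by group
    rw [this]
    exact K.mul_mem hmem (K.inv_mem hh)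

theorem mono_one_mem_K {K : Subgroup (SLn (2 * m) F)}
    (hR : ∀ a b : Fin (2 * m), a ≠ b → Rt K a b) (w : SLn (2 * m) F) (d : Fin (2 * m) → F)
    (hwS : w ∈ (SpS : Subgroup (SLn (2 * m) F)))
    (hw : Mono 1 d (w : Matrix (Fin (2 * m)) (Fin (2 * m)) F)) : w ∈ K :=
  torus_mem_K hR m le_rfl w d hwS hw (fun j h1 h2 => by
    have := j.isLt
    rw [Fin.val_rev] at h2
    omega)

theorem mono_mem_K {K : Subgroup (SLn (2 * m) F)}
    (hR : ∀ a b : Fin (2 * m), a ≠ b → Rt K a b) :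
    ∀ (n : ℕ) (w : SLn (2 * m) F) (σ : Equiv.Perm (Fin (2 * m))) (d : Fin (2 * m) → F),
      w ∈ (SpS : Subgroup (SLn (2 * m) F)) →
      Mono σ d (w : Matrix (Fin (2 * m)) (Fin (2 * m)) F) → (invS σ).card ≤ n → w ∈ K := by
  intro n
  induction n with
  | zero =>
    intro w σ d hwS hw hn
    have hσ : σ = 1 := by
      by_contra hne
      obtain ⟨i, j, hij, hdesc⟩ := exists_descent' hne
      have hmem : (i, j) ∈ invS σ := by
        rw [invS, Finset.mem_filter]
        have hlt : i < j := Fin.lt_def.2 (by omega)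
        exact ⟨Finset.mem_univ _, hlt, hdesc⟩
      have := Finset.card_pos.2 ⟨_, hmem⟩
      omega
    subst hσ
    exact mono_one_mem_K hR w d hwS hw
  | succ n ih =>
    intro w σ d hwS hw hn
    by_cases hσ : σ = 1
    · subst hσ
      exact mono_one_mem_K hR w d hwS hw
    · obtain ⟨i, j, hij, hdesc⟩ := exists_descent' hσ
      have hne : i ≠ j := ne_of_val (by omega)
      have hmul := Mono.mul hw (nE_mono hne (one_ne_zero (α := F)))
      rw [← Matrix.SpecialLinearGroup.coe_mul] at hmul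
      have hlt := inv_lt hij (fun j => mono_rev hwS hw j) hdesc
      have hmem : w * nE i j 1 ∈ K :=
        ih _ _ _ ((SpS).mul_mem hwS (nE_mem hne 1)) hmul (by omega)
      have hn' : nE i j (1 : F) ∈ K := nE_mem_K (hR _ _ hne) (hR _ _ hne.symm) 1
      have : w = w * nE i j 1 * (nE i j 1)⁻¹ := by group
      rw [this]
      exact K.mul_mem hmem (K.inv_mem hn')

theorem gen_Ug (H : Subgroup (PSpT m F)) (hx : ∀ (i : Fin m) (a : F), xg i a ∈ H)
    (hy : ∀ (i : Fin m) (a : F), yg i a ∈ H) : H = ⊤ := by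
  have hmemK : ∀ g : SpT m F, (g : SLn (2 * m) F)
      ∈ (H.comap prS).map (SpS : Subgroup (SLn (2 * m) F)).subtype → prS g ∈ H := by
    intro g hg
    obtain ⟨g', hg', e⟩ := Subgroup.mem_map.1 hg
    have : g' = g := Subtype.ext e
    rw [← this]
    exact hg'
  have hKx : ∀ (k : Fin m) (c : F), E (i0 k) (i1 k) c
      ∈ (H.comap prS).map (SpS : Subgroup (SLn (2 * m) F)).subtype :=
    fun k c => Subgroup.mem_map.2 ⟨xs k c, hx k c, rfl⟩
  have hKy : ∀ (k : Fin m) (c : F), E (i1 k) (i0 k) c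
      ∈ (H.comap prS).map (SpS : Subgroup (SLn (2 * m) F)).subtype :=
    fun k c => Subgroup.mem_map.2 ⟨ys k c, hy k c, rfl⟩
  have hadj := Rt_adj hKx hKy
  have hR : ∀ a b : Fin (2 * m), a ≠ b
      → Rt ((H.comap prS).map (SpS : Subgroup (SLn (2 * m) F)).subtype) a b :=
    fun a b hab => Rt_ne hadj hab
  have hU : (UpS : Subgroup (SLn (2 * m) F))
      ≤ (H.comap prS).map (SpS : Subgroup (SLn (2 * m) F)).subtype := by
    unfold UpS
    rw [Subgroup.closure_le]
    rintro _ ⟨a, b, c, hab, rfl⟩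
    exact hR a b hab.ne c
  rw [eq_top_iff]
  intro g _
  obtain ⟨g₀, rfl⟩ := prS_surj g
  obtain ⟨b₁, b₂, w, σ, d, hb₁, hb₂, hw, rfl⟩ := bruhatT g₀
  apply hmemK
  exact Subgroup.mul_mem _ (Subgroup.mul_mem _ (hU hb₁) (mono_mem_K hR _ w σ d w.2 hw le_rfl))
    (hU hb₂)

/-- **The `PSp_{2m}` data**, `m ≥ 2`. -/
theorem okC (p : ℕ) [Fact p.Prime] [CharP F p] (hm : 2 ≤ m) :
    Cfsg.Agent.Lib.Helper27.SpOut.OkC m p (xg : Fin m → F → PSpT m F) yg Ug Vg Qg where
  hm := hm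
  x_add := xg_add
  y_add := yg_add
  x_disj := xg_disj
  x_mem := xg_mem
  y_mem := yg_mem
  syl := syl_Ug p
  opp_inf := opp_inf (by omega)
  opp := opp_Ug
  ovr := ovr_Ug
  Q_ge := Qg_ge
  Q_ne := Qg_ne
  Q_y := Qg_y
  Q_inj := Qg_inj
  Q_le := Qg_le'
  Q_V := Qg_V
  tau := tau_Ug
  comm_xy := comm_xy
  ncomm_xy := ncomm_xy
  comm_xx := comm_xx
  ncomm_xx := ncomm_xx
  chev := chev_Ug
  dbl := dbl_Ug hm
  braid := braid_Ug
  tor := tor_Ug
  tor_sq := tor_sq_Ug
  tor_short := tor_short_Ug hm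
  tor_long := tor_long_Ug
  rk1 := rk1_Ug
  rk2 := rk2_Ug
  gen := gen_Ug
  field := field_Ug
  diag := diag_Ug

end gen

end Cfsg.Agent.Lib.Helper27.SpInst
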