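import Mathlib
import Cfsg.Prelude.Def_KGroupFacts
import Cfsg.Agent.Lib.Helper27.SpOut

/-!
# Outer automorphisms of a group with a `PSp_{2m}`-type presentation (abstract part, II)

* `OkC.card_out`: in odd characteristic or for `m ≥ 3`, the outer automorphism group has order
  `gcd (2, |F| - 1) * |Aut F|`.
* `OkC.out_exc`: for `m = 2` in characteristic `2`, given a graph automorphism whose square is
  the Frobenius field automorphism, the outer automorphism group is cyclic of order `2 * |Aut F|`.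
-/

set_option autoImplicit false
set_option linter.unusedSectionVars false

namespace Cfsg.Agent.Lib.Helper27.SpOut

open scoped Pointwise
open Cfsg.Agent.Lib.Helper27.PslnOut

variable {F : Type*} [Field F] [Finite F] {G : Type*} [Group G] [Finite G]

/-- the vector `(1, …, 1, c)` -/
def eL {m : ℕ} (c : Fˣ) : Fin m → Fˣ := fun i => if i.val + 1 = m then c else 1

omit [Finite F] in
theorem eL_mul {m : ℕ} (c c' : Fˣ) : (eL (c * c') : Fin m → Fˣ) = eL c * eL c' := by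
  funext i
  simp only [eL, Pi.mul_apply]
  split_ifs <;> simp

omit [Finite F] in
theorem eL_inv {m : ℕ} (c : Fˣ) : (eL c⁻¹ : Fin m → Fˣ) = (eL c)⁻¹ := by
  funext i
  simp only [eL, Pi.inv_apply]
  split_ifs <;> simp

variable {m : ℕ} {p : ℕ} [Fact p.Prime] {x y : Fin m → F → G} {U V : Subgroup G}
  {Q : Fin m → Subgroup G}

namespace OkC

variable (h : OkC m p x y U V Q)
include h

/-- the relation "`α` induces the field automorphism `σ`" -/
def Rel (α : MulAut G) (σ : RingAut F) : Prop :=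
  ∃ (g : G) (c : Fin m → F), h.Adm ((MulAut.conj g)⁻¹ * α) ∧
    ∀ i a, ((MulAut.conj g)⁻¹ * α) (x i a) = x i (c i * σ a)

theorem rel_exists (hasym : (2 : F) ≠ 0 ∨ 3 ≤ m) (α : MulAut G) : ∃ σ, h.Rel α σ := by
  obtain ⟨g, hg⟩ := h.exists_adm α
  obtain ⟨c, σ, -, hcσ⟩ := h.adm_shape hasym hg
  exact ⟨σ, g, c, hg, hcσ⟩

theorem ne_zero_of {α : MulAut G} {c : Fin m → F} {σ : RingAut F}
    (hc : ∀ i a, α (x i a) = x i (c i * σ a)) (i : Fin m) : c i ≠ 0 := by
  intro e0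
  have := hc i 1
  rw [e0, zero_mul, h.x_zero] at this
  exact h.x_ne_one i one_ne_zero ((map_eq_one_iff α α.injective).1 this)

theorem rel_unique {α : MulAut G} {σ σ' : RingAut F} (h1 : h.Rel α σ)
    (h2 : h.Rel α σ') : σ = σ' := by
  obtain ⟨g, c, hg, hc⟩ := h1
  obtain ⟨g', c', hg', hc'⟩ := h2
  have ee : (MulAut.conj g')⁻¹ * α
      = ((MulAut.conj g)⁻¹ * α) * MulAut.conj (α⁻¹ (g * g'⁻¹)) := by
    ext z
    simp only [MulAut.mul_apply, MulAut.conj_inv_apply, MulAut.conj_apply, map_mul, map_inv,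
      MulAut.apply_inv_self]
    group
  have hadm : h.Adm (MulAut.conj (α⁻¹ (g * g'⁻¹))) := by
    have : MulAut.conj (α⁻¹ (g * g'⁻¹))
        = ((MulAut.conj g)⁻¹ * α)⁻¹ * ((MulAut.conj g')⁻¹ * α) := by
      rw [ee]
      group
    rw [this]
    exact h.adm_mul (h.adm_inv hg) hg'
  obtain ⟨htU, htV⟩ := h.of_adm_conj hadm
  choose k hk using h.tor _ htU htV
  have key : ∀ i a, x i (c' i * σ' a) = x i (c i * σ ((k i : F) * a)) := by
    intro i a
    have := hc' i a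
    rw [ee, MulAut.mul_apply, MulAut.conj_apply, hk, hc] at this
    exact this.symm
  have hc'0 := h.ne_zero_of hc'
  have hm := h.hm
  have key2 : ∀ a, c' ⟨0, by omega⟩ * σ' a
      = c ⟨0, by omega⟩ * σ ((k ⟨0, by omega⟩ : F) * a) :=
    fun a => h.x_inj _ (key ⟨0, by omega⟩ a)
  have k1 := key2 1
  rw [map_one, mul_one, mul_one] at k1
  apply RingEquiv.ext
  intro b
  have := key2 b
  rw [map_mul, ← mul_assoc, ← k1] at this
  exact (mul_left_cancel₀ (hc'0 _) this).symm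

theorem rel_mul {α β : MulAut G} {σ τ : RingAut F} (h1 : h.Rel α σ)
    (h2 : h.Rel β τ) : h.Rel (α * β) (σ * τ) := by
  obtain ⟨g, c, hg, hc⟩ := h1
  obtain ⟨g', c', hg', hc'⟩ := h2
  have ee : (MulAut.conj (g * ((MulAut.conj g)⁻¹ * α) g'))⁻¹ * (α * β)
      = ((MulAut.conj g)⁻¹ * α) * ((MulAut.conj g')⁻¹ * β) := by
    ext z
    show (g * (g⁻¹ * α g' * g))⁻¹ * α (β z) * (g * (g⁻¹ * α g' * g))
      = g⁻¹ * α (g'⁻¹ * β z * g') * g
    rw [map_mul, map_mul, map_inv]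
    group
  refine ⟨g * ((MulAut.conj g)⁻¹ * α) g', fun i => c i * σ (c' i), ?_, ?_⟩
  · rw [ee]
    exact h.adm_mul hg hg'
  · intro i a
    rw [ee, MulAut.mul_apply, hc', hc, map_mul, RingAut.mul_apply, mul_assoc]

theorem rel_conj (g : G) : h.Rel (MulAut.conj g) 1 := by
  refine ⟨g, fun _ => 1, ?_, ?_⟩
  · rw [inv_mul_cancel]
    exact h.adm_one
  · intro i a
    rw [inv_mul_cancel, RingAut.one_apply, one_mul]
    rfl

/-- the field component of an automorphism -/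
noncomputable def sigS (hasym : (2 : F) ≠ 0 ∨ 3 ≤ m) (α : MulAut G) : RingAut F :=
  Classical.choose (h.rel_exists hasym α)

theorem sig_spec (hasym : (2 : F) ≠ 0 ∨ 3 ≤ m) (α : MulAut G) : h.Rel α (h.sigS hasym α) :=
  Classical.choose_spec (h.rel_exists hasym α)

theorem sig_eq (hasym : (2 : F) ≠ 0 ∨ 3 ≤ m) {α : MulAut G} {σ : RingAut F} (hr : h.Rel α σ) :
    h.sigS hasym α = σ :=
  h.rel_unique (h.sig_spec hasym α) hr

/-- as a homomorphism -/
noncomputable def sigHom (hasym : (2 : F) ≠ 0 ∨ 3 ≤ m) : MulAut G →* RingAut F :=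
  MonoidHom.mk' (fun α => h.sigS hasym α) (fun α β =>
    h.sig_eq hasym (h.rel_mul (h.sig_spec hasym α) (h.sig_spec hasym β)))

/-- on the outer automorphism group -/
noncomputable def outHom (hasym : (2 : F) ≠ 0 ∨ 3 ≤ m) : Cfsg.Out G →* RingAut F :=
  QuotientGroup.lift (Cfsg.Inn G) (h.sigHom hasym) (by
    rintro _ ⟨g, rfl⟩
    exact h.sig_eq hasym (h.rel_conj g))

theorem outHom_mk (hasym : (2 : F) ≠ 0 ∨ 3 ≤ m) (α : MulAut G) :
    h.outHom hasym (QuotientGroup.mk α) = h.sigS hasym α := rfl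

theorem outHom_surjective (hasym : (2 : F) ≠ 0 ∨ 3 ≤ m) :
    Function.Surjective (h.outHom hasym) := by
  intro σ
  obtain ⟨φ, hφx, hφU, hφV⟩ := h.field σ
  have r1 : h.Rel φ σ := by
    refine ⟨1, fun _ => 1, ?_, ?_⟩
    · rw [map_one, inv_one, one_mul]
      exact ⟨hφU, hφV⟩
    · intro i a
      rw [map_one, inv_one, one_mul, one_mul, hφx]
  exact ⟨QuotientGroup.mk φ, by rw [h.outHom_mk, h.sig_eq hasym r1]⟩

/-- the diagonal automorphisms -/
noncomputable def dg (d : Fin m → Fˣ) : MulAut G := Classical.choose (h.diag d)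

theorem dg_x (d : Fin m → Fˣ) (i : Fin m) (a : F) : h.dg d (x i a) = x i (d i * a) :=
  (Classical.choose_spec (h.diag d)).1 i a

theorem dg_adm (d : Fin m → Fˣ) : h.Adm (h.dg d) :=
  ⟨(Classical.choose_spec (h.diag d)).2.1, (Classical.choose_spec (h.diag d)).2.2⟩

theorem dg_mul (d d' : Fin m → Fˣ) : h.dg (d * d') = h.dg d * h.dg d' := by
  apply h.eq_of_adm (h.dg_adm _) (h.adm_mul (h.dg_adm d) (h.dg_adm d'))
  intro i a
  rw [MulAut.mul_apply, h.dg_x, h.dg_x, h.dg_x, Pi.mul_apply, Units.val_mul, mul_assoc]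

/-- the diagonal automorphisms, in the outer automorphism group -/
noncomputable def dgHom : (Fin m → Fˣ) →* Cfsg.Out G :=
  MonoidHom.mk' (fun d => (QuotientGroup.mk (h.dg d) : Cfsg.Out G)) (fun d d' => by
    rw [h.dg_mul]
    rfl)

theorem dgHom_apply (d : Fin m → Fˣ) : h.dgHom d = QuotientGroup.mk (h.dg d) := rfl

theorem dgHom_eq_one_iff (d : Fin m → Fˣ) : h.dgHom d = 1 ↔
    ∃ t, t ∈ Nm U ∧ t ∈ Nm V ∧ ∀ i a, t * x i a * t⁻¹ = x i (d i * a) := by
  rw [h.dgHom_apply, QuotientGroup.eq_one_iff]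
  constructor
  · rintro ⟨t, ht⟩
    have hadm : h.Adm (MulAut.conj t) := by
      rw [ht]
      exact h.dg_adm d
    obtain ⟨h1, h2⟩ := h.of_adm_conj hadm
    refine ⟨t, h1, h2, fun i a => ?_⟩
    rw [← MulAut.conj_apply, ht, h.dg_x]
  · rintro ⟨t, h1, h2, ht⟩
    refine ⟨t, ?_⟩
    apply h.eq_of_adm (h.adm_conj h1 h2) (h.dg_adm d)
    intro i a
    rw [MulAut.conj_apply, ht, h.dg_x]

theorem ker_eq (hasym : (2 : F) ≠ 0 ∨ 3 ≤ m) : (h.outHom hasym).ker = h.dgHom.range := by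
  ext z
  rw [MonoidHom.mem_ker]
  constructor
  · intro hz
    obtain ⟨α, rfl⟩ := QuotientGroup.mk_surjective z
    rw [h.outHom_mk] at hz
    obtain ⟨g, c, hg, hc⟩ := h.sig_spec hasym α
    rw [hz] at hc
    have hc0 := h.ne_zero_of hc
    refine ⟨fun i => Units.mk0 (c i) (hc0 i), ?_⟩
    rw [h.dgHom_apply]
    have e : (MulAut.conj g)⁻¹ * α = h.dg (fun i => Units.mk0 (c i) (hc0 i)) := by
      apply h.eq_of_adm hg (h.dg_adm _)
      intro i a
      rw [hc, h.dg_x, Units.val_mk0, RingAut.one_apply]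
    rw [← e, QuotientGroup.eq]
    have : ((MulAut.conj g)⁻¹ * α)⁻¹ * α = α⁻¹ * MulAut.conj g * α⁻¹⁻¹ := by group
    rw [this]
    exact (Cfsg.innNormal G).conj_mem _ ⟨g, rfl⟩ _
  · rintro ⟨d, rfl⟩
    rw [h.dgHom_apply, h.outHom_mk]
    have r : h.Rel (h.dg d) 1 := by
      refine ⟨1, fun i => (d i : F), ?_, ?_⟩
      · rw [map_one, inv_one, one_mul]
        exact h.dg_adm d
      · intro i a
        rw [map_one, inv_one, one_mul, h.dg_x, RingAut.one_apply]
    exact h.sig_eq hasym r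

/-- the diagonal automorphisms at the long simple root -/
noncomputable def eHom : Fˣ →* Cfsg.Out G :=
  MonoidHom.mk' (fun c => h.dgHom (eL c)) (fun c c' => by rw [eL_mul, map_mul])

theorem eHom_apply (c : Fˣ) : h.eHom c = h.dgHom (eL c) := rfl

theorem eHom_range
    (hTT : ∀ (d : Fin m → Fˣ) (k : Fˣ), ∃ t, t ∈ Nm U ∧ t ∈ Nm V ∧
      ∀ i a, t * x i a * t⁻¹ = x i ((if i.val + 1 = m then (k : F) ^ 2 else (d i : F)) * a)) :
    h.eHom.range = h.dgHom.range := by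
  apply le_antisymm
  · rintro _ ⟨c, rfl⟩
    exact ⟨eL c, rfl⟩
  · rintro _ ⟨d, rfl⟩
    have hm := h.hm
    obtain ⟨l, hl⟩ : ∃ l : Fin m, l.val + 1 = m := ⟨⟨m - 1, by omega⟩, by simp; omega⟩
    obtain ⟨t, h1, h2, ht⟩ := hTT d 1
    have e1 : h.dgHom (eL (d l)⁻¹ * d) = 1 := by
      refine (h.dgHom_eq_one_iff _).2 ⟨t, h1, h2, fun i a => ?_⟩
      rw [ht]
      congr 2
      simp only [eL, Pi.mul_apply]
      by_cases hi : i.val + 1 = m
      · have : i = l := Fin.ext (by omega)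
        rw [if_pos hi, if_pos hi, this]
        simp
      · rw [if_neg hi, if_neg hi, one_mul]
    rw [map_mul] at e1
    refine ⟨d l, ?_⟩
    rw [h.eHom_apply]
    have e2 : h.dgHom (eL (d l)⁻¹) = (h.dgHom (eL (d l)))⁻¹ := by rw [eL_inv, map_inv]
    rw [e2] at e1
    exact (inv_mul_eq_one.1 e1)

theorem eHom_ker
    (hTT : ∀ (d : Fin m → Fˣ) (k : Fˣ), ∃ t, t ∈ Nm U ∧ t ∈ Nm V ∧
      ∀ i a, t * x i a * t⁻¹ = x i ((if i.val + 1 = m then (k : F) ^ 2 else (d i : F)) * a)) :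
    h.eHom.ker = (powMonoidHom 2 : Fˣ →* Fˣ).range := by
  have hm := h.hm
  obtain ⟨l, hl⟩ : ∃ l : Fin m, l.val + 1 = m := ⟨⟨m - 1, by omega⟩, by simp; omega⟩
  ext c
  rw [MonoidHom.mem_ker, h.eHom_apply, h.dgHom_eq_one_iff]
  constructor
  · rintro ⟨t, h1, h2, ht⟩
    obtain ⟨k, hk⟩ := h.tor_long l hl t h1 h2
    refine ⟨k, ?_⟩
    have e := (ht l 1).symm.trans (hk 1)
    have e' := h.x_inj l e
    simp only [eL, if_pos hl, mul_one] at e'
    apply Units.ext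
    rw [powMonoidHom_apply, Units.val_pow_eq_pow_val]
    exact e'.symm
  · rintro ⟨k, rfl⟩
    obtain ⟨t, h1, h2, ht⟩ := hTT 1 k
    refine ⟨t, h1, h2, fun i a => ?_⟩
    rw [ht]
    congr 2
    simp only [eL, powMonoidHom_apply]
    by_cases hi : i.val + 1 = m
    · rw [if_pos hi, if_pos hi, Units.val_pow_eq_pow_val]
    · rw [if_neg hi, if_neg hi]
      rfl

/-- **The order of the outer automorphism group**, in odd characteristic or for `m ≥ 3`. -/
theorem card_out (hasym : (2 : F) ≠ 0 ∨ 3 ≤ m)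
    (hTT : ∀ (d : Fin m → Fˣ) (k : Fˣ), ∃ t, t ∈ Nm U ∧ t ∈ Nm V ∧
      ∀ i a, t * x i a * t⁻¹ = x i ((if i.val + 1 = m then (k : F) ^ 2 else (d i : F)) * a)) :
    Nat.card (Cfsg.Out G) = Nat.gcd 2 (Nat.card F - 1) * Nat.card (RingAut F) := by
  have h1 := Subgroup.card_mul_index (h.outHom hasym).ker
  rw [Subgroup.index_ker, MonoidHom.range_eq_top.2 (h.outHom_surjective hasym),
    Subgroup.card_top] at h1
  rw [← h1]
  congr 1
  rw [h.ker_eq hasym, ← h.eHom_range hTT, ← Subgroup.index_ker, h.eHom_ker hTT,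
    IsCyclic.index_powMonoidHom_range, Nat.card_units, Nat.gcd_comm]

end OkC

namespace OkC

variable (h : OkC m p x y U V Q)
include h

/-- the field automorphisms -/
noncomputable def fd (σ : RingAut F) : MulAut G := Classical.choose (h.field σ)

theorem fd_x (σ : RingAut F) (i : Fin m) (a : F) : h.fd σ (x i a) = x i (σ a) :=
  (Classical.choose_spec (h.field σ)).1 i a

theorem fd_adm (σ : RingAut F) : h.Adm (h.fd σ) :=
  ⟨(Classical.choose_spec (h.field σ)).2.1, (Classical.choose_spec (h.field σ)).2.2⟩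

theorem fd_mul (σ τ : RingAut F) : h.fd (σ * τ) = h.fd σ * h.fd τ := by
  apply h.eq_of_adm (h.fd_adm _) (h.adm_mul (h.fd_adm σ) (h.fd_adm τ))
  intro i a
  rw [MulAut.mul_apply, h.fd_x, h.fd_x, h.fd_x, RingAut.mul_apply]

/-- the field automorphisms, as a homomorphism -/
noncomputable def fdHom : RingAut F →* MulAut G :=
  MonoidHom.mk' (fun σ => h.fd σ) (fun σ τ => h.fd_mul σ τ)

theorem fdHom_apply (σ : RingAut F) : h.fdHom σ = h.fd σ := rfl

omit h in
theorem sq_inj (h2 : (2 : F) = 0) : Function.Injective (fun a : F => a ^ 2) := by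
  intro a b e
  have e' : a ^ 2 = b ^ 2 := e
  have : (a - b) ^ 2 = 0 := by linear_combination e' + (b ^ 2 - a * b) * h2
  exact sub_eq_zero.1 (pow_eq_zero_iff (two_ne_zero) |>.1 this)

omit h in
theorem sq_surj (h2 : (2 : F) = 0) (c : F) : ∃ k : F, k ^ 2 = c :=
  Finite.injective_iff_surjective.1 (sq_inj h2) c

/-- in characteristic `2`, an admissible automorphism preserving the simple root groups is
the product of a torus element and a field automorphism -/
theorem adm_id (h2 : (2 : F) = 0)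
    (hTT : ∀ (d : Fin m → Fˣ) (k : Fˣ), ∃ t, t ∈ Nm U ∧ t ∈ Nm V ∧
      ∀ i a, t * x i a * t⁻¹ = x i ((if i.val + 1 = m then (k : F) ^ 2 else (d i : F)) * a))
    {α : MulAut G} (hα : h.Adm α) (hid : ∀ k a, ∃ a', α (x k a) = x k a') :
    ∃ (t : G) (σ : RingAut F), α = MulAut.conj t * h.fd σ := by
  have hm := h.hm
  obtain ⟨c, σ, hc0, hcσ⟩ := h.adm_semilinear hα hid
  obtain ⟨l, hl⟩ : ∃ l : Fin m, l.val + 1 = m := ⟨⟨m - 1, by omega⟩, by simp; omega⟩
  obtain ⟨k, hk⟩ := sq_surj h2 (c l)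
  have hk0 : k ≠ 0 := by
    rintro rfl
    apply hc0 l
    rw [← hk]
    ring
  obtain ⟨t, h1, h2', ht⟩ := hTT (fun i => Units.mk0 (c i) (hc0 i)) (Units.mk0 k hk0)
  refine ⟨t, σ, ?_⟩
  apply h.eq_of_adm hα (h.adm_mul (h.adm_conj h1 h2') (h.fd_adm σ))
  intro i a
  rw [hcσ, MulAut.mul_apply, h.fd_x, MulAut.conj_apply, ht]
  congr 2
  by_cases hi : i.val + 1 = m
  · have : i = l := Fin.ext (by omega)
    rw [if_pos hi, this, Units.val_mk0, hk]
  · rw [if_neg hi, Units.val_mk0]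

end OkC

/-! ### the exceptional case: rank two in characteristic two -/

section exc

variable {x y : Fin 2 → F → G} {Q : Fin 2 → Subgroup G}

namespace OkC

variable (h : OkC 2 p x y U V Q)
include h

/-- every automorphism is inner * (graph or trivial) * field -/
theorem exc_decomp (h2 : (2 : F) = 0)
    (hTT : ∀ (d : Fin 2 → Fˣ) (k : Fˣ), ∃ t, t ∈ Nm U ∧ t ∈ Nm V ∧
      ∀ i a, t * x i a * t⁻¹ = x i ((if i.val + 1 = 2 then (k : F) ^ 2 else (d i : F)) * a))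
    (γ : MulAut G) (hγ : h.Adm γ) (hγ0 : ∀ a, γ (x 0 a) = x 1 (a ^ 2))
    (hγ1 : ∀ a, γ (x 1 a) = x 0 a) (α : MulAut G) :
    ∃ (g : G) (σ : RingAut F), α = MulAut.conj g * h.fd σ ∨ α = MulAut.conj g * γ * h.fd σ := by
  obtain ⟨g₀, hg₀⟩ := h.exists_adm α
  obtain ⟨π, hπx, -⟩ := h.adm_type hg₀
  rcases h.type_cases hπx with hid | hrev
  · obtain ⟨t, σ, e⟩ := h.adm_id h2 hTT hg₀ (fun k a => by
      obtain ⟨a', ha'⟩ := hπx k a
      exact ⟨a', by rw [ha', hid]⟩)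
    refine ⟨g₀ * t, σ, Or.inl ?_⟩
    rw [map_mul, mul_assoc, ← e]
    group
  · have hβ : h.Adm (γ⁻¹ * ((MulAut.conj g₀)⁻¹ * α)) := h.adm_mul (h.adm_inv hγ) hg₀
    have hid : ∀ k a, ∃ a', (γ⁻¹ * ((MulAut.conj g₀)⁻¹ * α)) (x k a) = x k a' := by
      intro k a
      obtain ⟨a', ha'⟩ := hπx k a
      rw [hrev] at ha'
      rw [MulAut.mul_apply, ha']
      revert ha'
      revert k
      rw [Fin.forall_fin_two]
      constructor
      · intro _
        obtain ⟨b, hb⟩ := sq_surj h2 a'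
        refine ⟨b, ?_⟩
        rw [inv_apply_eq, hγ0, hb]
        rfl
      · intro _
        refine ⟨a', ?_⟩
        rw [inv_apply_eq, hγ1]
        rfl
    obtain ⟨t, σ, e⟩ := h.adm_id h2 hTT hβ hid
    refine ⟨g₀ * γ t, σ, Or.inr ?_⟩
    have e' : (MulAut.conj g₀)⁻¹ * α = γ * (MulAut.conj t * h.fd σ) := by
      rw [← e]
      group
    have e'' : γ * MulAut.conj t = MulAut.conj (γ t) * γ := by
      ext z
      simp only [MulAut.mul_apply, MulAut.conj_apply, map_mul, map_inv]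
    have : α = MulAut.conj g₀ * (γ * (MulAut.conj t * h.fd σ)) := by
      rw [← e']
      group
    rw [this, map_mul, ← mul_assoc γ, e'']
    group

/-- the square of the graph automorphism is the Frobenius automorphism -/
theorem exc_sq (γ : MulAut G) (hγ : h.Adm γ) (hγ0 : ∀ a, γ (x 0 a) = x 1 (a ^ 2))
    (hγ1 : ∀ a, γ (x 1 a) = x 0 a) (σ₂ : RingAut F) (hσ₂ : ∀ a, σ₂ a = a ^ 2) :
    γ * γ = h.fd σ₂ := by
  apply h.eq_of_adm (h.adm_mul hγ hγ) (h.fd_adm σ₂)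
  rw [Fin.forall_fin_two]
  constructor
  · intro a
    rw [MulAut.mul_apply, hγ0, hγ1, h.fd_x, hσ₂]
  · intro a
    rw [MulAut.mul_apply, hγ1, hγ0, h.fd_x, hσ₂]

/-- **The outer automorphism group in the exceptional case** is cyclic of order `2 |Aut F|`. -/
theorem out_exc (h2 : (2 : F) = 0)
    (hTT : ∀ (d : Fin 2 → Fˣ) (k : Fˣ), ∃ t, t ∈ Nm U ∧ t ∈ Nm V ∧
      ∀ i a, t * x i a * t⁻¹ = x i ((if i.val + 1 = 2 then (k : F) ^ 2 else (d i : F)) * a))
    (γ : MulAut G) (hγ : h.Adm γ) (hγ0 : ∀ a, γ (x 0 a) = x 1 (a ^ 2))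
    (hγ1 : ∀ a, γ (x 1 a) = x 0 a) (σ₂ : RingAut F) (hσ₂ : ∀ a, σ₂ a = a ^ 2)
    (hgen : ∀ σ : RingAut F, σ ∈ Subgroup.zpowers σ₂) :
    IsCyclic (Cfsg.Out G) ∧ Nat.card (Cfsg.Out G) = 2 * Nat.card (RingAut F) := by
  have hsq := h.exc_sq γ hγ hγ0 hγ1 σ₂ hσ₂
  have hpow : ∀ j : ℕ, γ ^ (2 * j) = h.fd (σ₂ ^ j) := by
    intro j
    rw [pow_mul, pow_two, hsq, ← h.fdHom_apply, ← map_pow]
    rfl
  have hzpow : ∀ j : ℤ, γ ^ (2 * j) = h.fd (σ₂ ^ j) := by
    intro j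
    rw [zpow_mul, zpow_ofNat, pow_two, hsq, ← h.fdHom_apply, ← map_zpow]
    rfl
  have hinn : ∀ g : G, (QuotientGroup.mk (MulAut.conj g) : Cfsg.Out G) = 1 :=
    fun g => (QuotientGroup.eq_one_iff _).2 ⟨g, rfl⟩
  have hfd : ∀ σ : RingAut F, (QuotientGroup.mk (h.fd σ) : Cfsg.Out G)
      ∈ Subgroup.zpowers (QuotientGroup.mk γ : Cfsg.Out G) := by
    intro σ
    obtain ⟨n, rfl⟩ := Subgroup.mem_zpowers_iff.1 (hgen σ)
    rw [← hzpow]
    exact Subgroup.mem_zpowers_iff.2 ⟨2 * n, rfl⟩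
  have htop : ∀ z : Cfsg.Out G, z ∈ Subgroup.zpowers (QuotientGroup.mk γ : Cfsg.Out G) := by
    intro z
    obtain ⟨α, rfl⟩ := QuotientGroup.mk_surjective z
    obtain ⟨g, σ, e | e⟩ := h.exc_decomp h2 hTT γ hγ hγ0 hγ1 α
    · rw [e, QuotientGroup.mk_mul, hinn, one_mul]
      exact hfd σ
    · rw [e, QuotientGroup.mk_mul, QuotientGroup.mk_mul, hinn, one_mul]
      exact Subgroup.mul_mem _ (Subgroup.mem_zpowers _) (hfd σ)
  have hcyc : IsCyclic (Cfsg.Out G) := ⟨⟨QuotientGroup.mk γ, htop⟩⟩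
  refine ⟨hcyc, ?_⟩
  -- the order of the generator
  have htorus : ∀ (g : G) (β : MulAut G), h.Adm β → MulAut.conj g = β →
      ∃ k : Fˣ, ∀ a, β (x 0 a) = x 0 (k * a) := by
    intro g β hβ e
    have hadm : h.Adm (MulAut.conj g) := by
      rw [e]
      exact hβ
    obtain ⟨h1, h2'⟩ := h.of_adm_conj hadm
    obtain ⟨k, hk⟩ := h.tor g h1 h2' 0
    exact ⟨k, fun a => by rw [← e, MulAut.conj_apply, hk]⟩
  have hdvd : ∀ k : ℕ, (QuotientGroup.mk γ : Cfsg.Out G) ^ k = 1 → 2 * orderOf σ₂ ∣ k := by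
    intro k hk
    rw [← QuotientGroup.mk_pow, QuotientGroup.eq_one_iff] at hk
    obtain ⟨g, hg⟩ := hk
    rcases Nat.even_or_odd' k with ⟨j, rfl | rfl⟩
    · rw [hpow] at hg
      obtain ⟨k₀, hk₀⟩ := htorus g _ (h.fd_adm _) hg
      have key : ∀ a, (σ₂ ^ j) a = (k₀ : F) * a := by
        intro a
        have := hk₀ a
        rw [h.fd_x] at this
        exact h.x_inj 0 this
      have k1 := key 1
      rw [map_one, mul_one] at k1
      have : σ₂ ^ j = 1 := by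
        apply RingEquiv.ext
        intro a
        rw [key a, ← k1, one_mul]
        rfl
      exact Nat.mul_dvd_mul_left 2 (orderOf_dvd_of_pow_eq_one this)
    · exfalso
      rw [pow_succ, hpow] at hg
      obtain ⟨k₀, hk₀⟩ := htorus g _ (h.adm_mul (h.fd_adm _) hγ) hg
      have := hk₀ 1
      rw [MulAut.mul_apply, hγ0, h.fd_x] at this
      have hne : (σ₂ ^ j) ((1 : F) ^ 2) ≠ 0 := by
        rw [one_pow, map_one]
        exact one_ne_zero
      have := (h.x_disj 1 0 _ _ this hne).1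
      exact absurd this (by decide)
  have hone : (QuotientGroup.mk γ : Cfsg.Out G) ^ (2 * orderOf σ₂) = 1 := by
    rw [← QuotientGroup.mk_pow, hpow, pow_orderOf_eq_one, ← h.fdHom_apply, map_one]
    rfl
  have hord : orderOf (QuotientGroup.mk γ : Cfsg.Out G) = 2 * orderOf σ₂ :=
    Nat.dvd_antisymm (orderOf_dvd_of_pow_eq_one hone) (hdvd _ (pow_orderOf_eq_one _))
  have e1 : Subgroup.zpowers (QuotientGroup.mk γ : Cfsg.Out G) = ⊤ :=
    eq_top_iff.2 (fun z _ => htop z)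
  have e2 : Subgroup.zpowers σ₂ = ⊤ := eq_top_iff.2 (fun z _ => hgen z)
  rw [← Subgroup.card_top (G := Cfsg.Out G), ← e1, Nat.card_zpowers, hord,
    ← Subgroup.card_top (G := RingAut F), ← e2, Nat.card_zpowers]

end OkC

end exc

end Cfsg.Agent.Lib.Helper27.SpOut
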