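import Mathlib
import Cfsg.Agent.Lib.Helper27.SpForm
import Cfsg.Agent.Lib.Helper27.SpInst
import Cfsg.Agent.Lib.Helper27.SpOut2

/-!
# The exceptional graph automorphism of `Sp_4` in characteristic `2`

For a `4 × 4` matrix `M`, `gam M` is the matrix of the `2 × 2` minors of `M` with rows and
columns in the pairs `01, 02, 13, 23`.  In characteristic `2` it is multiplicative on the
symplectic group, maps it into itself, and interchanges long and short root elements.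
-/

set_option autoImplicit false
set_option linter.unusedSectionVars false

namespace Cfsg.Agent.Lib.Helper27.SpGraph

open Matrix

variable {F : Type*} [Field F]

/-- the antidiagonal form -/
def K4 : Matrix (Fin 4) (Fin 4) F := !![0, 0, 0, 1; 0, 0, 1, 0; 0, 1, 0, 0; 1, 0, 0, 0]

/-- first index of the pairs `01, 02, 13, 23` -/
def pa : Fin 4 → Fin 4 := ![0, 0, 1, 2]

/-- second index of the pairs `01, 02, 13, 23` -/
def pb : Fin 4 → Fin 4 := ![1, 2, 3, 3]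

/-- the `2 × 2` minors -/
def mn (M : Matrix (Fin 4) (Fin 4) F) (i i' j j' : Fin 4) : F := M i j * M i' j' - M i j' * M i' j

/-- the matrix of minors -/
def gam (M : Matrix (Fin 4) (Fin 4) F) : Matrix (Fin 4) (Fin 4) F :=
  Matrix.of fun I J => mn M (pa I) (pb I) (pa J) (pb J)

theorem gam_apply (M : Matrix (Fin 4) (Fin 4) F) (I J : Fin 4) :
    gam M I J = mn M (pa I) (pb I) (pa J) (pb J) := rfl

/-- Cauchy–Binet for `2 × 2` minors -/
theorem mn_mul (M N : Matrix (Fin 4) (Fin 4) F) (i i' j j' : Fin 4) :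
    mn (M * N) i i' j j' = mn M i i' 0 1 * mn N 0 1 j j' + mn M i i' 0 2 * mn N 0 2 j j'
      + mn M i i' 0 3 * mn N 0 3 j j' + mn M i i' 1 2 * mn N 1 2 j j'
      + mn M i i' 1 3 * mn N 1 3 j j' + mn M i i' 2 3 * mn N 2 3 j j' := by
  simp only [mn, Matrix.mul_apply, Fin.sum_univ_four]
  ring

theorem K4_pair (I : Fin 4) : (K4 : Matrix (Fin 4) (Fin 4) F) (pa I) (pb I) = 0 := by
  fin_cases I <;> simp [K4, pa, pb]

theorem form_row (h2 : (2 : F) = 0) {M : Matrix (Fin 4) (Fin 4) F} (hM : M * K4 * Mᵀ = K4)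
    (i i' : Fin 4) : mn M i i' 0 3 + mn M i i' 1 2 = K4 i i' := by
  have h := congrFun (congrFun hM i) i'
  rw [← h]
  simp only [mn, Matrix.mul_apply, Fin.sum_univ_four, Matrix.transpose_apply, K4]
  simp
  linear_combination (-(M i 3 * M i' 0) - M i 2 * M i' 1) * h2

theorem form_col (h2 : (2 : F) = 0) {N : Matrix (Fin 4) (Fin 4) F} (hN : Nᵀ * K4 * N = K4)
    (j j' : Fin 4) : mn N 0 3 j j' + mn N 1 2 j j' = K4 j j' := by
  have h := congrFun (congrFun hN j) j'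
  rw [← h]
  simp only [mn, Matrix.mul_apply, Fin.sum_univ_four, Matrix.transpose_apply, K4]
  simp
  linear_combination (-(N 3 j * N 0 j') - N 2 j * N 1 j') * h2

/-- multiplicativity on the symplectic group -/
theorem gam_mul (h2 : (2 : F) = 0) {M N : Matrix (Fin 4) (Fin 4) F} (hM : M * K4 * Mᵀ = K4)
    (hN : Nᵀ * K4 * N = K4) : gam (M * N) = gam M * gam N := by
  ext I J
  have ha := form_row h2 hM (pa I) (pb I)
  have hb := form_col h2 hN (pa J) (pb J)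
  rw [K4_pair] at ha hb
  rw [gam_apply, mn_mul, Matrix.mul_apply, Fin.sum_univ_four]
  simp only [gam_apply]
  have e0 : pa 0 = 0 := rfl
  have e1 : pa 1 = 0 := rfl
  have e2 : pa 2 = 1 := rfl
  have e3 : pa 3 = 2 := rfl
  have f0 : pb 0 = 1 := rfl
  have f1 : pb 1 = 2 := rfl
  have f2 : pb 2 = 3 := rfl
  have f3 : pb 3 = 3 := rfl
  rw [e0, e1, e2, e3, f0, f1, f2, f3]
  linear_combination (mn M (pa I) (pb I) 0 3) * hb + (mn N 1 2 (pa J) (pb J)) * ha
    - (mn M (pa I) (pb I) 0 3 * mn N 1 2 (pa J) (pb J)) * h2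

theorem gam_transpose (M : Matrix (Fin 4) (Fin 4) F) : gam Mᵀ = (gam M)ᵀ := by
  ext I J
  simp only [gam_apply, mn, Matrix.transpose_apply]
  ring

theorem gam_one (h2 : (2 : F) = 0) : gam (1 : Matrix (Fin 4) (Fin 4) F) = 1 := by
  ext I J
  fin_cases I <;> fin_cases J <;> simp [gam_apply, mn, pa, pb, Matrix.one_apply]

theorem gam_K4 (h2 : (2 : F) = 0) : gam (K4 : Matrix (Fin 4) (Fin 4) F) = K4 := by
  have hneg : (-1 : F) = 1 := by linear_combination -h2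
  ext I J
  fin_cases I <;> fin_cases J <;> simp [gam_apply, mn, pa, pb, K4, hneg]

theorem K4_mul_K4 : (K4 : Matrix (Fin 4) (Fin 4) F) * K4 = 1 := by
  ext i j
  fin_cases i <;> fin_cases j <;>
    simp [K4, Matrix.mul_apply, Fin.sum_univ_four, Matrix.one_apply]

theorem K4_transpose : (K4 : Matrix (Fin 4) (Fin 4) F)ᵀ = K4 := by
  ext i j
  fin_cases i <;> fin_cases j <;> simp [K4, Matrix.transpose_apply]

/-- the symplectic condition -/
def IsSp (M : Matrix (Fin 4) (Fin 4) F) : Prop := M * K4 * Mᵀ = K4 ∧ Mᵀ * K4 * M = K4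

theorem gam_sp (h2 : (2 : F) = 0) {M : Matrix (Fin 4) (Fin 4) F} (hM : IsSp M) : IsSp (gam M) := by
  have hK : ((K4 : Matrix (Fin 4) (Fin 4) F)ᵀ * K4 * K4 : Matrix (Fin 4) (Fin 4) F) = K4 := by
    rw [K4_transpose, K4_mul_K4, Matrix.one_mul]
  constructor
  · have h1 : gam (M * K4) = gam M * gam K4 := gam_mul h2 hM.1 hK
    have hMK : (M * K4) * K4 * (M * K4)ᵀ = K4 := by
      rw [Matrix.transpose_mul, K4_transpose, Matrix.mul_assoc M K4 K4, K4_mul_K4, Matrix.mul_one,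
        ← Matrix.mul_assoc]
      exact hM.1
    have hMt : (Mᵀ)ᵀ * K4 * Mᵀ = K4 := by
      rw [Matrix.transpose_transpose]
      exact hM.1
    have h3 : gam ((M * K4) * Mᵀ) = gam (M * K4) * gam Mᵀ := gam_mul h2 hMK hMt
    rw [hM.1, h1, gam_K4 h2, gam_transpose] at h3
    exact h3.symm
  · have hMt : Mᵀ * K4 * (Mᵀ)ᵀ = K4 := by
      rw [Matrix.transpose_transpose]
      exact hM.2
    have h1 : gam (Mᵀ * K4) = gam Mᵀ * gam K4 := gam_mul h2 hMt hK
    have hMK : (Mᵀ * K4) * K4 * (Mᵀ * K4)ᵀ = K4 := by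
      rw [Matrix.transpose_mul, K4_transpose, Matrix.transpose_transpose,
        Matrix.mul_assoc Mᵀ K4 K4, K4_mul_K4, Matrix.mul_one, ← Matrix.mul_assoc]
      exact hM.2
    have h3 : gam ((Mᵀ * K4) * M) = gam (Mᵀ * K4) * gam M := gam_mul h2 hMK hM.2
    rw [hM.2, h1, gam_K4 h2, gam_transpose] at h3
    exact h3.symm

theorem sp_det (h2 : (2 : F) = 0) {M : Matrix (Fin 4) (Fin 4) F} (hM : M * K4 * Mᵀ = K4) :
    M.det = 1 := by
  have hK : (K4 : Matrix (Fin 4) (Fin 4) F).det * (K4 : Matrix (Fin 4) (Fin 4) F).det = 1 := by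
    rw [← Matrix.det_mul, K4_mul_K4, Matrix.det_one]
  have hK0 : (K4 : Matrix (Fin 4) (Fin 4) F).det ≠ 0 := left_ne_zero_of_mul_eq_one hK
  have h := congrArg Matrix.det hM
  rw [Matrix.det_mul, Matrix.det_mul, Matrix.det_transpose] at h
  have h1 : M.det * M.det = 1 := mul_right_cancel₀ hK0 (by linear_combination h)
  have h3 : (M.det - 1) ^ 2 = 0 := by linear_combination h1 + (1 - M.det) * h2
  exact sub_eq_zero.1 ((pow_eq_zero_iff two_ne_zero).1 h3)

theorem gam_upper {M : Matrix (Fin 4) (Fin 4) F} (hM : ∀ i j : Fin 4, j < i → M i j = 0)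
    (I J : Fin 4) (hJI : J < I) : gam M I J = 0 := by
  have h10 := hM 1 0 (by decide)
  have h20 := hM 2 0 (by decide)
  have h21 := hM 2 1 (by decide)
  have h30 := hM 3 0 (by decide)
  have h31 := hM 3 1 (by decide)
  have h32 := hM 3 2 (by decide)
  fin_cases I <;> fin_cases J <;>
    first
    | exact absurd hJI (by decide)
    | simp [gam_apply, mn, pa, pb, h10, h20, h21, h30, h31, h32]

theorem gam_diag {M : Matrix (Fin 4) (Fin 4) F} (hM : ∀ i j : Fin 4, j < i → M i j = 0)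
    (hd : ∀ i, M i i = 1) (I : Fin 4) : gam M I I = 1 := by
  have h10 := hM 1 0 (by decide)
  have h20 := hM 2 0 (by decide)
  have h21 := hM 2 1 (by decide)
  have h30 := hM 3 0 (by decide)
  have h31 := hM 3 1 (by decide)
  have h32 := hM 3 2 (by decide)
  fin_cases I <;> simp [gam_apply, mn, pa, pb, hd, h10, h20, h21, h30, h31, h32]

theorem gam_lower {M : Matrix (Fin 4) (Fin 4) F} (hM : ∀ i j : Fin 4, i < j → M i j = 0)
    (I J : Fin 4) (hIJ : I < J) : gam M I J = 0 := by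
  have := gam_upper (M := Mᵀ) (fun i j h => hM j i h) J I hIJ
  rw [gam_transpose] at this
  exact this

theorem gam_diag' {M : Matrix (Fin 4) (Fin 4) F} (hM : ∀ i j : Fin 4, i < j → M i j = 0)
    (hd : ∀ i, M i i = 1) (I : Fin 4) : gam M I I = 1 := by
  have := gam_diag (M := Mᵀ) (fun i j h => hM j i h) (fun i => hd i) I
  rw [gam_transpose] at this
  exact this

/-- the short root elements -/
def Xs (c : F) : Matrix (Fin 4) (Fin 4) F := !![1, c, 0, 0; 0, 1, 0, 0; 0, 0, 1, -c; 0, 0, 0, 1]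

/-- the long root elements -/
def Xl (c : F) : Matrix (Fin 4) (Fin 4) F := !![1, 0, 0, 0; 0, 1, c, 0; 0, 0, 1, 0; 0, 0, 0, 1]

theorem gam_Xs (h2 : (2 : F) = 0) (c : F) : gam (Xs c) = Xl (c ^ 2) := by
  ext I J
  fin_cases I <;> fin_cases J <;> simp [gam_apply, mn, pa, pb, Xs, Xl] <;>
    linear_combination (-(c ^ 2)) * h2

theorem gam_Xl (h2 : (2 : F) = 0) (c : F) : gam (Xl c) = Xs c := by
  ext I J
  fin_cases I <;> fin_cases J <;> simp [gam_apply, mn, pa, pb, Xs, Xl] <;>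
    linear_combination c * h2

/-! ### the symplectic group of rank two -/

open Cfsg.Agent.Lib.Helper27.PslnMat Cfsg.Agent.Lib.Helper27.PslnAut
  Cfsg.Agent.Lib.Helper27.SpMat Cfsg.Agent.Lib.Helper27.SpForm Cfsg.Agent.Lib.Helper27.SpInst
  Cfsg.Agent.Lib.Helper27.PslnOut

theorem Km_eq (h2 : (2 : F) = 0) : (Km : Matrix (Fin (2 * 2)) (Fin (2 * 2)) F) = K4 := by
  have hneg : (-1 : F) = 1 := by linear_combination -h2
  ext i j
  fin_cases i <;> fin_cases j <;> simp [Km, K4, ep, Fin.rev, hneg]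

theorem sp_of_mem (h2 : (2 : F) = 0) {s : SLn (2 * 2) F}
    (hs : s ∈ (SpS : Subgroup (SLn (2 * 2) F))) :
    IsSp ((s : Matrix (Fin (2 * 2)) (Fin (2 * 2)) F) : Matrix (Fin 4) (Fin 4) F) := by
  constructor
  · have := mem_SpS_mat.1 hs
    rw [Km_eq h2] at this
    exact this
  · have := mem_SpS_mat' hs
    rw [Km_eq h2] at this
    exact this

theorem mem_of_sp (h2 : (2 : F) = 0) {s : SLn (2 * 2) F}
    (hs : ((s : Matrix (Fin (2 * 2)) (Fin (2 * 2)) F) : Matrix (Fin 4) (Fin 4) F) * K4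
      * ((s : Matrix (Fin (2 * 2)) (Fin (2 * 2)) F) : Matrix (Fin 4) (Fin 4) F)ᵀ = K4) :
    s ∈ (SpS : Subgroup (SLn (2 * 2) F)) := by
  rw [mem_SpS_mat, Km_eq h2]
  exact hs

theorem E_xs0 (c : F) : ((E (i0 (0 : Fin 2)) (i1 (0 : Fin 2)) c : SLn (2 * 2) F) :
    Matrix (Fin (2 * 2)) (Fin (2 * 2)) F) = Xs c := by
  ext i j
  show (E (i0 (0 : Fin 2)) (i1 (0 : Fin 2)) c) i j = _
  rw [E_apply (i01_ne 0) (by decide)]
  fin_cases i <;> fin_cases j <;> simp [Xs, i0, i1, ep, Fin.rev, Fin.ext_iff]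

theorem E_ys0 (c : F) : ((E (i1 (0 : Fin 2)) (i0 (0 : Fin 2)) c : SLn (2 * 2) F) :
    Matrix (Fin (2 * 2)) (Fin (2 * 2)) F) = (Xs c)ᵀ := by
  ext i j
  show (E (i1 (0 : Fin 2)) (i0 (0 : Fin 2)) c) i j = _
  rw [E_apply (i01_ne 0).symm (by decide)]
  fin_cases i <;> fin_cases j <;> simp [Xs, i0, i1, ep, Fin.rev, Fin.ext_iff]

theorem E_xs1 (c : F) : ((E (i0 (1 : Fin 2)) (i1 (1 : Fin 2)) c : SLn (2 * 2) F) :
    Matrix (Fin (2 * 2)) (Fin (2 * 2)) F) = Xl c := by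
  have e : i1 (1 : Fin 2) = Fin.rev (i0 (1 : Fin 2)) := by decide
  ext i j
  show (E (i0 (1 : Fin 2)) (i1 (1 : Fin 2)) c) i j = _
  rw [e, E_long, tv_apply (rev_ne _).symm]
  fin_cases i <;> fin_cases j <;> simp [Xl, i0, Fin.rev, Fin.ext_iff]

theorem E_ys1 (c : F) : ((E (i1 (1 : Fin 2)) (i0 (1 : Fin 2)) c : SLn (2 * 2) F) :
    Matrix (Fin (2 * 2)) (Fin (2 * 2)) F) = (Xl c)ᵀ := by
  have e : i0 (1 : Fin 2) = Fin.rev (i1 (1 : Fin 2)) := by decide
  ext i j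
  show (E (i1 (1 : Fin 2)) (i0 (1 : Fin 2)) c) i j = _
  rw [e, E_long, tv_apply (rev_ne _).symm]
  fin_cases i <;> fin_cases j <;> simp [Xl, i1, Fin.rev, Fin.ext_iff]

/-! ### the graph endomorphism -/

section fin

variable [Finite F]

/-- the graph map on the symplectic group -/
def gamS (h2 : (2 : F) = 0) (s : SpT 2 F) : SpT 2 F :=
  ⟨⟨gam ((s : SLn (2 * 2) F) : Matrix (Fin (2 * 2)) (Fin (2 * 2)) F),
      sp_det h2 (gam_sp h2 (sp_of_mem h2 s.2)).1⟩,
    mem_of_sp h2 (gam_sp h2 (sp_of_mem h2 s.2)).1⟩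

theorem gamS_coe (h2 : (2 : F) = 0) (s : SpT 2 F) :
    (((gamS h2 s : SpT 2 F) : SLn (2 * 2) F) : Matrix (Fin (2 * 2)) (Fin (2 * 2)) F)
      = gam ((s : SLn (2 * 2) F) : Matrix (Fin (2 * 2)) (Fin (2 * 2)) F) := rfl

/-- the graph map as a homomorphism -/
def gamHom (h2 : (2 : F) = 0) : SpT 2 F →* SpT 2 F where
  toFun := gamS h2
  map_one' := Subtype.ext (Subtype.ext (gam_one h2))
  map_mul' a b := Subtype.ext (Subtype.ext (gam_mul h2 (sp_of_mem h2 a.2).1 (sp_of_mem h2 b.2).2))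

theorem center_triv (h2 : (2 : F) = 0) : Subgroup.center (SpT 2 F) = ⊥ := by
  rw [eq_bot_iff]
  intro z hz
  obtain ⟨r, hr⟩ := center_scalar hz
  have hmono : Mono 1 (fun _ => r)
      ((z : SLn (2 * 2) F) : Matrix (Fin (2 * 2)) (Fin (2 * 2)) F) := fun i j => hr i j
  have h1 := mono_d z.2 hmono (0 : Fin (2 * 2))
  rw [Equiv.Perm.one_apply, ep_mul_self] at h1
  have hr1 : r = 1 := by
    have h3 : (r - 1) ^ 2 = 0 := by linear_combination h1 + (1 - r) * h2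
    exact sub_eq_zero.1 ((pow_eq_zero_iff two_ne_zero).1 h3)
  rw [Subgroup.mem_bot]
  apply Subtype.ext
  apply Matrix.SpecialLinearGroup.ext
  intro i j
  rw [hr, hr1]
  exact (Matrix.one_apply).symm

/-- the graph endomorphism of the projective group -/
def gamP (h2 : (2 : F) = 0) : PSpT 2 F →* PSpT 2 F :=
  QuotientGroup.lift (Subgroup.center (SpT 2 F)) (prS.comp (gamHom h2)) (by
    intro z hz
    rw [center_triv h2, Subgroup.mem_bot] at hz
    rw [hz, MonoidHom.mem_ker, map_one])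

theorem gamP_prS (h2 : (2 : F) = 0) (s : SpT 2 F) : gamP h2 (prS s) = prS (gamS h2 s) := rfl

theorem gamP_x0 (h2 : (2 : F) = 0) (a : F) : gamP h2 (xg 0 a) = xg 1 (a ^ 2) := by
  show prS (gamS h2 (xs 0 a)) = prS (xs 1 (a ^ 2))
  congr 1
  apply Subtype.ext
  apply Subtype.ext
  show gam ((E (i0 (0 : Fin 2)) (i1 (0 : Fin 2)) a : SLn (2 * 2) F) :
      Matrix (Fin (2 * 2)) (Fin (2 * 2)) F)
    = ((E (i0 (1 : Fin 2)) (i1 (1 : Fin 2)) (a ^ 2) : SLn (2 * 2) F) :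
      Matrix (Fin (2 * 2)) (Fin (2 * 2)) F)
  rw [E_xs0, E_xs1, gam_Xs h2]

theorem gamP_x1 (h2 : (2 : F) = 0) (a : F) : gamP h2 (xg 1 a) = xg 0 a := by
  show prS (gamS h2 (xs 1 a)) = prS (xs 0 a)
  congr 1
  apply Subtype.ext
  apply Subtype.ext
  show gam ((E (i0 (1 : Fin 2)) (i1 (1 : Fin 2)) a : SLn (2 * 2) F) :
      Matrix (Fin (2 * 2)) (Fin (2 * 2)) F)
    = ((E (i0 (0 : Fin 2)) (i1 (0 : Fin 2)) a : SLn (2 * 2) F) :
      Matrix (Fin (2 * 2)) (Fin (2 * 2)) F)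
  rw [E_xs0, E_xs1, gam_Xl h2]

theorem gamP_y0 (h2 : (2 : F) = 0) (a : F) : gamP h2 (yg 0 a) = yg 1 (a ^ 2) := by
  show prS (gamS h2 (ys 0 a)) = prS (ys 1 (a ^ 2))
  congr 1
  apply Subtype.ext
  apply Subtype.ext
  show gam ((E (i1 (0 : Fin 2)) (i0 (0 : Fin 2)) a : SLn (2 * 2) F) :
      Matrix (Fin (2 * 2)) (Fin (2 * 2)) F)
    = ((E (i1 (1 : Fin 2)) (i0 (1 : Fin 2)) (a ^ 2) : SLn (2 * 2) F) :
      Matrix (Fin (2 * 2)) (Fin (2 * 2)) F)
  rw [E_ys0, E_ys1, gam_transpose, gam_Xs h2]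

theorem gamP_y1 (h2 : (2 : F) = 0) (a : F) : gamP h2 (yg 1 a) = yg 0 a := by
  show prS (gamS h2 (ys 1 a)) = prS (ys 0 a)
  congr 1
  apply Subtype.ext
  apply Subtype.ext
  show gam ((E (i1 (1 : Fin 2)) (i0 (1 : Fin 2)) a : SLn (2 * 2) F) :
      Matrix (Fin (2 * 2)) (Fin (2 * 2)) F)
    = ((E (i1 (0 : Fin 2)) (i0 (0 : Fin 2)) a : SLn (2 * 2) F) :
      Matrix (Fin (2 * 2)) (Fin (2 * 2)) F)
  rw [E_ys0, E_ys1, gam_transpose, gam_Xl h2]

/-- the field automorphisms of the projective group -/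
noncomputable def fieldP {m : ℕ} (σ : F ≃+* F) : MulAut (PSpT m F) :=
  descS (fAut σ) (fun _ hs => fAut_mem σ hs)

theorem fieldP_x {m : ℕ} (σ : F ≃+* F) (i : Fin m) (a : F) :
    fieldP σ (xg i a) = xg i (σ a) := by
  show descS (fAut σ) _ (prS (xs i a)) = prS (xs i (σ a))
  rw [descS_prS]
  congr 1
  exact Subtype.ext (fAut_E σ (i01_ne i) a)

theorem fieldP_y {m : ℕ} (σ : F ≃+* F) (i : Fin m) (a : F) :
    fieldP σ (yg i a) = yg i (σ a) := by
  show descS (fAut σ) _ (prS (ys i a)) = prS (ys i (σ a))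
  rw [descS_prS]
  congr 1
  exact Subtype.ext (fAut_E σ (i01_ne i).symm a)

theorem fieldP_U {m : ℕ} (σ : F ≃+* F) (g : PSpT m F) :
    fieldP σ g ∈ (Ug : Subgroup (PSpT m F)) ↔ g ∈ (Ug : Subgroup (PSpT m F)) :=
  descS_mem_map_iff (fAut σ) _ Uo Uo (fAut_mem_utS σ _ _) g

theorem fieldP_V {m : ℕ} (σ : F ≃+* F) (g : PSpT m F) :
    fieldP σ g ∈ (Vg : Subgroup (PSpT m F)) ↔ g ∈ (Vg : Subgroup (PSpT m F)) :=
  descS_mem_map_iff (fAut σ) _ Vo Vo (fAut_mem_utS σ _ _) g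

/-- the Frobenius automorphism in characteristic two -/
noncomputable def frob2 (h2 : (2 : F) = 0) : F ≃+* F :=
  RingEquiv.ofBijective
    ({ toFun := fun a => a ^ 2
       map_one' := one_pow 2
       map_mul' := fun a b => mul_pow a b 2
       map_zero' := by simp
       map_add' := fun a b => by linear_combination (a * b) * h2 } : F →+* F)
    ⟨Cfsg.Agent.Lib.Helper27.SpOut.OkC.sq_inj h2,
      Finite.injective_iff_surjective.1 (Cfsg.Agent.Lib.Helper27.SpOut.OkC.sq_inj h2)⟩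

theorem frob2_apply (h2 : (2 : F) = 0) (a : F) : frob2 h2 a = a ^ 2 := rfl

/-- the square of the graph endomorphism is the Frobenius automorphism -/
theorem gamP_sq (h2 : (2 : F) = 0) (g : PSpT 2 F) :
    gamP h2 (gamP h2 g) = fieldP (frob2 h2) g := by
  have htop : MonoidHom.eqLocus ((gamP h2).comp (gamP h2)) (fieldP (frob2 h2)).toMonoidHom = ⊤ := by
    apply gen_Ug
    · rw [Fin.forall_fin_two]
      constructor
      · intro a
        show gamP h2 (gamP h2 (xg 0 a)) = fieldP (frob2 h2) (xg 0 a)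
        rw [gamP_x0, gamP_x1, fieldP_x, frob2_apply]
      · intro a
        show gamP h2 (gamP h2 (xg 1 a)) = fieldP (frob2 h2) (xg 1 a)
        rw [gamP_x1, gamP_x0, fieldP_x, frob2_apply]
    · rw [Fin.forall_fin_two]
      constructor
      · intro a
        show gamP h2 (gamP h2 (yg 0 a)) = fieldP (frob2 h2) (yg 0 a)
        rw [gamP_y0, gamP_y1, fieldP_y, frob2_apply]
      · intro a
        show gamP h2 (gamP h2 (yg 1 a)) = fieldP (frob2 h2) (yg 1 a)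
        rw [gamP_y1, gamP_y0, fieldP_y, frob2_apply]
  have hg : g ∈ MonoidHom.eqLocus ((gamP h2).comp (gamP h2)) (fieldP (frob2 h2)).toMonoidHom := by
    rw [htop]
    trivial
  exact hg

theorem gamP_bij (h2 : (2 : F) = 0) : Function.Bijective (gamP h2) := by
  have hinj : Function.Injective (gamP h2) := by
    intro a b e
    have := congrArg (gamP h2) e
    rw [gamP_sq, gamP_sq] at this
    exact (fieldP (frob2 h2)).injective this
  exact ⟨hinj, Finite.injective_iff_surjective.1 hinj⟩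

theorem gamP_U (h2 : (2 : F) = 0) (g : PSpT 2 F) (hg : g ∈ (Ug : Subgroup (PSpT 2 F))) :
    gamP h2 g ∈ (Ug : Subgroup (PSpT 2 F)) := by
  obtain ⟨u, hu, rfl⟩ := hg
  have hU := mem_liftS.1 hu
  refine ⟨gamS h2 u, mem_liftS.2 ⟨?_, ?_⟩, rfl⟩
  · intro i j hij
    exact gam_upper (fun i j h => hU.1 h) i j hij
  · intro i
    exact gam_diag (fun i j h => hU.1 h) (fun i => hU.2 i) i

theorem gamP_V (h2 : (2 : F) = 0) (g : PSpT 2 F) (hg : g ∈ (Vg : Subgroup (PSpT 2 F))) :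
    gamP h2 g ∈ (Vg : Subgroup (PSpT 2 F)) := by
  obtain ⟨u, hu, rfl⟩ := hg
  have hU := mem_liftS.1 hu
  refine ⟨gamS h2 u, mem_liftS.2 ⟨?_, ?_⟩, rfl⟩
  · intro i j hij
    exact gam_lower (fun i j h => hU.1 (OrderDual.toDual_lt_toDual.2 h)) i j
      (OrderDual.toDual_lt_toDual.1 hij)
  · intro i
    exact gam_diag' (fun i j h => hU.1 (OrderDual.toDual_lt_toDual.2 h)) (fun i => hU.2 i) i

theorem mem_iff_of_maps {G : Type*} [Group G] [Finite G] (γ : MulAut G) (H : Subgroup G)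
    (h : ∀ g, g ∈ H → γ g ∈ H) (g : G) : γ g ∈ H ↔ g ∈ H := by
  refine ⟨fun hg => ?_, h g⟩
  have hle : H.map γ.toMonoidHom ≤ H := by
    rintro _ ⟨u, hu, rfl⟩
    exact h u hu
  have hcard : Nat.card (H.map γ.toMonoidHom) = Nat.card H :=
    Subgroup.card_map_of_injective γ.injective
  have heq : H.map γ.toMonoidHom = H := Subgroup.eq_of_le_of_card_ge hle (by rw [hcard])
  rw [← heq] at hg
  obtain ⟨u, hu, e⟩ := hg
  have : u = g := γ.injective e
  rw [← this]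
  exact hu

/-- **The graph automorphism** of `PSp_4` in characteristic two. -/
theorem graph_Ug (h2 : (2 : F) = 0) : ∃ γ : MulAut (PSpT 2 F),
    (∀ g, γ g ∈ (Ug : Subgroup (PSpT 2 F)) ↔ g ∈ (Ug : Subgroup (PSpT 2 F))) ∧
    (∀ g, γ g ∈ (Vg : Subgroup (PSpT 2 F)) ↔ g ∈ (Vg : Subgroup (PSpT 2 F))) ∧
    (∀ a : F, γ (xg 0 a) = xg 1 (a ^ 2)) ∧ (∀ a : F, γ (xg 1 a) = xg 0 a) := by
  refine ⟨MulEquiv.ofBijective (gamP h2) (gamP_bij h2), ?_, ?_, gamP_x0 h2, gamP_x1 h2⟩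
  · exact mem_iff_of_maps _ _ (gamP_U h2)
  · exact mem_iff_of_maps _ _ (gamP_V h2)

end fin

end Cfsg.Agent.Lib.Helper27.SpGraph
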