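import Mathlib
import Cfsg.Agent.Lib.Helper27.SpForm
import Cfsg.Agent.Lib.Helper27.SpInst

/-!
# More on the projective symplectic group: the full torus action and the centre
-/

set_option autoImplicit false
set_option linter.unusedSectionVars false

namespace Cfsg.Agent.Lib.Helper27.SpInst2

open Matrix Cfsg.Agent.Lib.Helper27.PslnMat Cfsg.Agent.Lib.Helper27.PslnAut
  Cfsg.Agent.Lib.Helper27.SpMat Cfsg.Agent.Lib.Helper27.SpForm Cfsg.Agent.Lib.Helper27.SpInst
  Cfsg.Agent.Lib.Helper27.PslnOut

variable {F : Type*} [Field F] [Finite F] {m : ℕ}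

/-- the entries of the torus element realising a diagonal automorphism -/
def tdl (d : Fin m → Fˣ) (k : Fˣ) (j : Fin (2 * m)) : Fˣ :=
  if j.val < m then k * eprodS (fun i => if i.val + 1 = m then 1 else d i) j.val
  else (k * eprodS (fun i => if i.val + 1 = m then 1 else d i) (Fin.rev j).val)⁻¹

omit [Finite F] in
theorem tdl_rev (d : Fin m → Fˣ) (k : Fˣ) (j : Fin (2 * m)) :
    tdl d k j * tdl d k (Fin.rev j) = 1 := by
  have hj := j.isLt
  unfold tdl
  by_cases h : j.val < m
  · rw [if_pos h, if_neg (by rw [Fin.val_rev]; omega), Fin.rev_rev, mul_inv_cancel]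
  · rw [if_neg h, if_pos (by rw [Fin.val_rev]; omega), inv_mul_cancel]

/-- every diagonal automorphism with a square at the long root is induced by a torus element -/
theorem tor_all_Ug (d : Fin m → Fˣ) (k : Fˣ) : ∃ t : PSpT m F,
    t ∈ Nm (Ug : Subgroup (PSpT m F)) ∧ t ∈ Nm (Vg : Subgroup (PSpT m F)) ∧
    ∀ (i : Fin m) (a : F), t * xg i a * t⁻¹
      = xg i ((if i.val + 1 = m then (k : F) ^ 2 else (d i : F)) * a) := by
  have hs : Mono 1 (fun i => ((tdl d k i : Fˣ) : F))
      (((⟨diagSp (tdl d k) (tdl_rev d k), diagSp_mem _ _⟩ : SpT m F) : SLn (2 * m) F) :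
        Matrix (Fin (2 * m)) (Fin (2 * m)) F) := diagSp_mono (tdl d k) (tdl_rev d k)
  refine ⟨prS ⟨diagSp (tdl d k) (tdl_rev d k), diagSp_mem _ _⟩, (mono_mem_Nm hs).1,
    (mono_mem_Nm hs).2, fun i a => ?_⟩
  rw [mono_act hs i a]
  congr 1
  have hi := i.isLt
  by_cases h : i.val + 1 = m
  · rw [if_pos h]
    have e0 : tdl d k (i0 i) = k := by
      unfold tdl
      rw [if_pos (by rw [i0_val]; exact hi), i0_val, eprodS_step, if_pos h, h, eprodS_top, mul_one,
        mul_one]
    have e1 : tdl d k (i1 i) = k⁻¹ := by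
      unfold tdl
      have : (Fin.rev (i1 i)).val = i.val := by
        rw [Fin.val_rev, i1_val]
        omega
      rw [if_neg (by rw [i1_val]; omega), this, eprodS_step, if_pos h, h, eprodS_top, mul_one,
        mul_one]
    show ((tdl d k (i0 i) : Fˣ) : F) * a / ((tdl d k (i1 i) : Fˣ) : F) = _
    rw [e0, e1, Units.val_inv_eq_inv_val, div_inv_eq_mul]
    ring
  · rw [if_neg h]
    have e0 : tdl d k (i0 i) = d i * tdl d k (i1 i) := by
      unfold tdl
      rw [if_pos (by rw [i0_val]; exact hi), if_pos (by rw [i1_val]; omega), i0_val, i1_val,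
        eprodS_step, if_neg h, mul_left_comm]
    show ((tdl d k (i0 i) : Fˣ) : F) * a / ((tdl d k (i1 i) : Fˣ) : F) = _
    rw [e0, Units.val_mul]
    have hz : ((tdl d k (i1 i) : Fˣ) : F) ≠ 0 := Units.ne_zero _
    field_simp

/-- the projective symplectic group has trivial centre -/
theorem center_PSpT : Subgroup.center (PSpT m F) = ⊥ := by
  rw [eq_bot_iff]
  intro z hz
  have hzc : ∀ g : PSpT m F, z * g * z⁻¹ = g := by
    intro g
    rw [← Subgroup.mem_center_iff.1 hz g]
    group
  have hU : z ∈ Nm (Ug : Subgroup (PSpT m F)) := fun k => by rw [hzc]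
  have hV : z ∈ Nm (Vg : Subgroup (PSpT m F)) := fun k => by rw [hzc]
  obtain ⟨s, d, hs, rfl⟩ := torus_rep z hU hV
  have hd := hs.ne_zero'
  have hs' : ∀ a b, (s : SLn (2 * m) F) a b = if a = b then d b else 0 := fun a b => hs a b
  have hconst : ∀ a b : Fin (2 * m), a ≠ b → d a = d b := by
    intro a b hab
    have h1 := hzc (prS (eS a b hab 1))
    rw [← map_inv, ← map_mul, ← map_mul] at h1
    have hconj : ((s * eS a b hab 1 * s⁻¹ : SpT m F) : SLn (2 * m) F)
        = E a b (d a * 1 / d b) := mono_conj_E s.2 hs hab 1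
    have h2 := prS_eq_of_diag h1 a (by rw [hconj]; exact E_diag hab _ _) (E_diag hab _ _)
    have h3 : E a b (d a * 1 / d b) = E a b (1 : F) := by
      rw [← hconj]
      exact congrArg Subtype.val h2
    have h4 := E_entry hab (d a * 1 / d b)
    rw [h3, E_entry hab, mul_one] at h4
    have := hd b
    field_simp at h4
    exact h4.symm
  rw [Subgroup.mem_bot, prS_eq_one_iff, Subgroup.mem_center_iff]
  intro g
  apply Subtype.ext
  apply Matrix.SpecialLinearGroup.ext
  intro i j
  show (((g : SLn (2 * m) F) * (s : SLn (2 * m) F) : SLn (2 * m) F) :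
      Matrix (Fin (2 * m)) (Fin (2 * m)) F) i j
    = (((s : SLn (2 * m) F) * (g : SLn (2 * m) F) : SLn (2 * m) F) :
      Matrix (Fin (2 * m)) (Fin (2 * m)) F) i j
  rw [Matrix.SpecialLinearGroup.coe_mul, Matrix.SpecialLinearGroup.coe_mul, Matrix.mul_apply,
    Matrix.mul_apply, Finset.sum_eq_single j, Finset.sum_eq_single i]
  · have e1 : (s : SLn (2 * m) F) j j = d j := by rw [hs', if_pos rfl]
    have e2 : (s : SLn (2 * m) F) i i = d i := by rw [hs', if_pos rfl]
    show (g : SLn (2 * m) F) i j * (s : SLn (2 * m) F) j j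
      = (s : SLn (2 * m) F) i i * (g : SLn (2 * m) F) i j
    rw [e1, e2]
    by_cases hij : i = j
    · subst hij
      ring
    · rw [hconst i j hij]
      ring
  · intro k _ hk
    have e1 : (s : SLn (2 * m) F) i k = 0 := by rw [hs', if_neg (Ne.symm hk)]
    show (s : SLn (2 * m) F) i k * (g : SLn (2 * m) F) k j = 0
    rw [e1, zero_mul]
  · intro h
    exact absurd (Finset.mem_univ _) h
  · intro k _ hk
    have e1 : (s : SLn (2 * m) F) k j = 0 := by rw [hs', if_neg hk]
    show (g : SLn (2 * m) F) i k * (s : SLn (2 * m) F) k j = 0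
    rw [e1, mul_zero]
  · intro h
    exact absurd (Finset.mem_univ _) h

end Cfsg.Agent.Lib.Helper27.SpInst2
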