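import Mathlib
import Cfsg.Prelude.Def_Classical
import Cfsg.Prelude.Def_KGroupFacts
import Cfsg.Agent.Lib.Helper27.SpForm
import Cfsg.Agent.Lib.Helper27.SpInst
import Cfsg.Agent.Lib.Helper27.SpInst2
import Cfsg.Agent.Lib.Helper27.SpOut2
import Cfsg.Agent.Lib.Helper27.SpGraph
import Cfsg.Agent.Lib.Helper27.PslnCard
import Cfsg.Agent.Lib.Helper27.PslOutInst

/-!
# The automorphism group of `PSp_{2m}(q)`

`Matrix.symplecticGroup (Fin m) F` is identified with the group `SpT m F` of the other files,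
and the results on `Out` are transported.
-/

set_option autoImplicit false
set_option linter.unusedSectionVars false

namespace Cfsg.Agent.Lib.Helper27.SpFinal

open Matrix Cfsg.Agent.Lib.Helper27.PslnMat Cfsg.Agent.Lib.Helper27.PslnAut
  Cfsg.Agent.Lib.Helper27.SpMat Cfsg.Agent.Lib.Helper27.SpForm Cfsg.Agent.Lib.Helper27.SpInst
  Cfsg.Agent.Lib.Helper27.PslnOut

variable {F : Type*} [Field F] {m : ℕ}

/-! ### transport of structure -/

/-- an isomorphism maps the centre onto the centre -/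
theorem map_center_equiv {G H : Type*} [Group G] [Group H] (φ : G ≃* H) :
    (Subgroup.center G).map φ.toMonoidHom = Subgroup.center H := by
  ext w
  constructor
  · rintro ⟨z, hz, rfl⟩
    rw [Subgroup.mem_center_iff]
    intro h
    obtain ⟨g, rfl⟩ := φ.surjective h
    show φ g * φ z = φ z * φ g
    rw [← map_mul, ← map_mul, Subgroup.mem_center_iff.1 hz g]
  · intro hw
    refine ⟨φ.symm w, Subgroup.mem_center_iff.2 ?_, φ.apply_symm_apply w⟩
    intro g
    apply φ.injective
    rw [map_mul, map_mul, φ.apply_symm_apply]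
    exact Subgroup.mem_center_iff.1 hw (φ g)

/-- isomorphic groups have isomorphic central quotients -/
noncomputable def centerCongr {G H : Type*} [Group G] [Group H] (φ : G ≃* H) :
    G ⧸ Subgroup.center G ≃* H ⧸ Subgroup.center H :=
  QuotientGroup.congr (Subgroup.center G) (Subgroup.center H) φ (map_center_equiv φ)

/-- isomorphic groups have isomorphic outer automorphism groups -/
noncomputable def outCongr {G H : Type*} [Group G] [Group H] (φ : G ≃* H) :
    Cfsg.Out G ≃* Cfsg.Out H :=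
  QuotientGroup.congr (Cfsg.Inn G) (Cfsg.Inn H) (MulAut.congr φ) (by
    ext β
    constructor
    · rintro ⟨α, ⟨g, rfl⟩, rfl⟩
      refine ⟨φ g, ?_⟩
      ext h
      show φ g * h * (φ g)⁻¹ = φ (g * φ.symm h * g⁻¹)
      rw [map_mul, map_mul, map_inv, φ.apply_symm_apply]
    · rintro ⟨h, rfl⟩
      refine ⟨MulAut.conj (φ.symm h), ⟨φ.symm h, rfl⟩, ?_⟩
      ext k
      show φ (φ.symm h * φ.symm k * (φ.symm h)⁻¹) = h * k * h⁻¹
      rw [map_mul, map_mul, map_inv, φ.apply_symm_apply, φ.apply_symm_apply])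

/-! ### the symplectic group of Mathlib -/

/-- the reindexing of the coordinates -/
def eqvFun (m : ℕ) : Fin m ⊕ Fin m → Fin (2 * m) :=
  Sum.elim (fun i => i0 i) (fun i => Fin.rev (i0 i))

/-- the inverse reindexing of the coordinates -/
def eqvInv (m : ℕ) (j : Fin (2 * m)) : Fin m ⊕ Fin m :=
  if h : j.val < m then Sum.inl ⟨j.val, h⟩
  else Sum.inr ⟨(Fin.rev j).val, by have := j.isLt; rw [Fin.val_rev]; omega⟩

/-- the reindexing of the coordinates -/
def eqv (m : ℕ) : Fin m ⊕ Fin m ≃ Fin (2 * m) where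
  toFun := eqvFun m
  invFun := eqvInv m
  left_inv := by
    rintro (i | i)
    · have h : (i0 i).val < m := i.isLt
      show eqvInv m (i0 i) = Sum.inl i
      unfold eqvInv
      rw [dif_pos h]
      rfl
    · have hi := i.isLt
      have h : ¬ (Fin.rev (i0 i)).val < m := by
        rw [Fin.val_rev, i0_val]
        omega
      show eqvInv m (Fin.rev (i0 i)) = Sum.inr i
      unfold eqvInv
      rw [dif_neg h]
      congr 1
      apply Fin.ext
      show (Fin.rev (Fin.rev (i0 i))).val = i.val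
      rw [Fin.rev_rev, i0_val]
  right_inv := by
    intro j
    by_cases h : j.val < m
    · show eqvFun m (eqvInv m j) = j
      unfold eqvInv
      rw [dif_pos h]
      exact Fin.ext rfl
    · show eqvFun m (eqvInv m j) = j
      unfold eqvInv
      rw [dif_neg h]
      show Fin.rev (i0 _) = j
      have : i0 (⟨(Fin.rev j).val, by have := j.isLt; rw [Fin.val_rev]; omega⟩ : Fin m) = Fin.rev j :=
        Fin.ext rfl
      rw [this, Fin.rev_rev]

theorem eqv_inl (i : Fin m) : eqv m (Sum.inl i) = i0 i := rfl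

theorem eqv_inr (i : Fin m) : eqv m (Sum.inr i) = Fin.rev (i0 i) := rfl

theorem i0_inj {a b : Fin m} : i0 a = i0 b ↔ a = b := by
  constructor
  · intro e
    apply Fin.ext
    have := congrArg Fin.val e
    rwa [i0_val, i0_val] at this
  · rintro rfl
    rfl

theorem ep_i0 (a : Fin m) : (ep (i0 a) : F) = 1 := by
  unfold ep
  rw [if_pos (by rw [i0_val]; exact a.isLt)]

/-- the form `Km` is the reindexed standard form -/
theorem Km_eqv (x y : Fin m ⊕ Fin m) :
    (Km : Matrix (Fin (2 * m)) (Fin (2 * m)) F) (eqv m x) (eqv m y) = Matrix.J (Fin m) F x y := by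
  rcases x with a | a <;> rcases y with b | b
  · have ha := a.isLt
    have hb := b.isLt
    rw [eqv_inl, eqv_inl, Km_apply, if_neg (ne_of_val (by rw [Fin.val_rev, i0_val, i0_val]; omega))]
    simp [Matrix.J]
  · rw [eqv_inl, eqv_inr, Km_apply, Fin.rev_rev, ep_rev, ep_i0]
    simp only [Matrix.J, Matrix.fromBlocks_apply₁₂, Matrix.neg_apply, Matrix.one_apply, i0_inj]
    split_ifs <;> simp
  · rw [eqv_inr, eqv_inl, Km_apply, ep_i0]
    simp only [Matrix.J, Matrix.fromBlocks_apply₂₁, Matrix.one_apply, Fin.rev_inj, i0_inj]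
  · have ha := a.isLt
    have hb := b.isLt
    rw [eqv_inr, eqv_inr, Km_apply, Fin.rev_rev,
      if_neg (ne_of_val (by rw [Fin.val_rev, i0_val, i0_val]; omega))]
    simp [Matrix.J]

theorem Km_submatrix : (Km : Matrix (Fin (2 * m)) (Fin (2 * m)) F).submatrix (eqv m) (eqv m)
    = Matrix.J (Fin m) F := by
  ext x y
  exact Km_eqv x y

theorem J_submatrix : (Matrix.J (Fin m) F).submatrix (eqv m).symm (eqv m).symm
    = (Km : Matrix (Fin (2 * m)) (Fin (2 * m)) F) := by
  rw [← Km_submatrix, Matrix.submatrix_submatrix]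
  simp

/-- from Mathlib's symplectic group to `SpT` -/
def toSpT (A : Matrix.symplecticGroup (Fin m) F) : SpT m F :=
  ⟨⟨(A : Matrix (Fin m ⊕ Fin m) (Fin m ⊕ Fin m) F).submatrix (eqv m).symm (eqv m).symm, by
      rw [Matrix.det_submatrix_equiv_self]
      exact SymplecticGroup.det_eq_one A.2⟩, by
    refine mem_SpS_mat.2 ?_
    show (A : Matrix (Fin m ⊕ Fin m) (Fin m ⊕ Fin m) F).submatrix (eqv m).symm (eqv m).symm * Km
      * ((A : Matrix (Fin m ⊕ Fin m) (Fin m ⊕ Fin m) F).submatrix (eqv m).symm (eqv m).symm)ᵀ = Km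
    rw [← J_submatrix, Matrix.transpose_submatrix, Matrix.submatrix_mul_equiv,
      Matrix.submatrix_mul_equiv, SymplecticGroup.mem_iff.1 A.2]⟩

theorem toSpT_coe (A : Matrix.symplecticGroup (Fin m) F) :
    (((toSpT A : SpT m F) : SLn (2 * m) F) : Matrix (Fin (2 * m)) (Fin (2 * m)) F)
      = (A : Matrix (Fin m ⊕ Fin m) (Fin m ⊕ Fin m) F).submatrix (eqv m).symm (eqv m).symm := rfl

/-- from `SpT` to Mathlib's symplectic group -/
def ofSpT (s : SpT m F) : Matrix.symplecticGroup (Fin m) F :=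
  ⟨((s : SLn (2 * m) F) : Matrix (Fin (2 * m)) (Fin (2 * m)) F).submatrix (eqv m) (eqv m), by
    rw [SymplecticGroup.mem_iff, ← Km_submatrix, Matrix.transpose_submatrix,
      Matrix.submatrix_mul_equiv, Matrix.submatrix_mul_equiv, mem_SpS_mat.1 s.2]⟩

/-- Mathlib's symplectic group is `SpT` -/
def spEquiv : Matrix.symplecticGroup (Fin m) F ≃* SpT m F where
  toFun := toSpT
  invFun := ofSpT
  left_inv A := by
    apply Subtype.ext
    show ((A : Matrix (Fin m ⊕ Fin m) (Fin m ⊕ Fin m) F).submatrix (eqv m).symm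
      (eqv m).symm).submatrix (eqv m) (eqv m) = A
    rw [Matrix.submatrix_submatrix]
    simp
  right_inv s := by
    apply Subtype.ext
    apply Subtype.ext
    show (((s : SLn (2 * m) F) : Matrix (Fin (2 * m)) (Fin (2 * m)) F).submatrix (eqv m)
      (eqv m)).submatrix (eqv m).symm (eqv m).symm = _
    rw [Matrix.submatrix_submatrix]
    simp
  map_mul' A B := by
    apply Subtype.ext
    apply Subtype.ext
    show ((A : Matrix (Fin m ⊕ Fin m) (Fin m ⊕ Fin m) F)
        * (B : Matrix (Fin m ⊕ Fin m) (Fin m ⊕ Fin m) F)).submatrix (eqv m).symm (eqv m).symm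
      = (A : Matrix (Fin m ⊕ Fin m) (Fin m ⊕ Fin m) F).submatrix (eqv m).symm (eqv m).symm
        * (B : Matrix (Fin m ⊕ Fin m) (Fin m ⊕ Fin m) F).submatrix (eqv m).symm (eqv m).symm
    rw [Matrix.submatrix_mul_equiv]

/-- the projective symplectic group of the statements is `PSpT` -/
noncomputable def pspEquiv : Cfsg.PSp m F ≃* PSpT m F := centerCongr spEquiv

/-! ### the final results -/

section final

variable [Fintype F]

open Cfsg.Agent.Lib.Helper27

/-- the Frobenius automorphism of a field of order `2 ^ f` has order `f` -/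
theorem frob_order {f : ℕ} (hF : Fintype.card F = 2 ^ f) (σ₂ : RingAut F)
    (hσ₂ : ∀ a, σ₂ a = a ^ 2) : orderOf σ₂ = f := by
  have hchar : CharP F 2 := PslOutInst.charP_of_card hF
  let _ : Algebra (ZMod 2) F := ZMod.algebra F 2
  let e : (F ≃ₐ[ZMod 2] F) ≃* RingAut F :=
    { toFun := fun f => f.toRingEquiv
      invFun := fun f => AlgEquiv.ofRingEquiv (f := f) (fun x =>
        RingHom.congr_fun (Subsingleton.elim ((f : F →+* F).comp (algebraMap (ZMod 2) F))
          (algebraMap (ZMod 2) F)) x)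
      left_inv := fun f => by ext x; rfl
      right_inv := fun f => by ext x; rfl
      map_mul' := fun f g => rfl }
  have h1 := FiniteField.orderOf_frobeniusAlgEquivOfAlgebraic (ZMod 2) F
  have h2 : e (FiniteField.frobeniusAlgEquivOfAlgebraic (ZMod 2) F) = σ₂ := by
    apply RingEquiv.ext
    intro a
    show a ^ Fintype.card (ZMod 2) = σ₂ a
    rw [ZMod.card, hσ₂]
  rw [← h2, MulEquiv.orderOf_eq, h1]
  have h3 := Module.card_eq_pow_finrank (K := ZMod 2) (V := F)
  rw [hF, ZMod.card] at h3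
  exact (Nat.pow_right_injective le_rfl h3).symm

/-- **`Out (PSp_4(2^f))`** is cyclic of order `2 f` (for `PSpT`). -/
theorem out_pspT_four {f : ℕ} (hF : Fintype.card F = 2 ^ f) :
    IsCyclic (Cfsg.Out (PSpT 2 F)) ∧ Nat.card (Cfsg.Out (PSpT 2 F)) = 2 * f := by
  have hchar : CharP F 2 := PslOutInst.charP_of_card hF
  have h2 : (2 : F) = 0 := by
    have := CharP.cast_eq_zero F 2
    exact_mod_cast this
  have hok := okC (F := F) (m := 2) 2 le_rfl
  obtain ⟨γ, hγU, hγV, hγ0, hγ1⟩ := SpGraph.graph_Ug h2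
  have hord := frob_order hF (SpGraph.frob2 h2) (SpGraph.frob2_apply h2)
  have hcard := (PslOutInst.ringAut_cyclic hF).2
  have hgen : ∀ σ : RingAut F, σ ∈ Subgroup.zpowers (SpGraph.frob2 h2) := by
    have hfin : Finite (RingAut F) :=
      Finite.of_injective (fun e : RingAut F => (e : F → F)) DFunLike.coe_injective
    have : Subgroup.zpowers (SpGraph.frob2 h2) = ⊤ :=
      Subgroup.eq_top_of_card_eq _ (by rw [Nat.card_zpowers, hord, hcard])
    intro σ
    rw [this]
    trivial
  obtain ⟨hc, hn⟩ := hok.out_exc h2 SpInst2.tor_all_Ug γ ⟨hγU, hγV⟩ hγ0 hγ1 (SpGraph.frob2 h2)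
    (SpGraph.frob2_apply h2) hgen
  exact ⟨hc, by rw [hn, hcard]⟩

/-- **`Out (PSp_4(2^f))`** is cyclic of order `2 f`. -/
theorem out_psp_four {f : ℕ} (hF : Fintype.card F = 2 ^ f) :
    IsCyclic (Cfsg.Out (Cfsg.PSp 2 F)) ∧ Nat.card (Cfsg.Out (Cfsg.PSp 2 F)) = 2 * f := by
  obtain ⟨hc, hn⟩ := out_pspT_four hF
  refine ⟨?_, ?_⟩
  · have := hc
    exact isCyclic_of_surjective (outCongr (pspEquiv (F := F) (m := 2))).symm
      (MulEquiv.surjective _)
  · rw [Nat.card_congr (outCongr (pspEquiv (F := F) (m := 2))).toEquiv, hn]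

/-- **The order of `Aut (PSp_{2m}(q))`**, `m ≥ 2`. -/
theorem card_aut_psp (p f : ℕ) [Fact p.Prime] (hf : 1 ≤ f) (hF : Fintype.card F = p ^ f) (m : ℕ)
    (hm : 2 ≤ m) :
    Nat.card (MulAut (Cfsg.PSp m F))
      = (if m = 2 ∧ p = 2 then 2 else 1) * Nat.gcd 2 (p ^ f - 1) * f
        * Nat.card (Cfsg.PSp m F) := by
  have hchar : CharP F p := PslOutInst.charP_of_card hF
  have e1 : Nat.card (MulAut (Cfsg.PSp m F)) = Nat.card (MulAut (PSpT m F)) :=
    Nat.card_congr (MulAut.congr pspEquiv).toEquiv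
  have e2 : Nat.card (Cfsg.PSp m F) = Nat.card (PSpT m F) := Nat.card_congr pspEquiv.toEquiv
  rw [e1, e2, PslnCard.card_aut SpInst2.center_PSpT]
  have hcardR := (PslOutInst.ringAut_cyclic hF).2
  by_cases hexc : m = 2 ∧ p = 2
  · obtain ⟨rfl, rfl⟩ := hexc
    rw [if_pos ⟨rfl, rfl⟩, (out_pspT_four hF).2]
    have hodd : Odd (2 ^ f - 1) :=
      Nat.Even.sub_odd (Nat.one_le_two_pow) (Nat.even_pow.2 ⟨even_two, by omega⟩) odd_one
    have : Nat.gcd 2 (2 ^ f - 1) = 1 := Nat.coprime_two_left.2 hodd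
    rw [this]
  · rw [if_neg hexc]
    have hasym : (2 : F) ≠ 0 ∨ 3 ≤ m := by
      by_cases h3 : 3 ≤ m
      · exact Or.inr h3
      · left
        have hm2 : m = 2 := by omega
        have hp2 : p ≠ 2 := fun e => hexc ⟨hm2, e⟩
        intro h20
        have h : ((2 : ℕ) : F) = 0 := by exact_mod_cast h20
        rw [CharP.cast_eq_zero_iff F p] at h
        exact hp2 ((Nat.prime_dvd_prime_iff_eq (Fact.out) Nat.prime_two).1 h)
    have hok := okC (F := F) p hm
    rw [hok.card_out hasym SpInst2.tor_all_Ug, hcardR, Nat.card_eq_fintype_card (α := F), hF,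
      one_mul]

end final

end Cfsg.Agent.Lib.Helper27.SpFinal
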