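import Cfsg.Agent.Lib.Helper27.SzBridge
import Cfsg.Agent.Lib.Helper27.BruhatTwo

set_option autoImplicit false

namespace Cfsg.Agent.Lib.Helper27.SzBruhat

open Cfsg Matrix
open Cfsg.Agent.Lib.Helper8.Sz
open Cfsg.Agent.Lib.Helper27.BruhatTwo
open Cfsg.Agent.Lib.Helper27.SzBridge

variable {F : Type*} [Field F] [Fintype F] {m : ℕ}

/-- the translation subgroup of the ovoid stabiliser -/
def Q₀ (hF : Fintype.card F = 2 ^ (2 * m + 1)) : Subgroup (Cfsg.Sz F m) where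
  carrier := {x | ∃ a b, x = TS hF a b}
  mul_mem' := by
    rintro x y ⟨a, b, rfl⟩ ⟨a', b', rfl⟩
    exact ⟨_, _, TS_mul hF a b a' b'⟩
  one_mem' := ⟨0, 0, (TS_zero hF).symm⟩
  inv_mem' := by
    rintro x ⟨a, b, rfl⟩
    exact ⟨_, _, TS_inv hF a b⟩

theorem mem_Q₀ (hF : Fintype.card F = 2 ^ (2 * m + 1)) (x : Cfsg.Sz F m) :
    x ∈ Q₀ hF ↔ ∃ a b, x = TS hF a b := Iff.rfl

theorem card_Q₀ (hF : Fintype.card F = 2 ^ (2 * m + 1)) :
    Nat.card (Q₀ hF) = (2 ^ (2 * m + 1)) ^ 2 := by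
  let Φ : F × F → Q₀ hF := fun t => ⟨TS hF t.1 t.2, ⟨t.1, t.2, rfl⟩⟩
  have hbij : Function.Bijective Φ := by
    constructor
    · rintro ⟨a, b⟩ ⟨a', b'⟩ h
      have h1 : TS hF a b = TS hF a' b' := congrArg Subtype.val h
      have h2 := Tg_inj (congrArg Subtype.val h1)
      exact Prod.ext h2.1 h2.2
    · rintro ⟨x, a, b, rfl⟩
      exact ⟨(a, b), rfl⟩
  rw [← Nat.card_congr (Equiv.ofBijective Φ hbij), Nat.card_prod, Nat.card_eq_fintype_card, hF,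
    sq]

theorem hyp₀ (hF : Fintype.card F = 2 ^ (2 * m + 1)) (hm : 1 ≤ m) :
    Hyp (Bsub F m) (Q₀ hF) (wS hF) where
  le := by
    rintro x ⟨a, b, rfl⟩
    rw [mem_Bsub_iff]
    exact Tg_smul_Pinf a b
  conj := by
    rintro x hx u ⟨c, d, rfl⟩
    obtain ⟨a, b, s, rfl⟩ := fix_inf_decomp' hF hm x hx
    have e : TS hF a b * HS hF s * TS hF c d * (TS hF a b * HS hF s)⁻¹
        = TS hF a b * (HS hF s * TS hF c d) * (HS hF s)⁻¹ * (TS hF a b)⁻¹ := by group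
    rw [e, HS_mul_TS]
    have e2 : TS hF a b * (TS hF (th m (s : F) * c) (th m (s : F) * (s : F) ^ 2 * d) * HS hF s)
        * (HS hF s)⁻¹ * (TS hF a b)⁻¹
        = TS hF a b * TS hF (th m (s : F) * c) (th m (s : F) * (s : F) ^ 2 * d)
          * (TS hF a b)⁻¹ := by group
    rw [e2]
    exact Subgroup.mul_mem _ (Subgroup.mul_mem _ ⟨a, b, rfl⟩ ⟨_, _, rfl⟩)
      (Subgroup.inv_mem _ ⟨a, b, rfl⟩)
  cases := by
    intro g
    have h1 : g.1 • Pinf F ∈ suzukiOvoid F m := smul_mem_of_mem_Sz g.2 Pinf_mem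
    rcases (mem_ovoid_iff _).1 h1 with h | ⟨a, b, h⟩
    · exact Or.inl ((mem_Bsub_iff g).mpr h)
    · right
      refine ⟨TS hF a b, ⟨a, b, rfl⟩, (TS hF a b * wS hF)⁻¹ * g, ?_, by group⟩
      rw [mem_Bsub_iff]
      show ((Tg m a b * wg F)⁻¹ * g.1) • Pinf F = Pinf F
      rw [mul_smul, h, inv_smul_eq_iff, mul_smul, wg_smul_Pinf (m := m), Tg_smul_zero hF]
  uniq := by
    rintro u ⟨a, b, rfl⟩ x hx heq
    have h1 : (Tg m a b * wg F * x.1) • Pinf F = wg F • Pinf F := by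
      have := congrArg (fun y : Cfsg.Sz F m => y.1 • Pinf F) heq
      exact this
    rw [mul_smul, (mem_Bsub_iff x).mp hx, mul_smul, wg_smul_Pinf (m := m), Tg_smul_zero hF] at h1
    obtain ⟨rfl, rfl⟩ := Paff_inj h1
    exact TS_zero hF
  ne := ⟨TS hF 1 0, ⟨1, 0, rfl⟩, TS_ne_one hF⟩

end Cfsg.Agent.Lib.Helper27.SzBruhat
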