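import Mathlib

/-!
# Outer automorphisms of a group with a Suzuki-type rank-one presentation (abstract part)

`Ok θ T H w`: a finite group `G` with elements `T a b` (`a b : F`), `H s` (`s : Fˣ`), `w`
satisfying the relations of the Suzuki group over the finite field `F` of characteristic two with
the Tits endomorphism `θ`, a Bruhat decomposition, the `T a b` forming a Sylow 2-subgroup, and
field automorphisms.  Conclusion (`Ok.card_out`): `Aut G / Inn G` is in bijection with the ring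
automorphisms of `F`.
-/

set_option autoImplicit false
set_option linter.unusedSectionVars false

namespace Cfsg.Agent.Lib.Helper27.SzOut

open scoped Pointwise

variable {F : Type*} [Field F] [Finite F] [CharP F 2] {G : Type*} [Group G] [Finite G]

/-- the hypotheses -/
structure Ok (θ : F →+* F) (T : F → F → G) (H : Fˣ → G) (w : G) : Prop where
  θθ : ∀ x, θ (θ x) = x ^ 2
  θne : ∃ a, θ a + a ≠ 0
  θsurj : ∀ d : F, ∃ c, θ c * c = d
  T_mul : ∀ a b a' b', T a b * T a' b' = T (a + a') (b + b' + θ a * a')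
  T_inj : ∀ a b a' b', T a b = T a' b' → a = a' ∧ b = b'
  H_mul : ∀ s s', H (s * s') = H s * H s'
  H_inj : ∀ s, H s = 1 → s = 1
  HT : ∀ (s : Fˣ) (a b : F), H s * T a b = T (θ s * a) (θ s * (s : F) ^ 2 * b) * H s
  w_sq : w * w = 1
  wH : ∀ s, w * H s * w = H s⁻¹
  cases : ∀ g : G, (∃ a b s, g = T a b * H s) ∨ ∃ a b c d s, g = T a b * w * (T c d * H s)
  uniq : ∀ a b c d s, T a b * w * (T c d * H s) = w → a = 0 ∧ b = 0
  syl : ∃ P : Sylow 2 G, ∀ g, g ∈ P ↔ ∃ a b, g = T a b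
  field : ∀ σ : F ≃+* F, ∃ φ : MulAut G, (∀ a b, φ (T a b) = T (σ a) (σ b)) ∧ φ w = w

variable {θ : F →+* F} {T : F → F → G} {H : Fˣ → G} {w : G}

namespace Ok

variable (h : Ok θ T H w)
include h

theorem T_zero : T 0 0 = 1 := by
  have := h.T_mul 0 0 0 0
  simp only [add_zero, map_zero, mul_zero] at this
  exact mul_eq_left.1 this

theorem T_split (a b : F) : T a b = T a 0 * T 0 b := by
  rw [h.T_mul]
  simp

theorem T0_mul (b b' : F) : T 0 b * T 0 b' = T 0 (b + b') := by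
  rw [h.T_mul]
  simp

theorem T_sq (a b : F) : T a b * T a b = T 0 (θ a * a) := by
  rw [h.T_mul, CharTwo.add_self_eq_zero, CharTwo.add_self_eq_zero, zero_add]

theorem T_inv (a b : F) : (T a b)⁻¹ = T a (b + θ a * a) := by
  apply inv_eq_of_mul_eq_one_right
  rw [h.T_mul, CharTwo.add_self_eq_zero]
  have : b + (b + θ a * a) + θ a * a = 0 := by
    have h1 := CharTwo.add_self_eq_zero b
    have h2 := CharTwo.add_self_eq_zero (θ a * a)
    linear_combination h1 + h2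
  rw [this, h.T_zero]

theorem H_one : H 1 = 1 := by
  have := h.H_mul 1 1
  rw [mul_one] at this
  exact (mul_eq_left.1 this.symm)

theorem H_inv (s : Fˣ) : (H s)⁻¹ = H s⁻¹ := by
  apply inv_eq_of_mul_eq_one_right
  rw [← h.H_mul, mul_inv_cancel, h.H_one]

theorem H_injective : Function.Injective H := by
  intro s s' e
  have : H (s * s'⁻¹) = 1 := by
    rw [h.H_mul, ← h.H_inv, e, mul_inv_cancel]
  have := h.H_inj _ this
  exact mul_inv_eq_one.1 this


theorem θ_inj : Function.Injective θ := θ.injective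

theorem θ_surj : Function.Surjective θ := Finite.injective_iff_surjective.1 θ.injective


theorem mul_θ_eq_one {x : F} (hx : x * θ x = 1) : x = 1 := by
  have h2 : θ x * x ^ 2 = 1 := by
    have := congrArg θ hx
    rw [map_mul, h.θθ, map_one] at this
    exact this
  linear_combination (-x) * hx + h2


theorem κ_eq_one {s : F} (hs : θ s * s ^ 2 = 1) : s = 1 := by
  have h2 : (s * θ s) ^ 2 = 1 := by
    have := congrArg θ hs
    rw [map_mul, h.θθ, map_pow, map_one] at this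
    linear_combination this
  have h3 : s * θ s = 1 := by
    have h4 : ((s * θ s) - 1) ^ 2 = 0 := by
      have h5 : (2 : F) = 0 := CharTwo.two_eq_zero
      linear_combination h2 + (1 - s * θ s) * h5
    have := pow_eq_zero_iff (two_ne_zero) |>.1 h4
    linear_combination this
  exact h.mul_θ_eq_one h3

theorem κ_surj {k : F} (hk : k ≠ 0) : ∃ s : Fˣ, θ (s : F) * (s : F) ^ 2 = k := by
  obtain ⟨c, hc⟩ := h.θsurj k
  obtain ⟨s₀, hs₀⟩ := h.θ_surj c
  have hc0 : c ≠ 0 := by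
    rintro rfl
    rw [mul_zero] at hc
    exact hk hc.symm
  have hs0 : s₀ ≠ 0 := by
    rintro rfl
    rw [map_zero] at hs₀
    exact hc0 hs₀.symm
  refine ⟨Units.mk0 s₀ hs0, ?_⟩
  rw [Units.val_mk0, ← h.θθ, hs₀, ← hc]
  ring

/-- the unipotent subgroup -/
def Qs : Subgroup G where
  carrier := {g | ∃ a b, g = T a b}
  mul_mem' := by
    rintro x y ⟨a, b, rfl⟩ ⟨a', b', rfl⟩
    exact ⟨_, _, h.T_mul a b a' b'⟩
  one_mem' := ⟨0, 0, h.T_zero.symm⟩
  inv_mem' := by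
    rintro x ⟨a, b, rfl⟩
    exact ⟨_, _, h.T_inv a b⟩

theorem mem_Qs (g : G) : g ∈ h.Qs ↔ ∃ a b, g = T a b := Iff.rfl

theorem T_mem (a b : F) : T a b ∈ h.Qs := ⟨a, b, rfl⟩

theorem H_conj_T (s : Fˣ) (a b : F) :
    H s * T a b * (H s)⁻¹ = T (θ s * a) (θ s * (s : F) ^ 2 * b) := by
  rw [h.HT, mul_assoc, mul_inv_cancel, mul_one]

/-- the Borel subgroup -/
def Bs : Subgroup G where
  carrier := {g | ∃ a b s, g = T a b * H s}
  mul_mem' := by
    rintro x y ⟨a, b, s, rfl⟩ ⟨a', b', s', rfl⟩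
    refine ⟨a + θ s * a', b + θ s * (s : F) ^ 2 * b' + θ a * (θ s * a'), s * s', ?_⟩
    rw [mul_assoc, ← mul_assoc (H s), h.HT, mul_assoc, ← h.H_mul, ← mul_assoc, h.T_mul]
  one_mem' := ⟨0, 0, 1, by rw [h.T_zero, h.H_one, mul_one]⟩
  inv_mem' := by
    rintro x ⟨a, b, s, rfl⟩
    refine ⟨θ (s⁻¹ : Fˣ) * a, θ (s⁻¹ : Fˣ) * ((s⁻¹ : Fˣ) : F) ^ 2 * (b + θ a * a), s⁻¹, ?_⟩
    rw [mul_inv_rev, h.T_inv, h.H_inv, h.HT]

theorem mem_Bs (g : G) : g ∈ h.Bs ↔ ∃ a b s, g = T a b * H s := Iff.rfl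

theorem Qs_le_Bs : h.Qs ≤ h.Bs := by
  rintro x ⟨a, b, rfl⟩
  exact ⟨a, b, 1, by rw [h.H_one, mul_one]⟩

theorem H_mem (s : Fˣ) : H s ∈ h.Bs := ⟨0, 0, s, by rw [h.T_zero, one_mul]⟩

theorem w_inv : w⁻¹ = w := inv_eq_of_mul_eq_one_right h.w_sq

/-- the Borel subgroup normalises the unipotent subgroup -/
theorem conj_mem_Qs {x u : G} (hx : x ∈ h.Bs) (hu : u ∈ h.Qs) : x * u * x⁻¹ ∈ h.Qs := by
  obtain ⟨a, b, s, rfl⟩ := hx
  obtain ⟨c, d, rfl⟩ := hu
  have e : T a b * H s * T c d * (T a b * H s)⁻¹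
      = T a b * (H s * T c d * (H s)⁻¹) * (T a b)⁻¹ := by group
  rw [e, h.H_conj_T]
  exact h.Qs.mul_mem (h.Qs.mul_mem (h.T_mem a b) (h.T_mem _ _)) (h.Qs.inv_mem (h.T_mem a b))

theorem conj_mem_Qs_iff {x u : G} (hx : x ∈ h.Bs) : x * u * x⁻¹ ∈ h.Qs ↔ u ∈ h.Qs := by
  constructor
  · intro hu
    have := h.conj_mem_Qs (h.Bs.inv_mem hx) hu
    have e : x⁻¹ * (x * u * x⁻¹) * x⁻¹⁻¹ = u := by group
    rwa [e] at this
  · exact h.conj_mem_Qs hx

/-- `w u w ∈ B` forces `u = 1` -/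
theorem eq_one_of_wuw {u : G} (hu : u ∈ h.Qs) (hb : w * u * w ∈ h.Bs) : u = 1 := by
  obtain ⟨a, b, rfl⟩ := hu
  obtain ⟨c, d, s, hcd⟩ := h.Bs.inv_mem hb
  have e : T a b * w * (T c d * H s) = w := by
    rw [← hcd]
    have : T a b * w * (w * T a b * w)⁻¹ = w⁻¹ := by group
    rw [this, h.w_inv]
  obtain ⟨rfl, rfl⟩ := h.uniq a b c d s e
  exact h.T_zero

theorem T10_ne_one : T 1 0 ≠ 1 := by
  intro e
  rw [← h.T_zero] at e
  exact one_ne_zero (h.T_inj _ _ _ _ e).1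

/-- an element conjugating a non-identity element of `Q` into `Q` lies in `B` -/
theorem mem_Bs_of_conj {x u : G} (hu : u ∈ h.Qs) (hu1 : u ≠ 1) (hx : x * u * x⁻¹ ∈ h.Qs) :
    x ∈ h.Bs := by
  rcases h.cases x with ⟨a, b, s, rfl⟩ | ⟨a, b, c, d, s, rfl⟩
  · exact ⟨a, b, s, rfl⟩
  · exfalso
    have hb : T c d * H s ∈ h.Bs := ⟨c, d, s, rfl⟩
    have hu2 : (T c d * H s) * u * (T c d * H s)⁻¹ ∈ h.Qs := h.conj_mem_Qs hb hu
    have e : w * ((T c d * H s) * u * (T c d * H s)⁻¹) * w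
        = (T a b)⁻¹ * (T a b * w * (T c d * H s) * u * (T a b * w * (T c d * H s))⁻¹) * T a b := by
      have : w * ((T c d * H s) * u * (T c d * H s)⁻¹) * w
          = w * ((T c d * H s) * u * (T c d * H s)⁻¹) * w⁻¹ := by rw [h.w_inv]
      rw [this]
      group
    have h3 : w * ((T c d * H s) * u * (T c d * H s)⁻¹) * w ∈ h.Bs := by
      rw [e]
      exact h.Qs_le_Bs (h.Qs.mul_mem (h.Qs.mul_mem (h.Qs.inv_mem (h.T_mem a b)) hx) (h.T_mem a b))
    have h4 := h.eq_one_of_wuw hu2 h3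
    apply hu1
    have : u = (T c d * H s)⁻¹ * ((T c d * H s) * u * (T c d * H s)⁻¹) * (T c d * H s) := by group
    rw [this, h4]
    group

/-- `B ∩ wBw` is the torus -/
theorem exists_H_of_mem {x : G} (hx : x ∈ h.Bs) (hx' : w * x * w ∈ h.Bs) : ∃ s, x = H s := by
  obtain ⟨a, b, s, rfl⟩ := hx
  have e : w * T a b * w = w * (T a b * H s) * w * (H s⁻¹)⁻¹ := by
    rw [← h.wH s]
    have : w * (T a b * H s) * w * (w * H s * w)⁻¹ = w * T a b * w⁻¹ := by group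
    rw [this, h.w_inv]
  have h1 : w * T a b * w ∈ h.Bs := by
    rw [e]
    exact h.Bs.mul_mem hx' (h.Bs.inv_mem (h.H_mem _))
  have h2 := h.eq_one_of_wuw (h.T_mem a b) h1
  exact ⟨s, by rw [h2, one_mul]⟩

theorem wH' (s : Fˣ) : w * H s * w⁻¹ = H s⁻¹ := by rw [h.w_inv, h.wH]

theorem eq_one_of_wuw' {u : G} (hu : u ∈ h.Qs) (hb : w * u * w⁻¹ ∈ h.Bs) : u = 1 := by
  rw [h.w_inv] at hb
  exact h.eq_one_of_wuw hu hb

theorem exists_H_of_mem' {x : G} (hx : x ∈ h.Bs) (hx' : w * x * w⁻¹ ∈ h.Bs) : ∃ s, x = H s := by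
  rw [h.w_inv] at hx'
  exact h.exists_H_of_mem hx hx'

/-- admissible automorphisms: those preserving `Q` and `w Q w⁻¹` -/
def Adm (α : MulAut G) : Prop :=
  (∀ g, α g ∈ h.Qs ↔ g ∈ h.Qs) ∧ (∀ g, w * α g * w⁻¹ ∈ h.Qs ↔ w * g * w⁻¹ ∈ h.Qs)

theorem adm_mul {α β : MulAut G} (hα : h.Adm α) (hβ : h.Adm β) : h.Adm (α * β) :=
  ⟨fun g => by rw [MulAut.mul_apply, hα.1, hβ.1], fun g => by rw [MulAut.mul_apply, hα.2, hβ.2]⟩

theorem adm_inv {α : MulAut G} (hα : h.Adm α) : h.Adm α⁻¹ :=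
  ⟨fun g => by rw [← hα.1 (α⁻¹ g), MulAut.apply_inv_self],
   fun g => by rw [← hα.2 (α⁻¹ g), MulAut.apply_inv_self]⟩

theorem adm_conj_H (s : Fˣ) : h.Adm (MulAut.conj (H s)) := by
  constructor
  · intro g
    rw [MulAut.conj_apply]
    exact h.conj_mem_Qs_iff (h.H_mem s)
  · intro g
    rw [MulAut.conj_apply]
    have e : w * (H s * g * (H s)⁻¹) * w⁻¹ = (w * H s * w⁻¹) * (w * g * w⁻¹) * (w * H s * w⁻¹)⁻¹ := by
      group
    rw [e, h.wH']
    exact h.conj_mem_Qs_iff (h.H_mem _)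

theorem adm_Bs {α : MulAut G} (hα : h.Adm α) {x : G} (hx : x ∈ h.Bs) : α x ∈ h.Bs := by
  apply h.mem_Bs_of_conj (u := α (T 1 0)) ((hα.1 _).2 (h.T_mem 1 0))
  · intro e
    exact h.T10_ne_one ((map_eq_one_iff α α.injective).1 e)
  · rw [← map_inv, ← map_mul, ← map_mul, hα.1]
    exact h.conj_mem_Qs hx (h.T_mem 1 0)

theorem adm_Bs' {α : MulAut G} (hα : h.Adm α) {x : G} (hx : w * x * w⁻¹ ∈ h.Bs) :
    w * α x * w⁻¹ ∈ h.Bs := by
  have hu : w * α (w⁻¹ * T 1 0 * w) * w⁻¹ ∈ h.Qs := by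
    rw [hα.2]
    have : w * (w⁻¹ * T 1 0 * w) * w⁻¹ = T 1 0 := by group
    rw [this]
    exact h.T_mem 1 0
  apply h.mem_Bs_of_conj hu
  · intro e
    have e1 : α (w⁻¹ * T 1 0 * w) = 1 := by
      have : α (w⁻¹ * T 1 0 * w) = w⁻¹ * (w * α (w⁻¹ * T 1 0 * w) * w⁻¹) * w := by group
      rw [this, e]
      group
    have e2 := (map_eq_one_iff α α.injective).1 e1
    apply h.T10_ne_one
    have : T 1 0 = w * (w⁻¹ * T 1 0 * w) * w⁻¹ := by group
    rw [this, e2]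
    group
  · have e : w * α x * w⁻¹ * (w * α (w⁻¹ * T 1 0 * w) * w⁻¹) * (w * α x * w⁻¹)⁻¹
        = w * α (x * (w⁻¹ * T 1 0 * w) * x⁻¹) * w⁻¹ := by
      simp only [map_mul, map_inv]
      group
    rw [e, hα.2]
    have e2 : w * (x * (w⁻¹ * T 1 0 * w) * x⁻¹) * w⁻¹ = (w * x * w⁻¹) * T 1 0 * (w * x * w⁻¹)⁻¹ := by
      group
    rw [e2]
    exact h.conj_mem_Qs hx (h.T_mem 1 0)

theorem adm_H {α : MulAut G} (hα : h.Adm α) (s : Fˣ) : ∃ s', α (H s) = H s' := by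
  apply h.exists_H_of_mem' (h.adm_Bs hα (h.H_mem s))
  apply h.adm_Bs' hα
  rw [h.wH']
  exact h.H_mem _

theorem adm_T0 {α : MulAut G} (hα : h.Adm α) (b : F) : ∃ b', α (T 0 b) = T 0 b' := by
  obtain ⟨a', b', e⟩ := (hα.1 (T 0 b)).2 (h.T_mem 0 b)
  have h1 : T a' b' * T a' b' = 1 := by
    rw [← e, ← map_mul, h.T0_mul, CharTwo.add_self_eq_zero, h.T_zero, map_one]
  rw [h.T_sq, ← h.T_zero] at h1
  have h2 := (h.T_inj _ _ _ _ h1).2
  have ha : a' = 0 := by
    rcases mul_eq_zero.1 h2 with h3 | h3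
    · exact (map_eq_zero θ).1 h3
    · exact h3
  exact ⟨b', by rw [e, ha]⟩

/-- an admissible automorphism acts semilinearly on the centre of `Q` -/
theorem adm_semilinear {α : MulAut G} (hα : h.Adm α) :
    ∃ (c : F) (σ : F ≃+* F), c ≠ 0 ∧ ∀ b, α (T 0 b) = T 0 (c * σ b) := by
  choose β hβ using fun b => h.adm_T0 hα b
  have β_add : ∀ b b', β (b + b') = β b + β b' := by
    intro b b'
    have := congrArg α (h.T0_mul b b')
    rw [map_mul, hβ, hβ, hβ, h.T0_mul] at this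
    exact ((h.T_inj _ _ _ _ this).2).symm
  have β_inj : Function.Injective β := by
    intro b b' e
    have : α (T 0 b) = α (T 0 b') := by rw [hβ, hβ, e]
    exact (h.T_inj _ _ _ _ (α.injective this)).2
  have β_zero : β 0 = 0 := by
    have := β_add 0 0
    rw [add_zero] at this
    exact left_eq_add.1 this
  have key : ∀ k : F, k ≠ 0 → ∃ k' : F, ∀ d, β (k * d) = k' * β d := by
    intro k hk
    obtain ⟨s, hs⟩ := h.κ_surj hk
    obtain ⟨s', hs'⟩ := h.adm_H hα s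
    refine ⟨θ (s' : F) * (s' : F) ^ 2, fun d => ?_⟩
    have := congrArg α (h.HT s 0 d)
    rw [map_mul, map_mul, hs', hβ, mul_zero, hβ, h.HT, mul_zero, hs] at this
    exact ((h.T_inj _ _ _ _ (mul_right_cancel this)).2).symm
  have hc0 : β 1 ≠ 0 := fun e => one_ne_zero (β_inj (e.trans β_zero.symm))
  have hmul : ∀ k d, β (k * d) = β k / β 1 * β d := by
    intro k d
    by_cases hk : k = 0
    · rw [hk, zero_mul, β_zero, zero_div, zero_mul]
    · obtain ⟨k', hk'⟩ := key k hk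
      have h1 := hk' 1
      rw [mul_one] at h1
      rw [hk' d, h1, mul_div_cancel_right₀ _ hc0]
  let σ₀ : F →+* F :=
    { toFun := fun k => β k / β 1
      map_one' := div_self hc0
      map_mul' := fun k d => by rw [hmul k d, mul_div_assoc]
      map_zero' := by rw [β_zero, zero_div]
      map_add' := fun k d => by rw [β_add, add_div] }
  have hbij : Function.Bijective σ₀ :=
    ⟨σ₀.injective, Finite.injective_iff_surjective.1 σ₀.injective⟩
  refine ⟨β 1, RingEquiv.ofBijective σ₀ hbij, hc0, fun b => ?_⟩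
  rw [hβ]
  congr 1
  show β b = β 1 * (β b / β 1)
  field_simp

/-- there is a unit `s` with `θ s ≠ 1` -/
theorem exists_unit : ∃ s : Fˣ, θ (s : F) ≠ 1 := by
  obtain ⟨t, ht⟩ := h.θne
  obtain ⟨s₀, hs₀⟩ := h.θ_surj t
  have ht0 : t ≠ 0 := by
    rintro rfl
    rw [map_zero, add_zero] at ht
    exact ht rfl
  have hs0 : s₀ ≠ 0 := by
    rintro rfl
    rw [map_zero] at hs₀
    exact ht0 hs₀.symm
  refine ⟨Units.mk0 s₀ hs0, ?_⟩
  rw [Units.val_mk0, hs₀]
  rintro rfl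
  rw [map_one] at ht
  exact ht (CharTwo.add_self_eq_zero 1)

/-- an admissible automorphism fixing `T 0 b` fixes the torus -/
theorem adm_fix_H {α : MulAut G} (hα : h.Adm α) (h0 : ∀ b, α (T 0 b) = T 0 b) (s : Fˣ) :
    α (H s) = H s := by
  obtain ⟨s', hs'⟩ := h.adm_H hα s
  have := congrArg α (h.HT s 0 1)
  rw [map_mul, map_mul, hs', h0, mul_zero, h0, h.HT, mul_zero] at this
  have e := (h.T_inj _ _ _ _ (mul_right_cancel this)).2
  have hs0 : (s : F) ≠ 0 := s.ne_zero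
  have hθs0 : θ (s : F) ≠ 0 := fun e => hs0 ((map_eq_zero θ).1 e)
  have e2 : θ ((s' : F) / (s : F)) * ((s' : F) / (s : F)) ^ 2 = 1 := by
    rw [map_div₀]
    field_simp
    linear_combination e
  have e3 := h.κ_eq_one e2
  have e4 : s' = s := by
    apply Units.ext
    field_simp at e3
    exact e3
  rw [hs', e4]

/-- an admissible automorphism fixing `T 0 b` fixes `Q` -/
theorem adm_fix_T {α : MulAut G} (hα : h.Adm α) (h0 : ∀ b, α (T 0 b) = T 0 b) (a b : F) :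
    α (T a b) = T a b := by
  have hH := h.adm_fix_H hα h0
  have hQ : ∀ a, ∃ a' b', α (T a 0) = T a' b' := fun a => (hα.1 _).2 (h.T_mem a 0)
  choose γ δ hγδ using hQ
  have hT : ∀ a b, α (T a b) = T (γ a) (δ a + b) := by
    intro a b
    rw [h.T_split a b, map_mul, hγδ, h0, h.T_mul]
    simp
  have h00 : γ 0 = 0 ∧ δ 0 = 0 := by
    have := hγδ 0
    rw [h.T_zero, map_one, ← h.T_zero] at this
    obtain ⟨e1, e2⟩ := h.T_inj _ _ _ _ this
    exact ⟨e1.symm, e2.symm⟩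
  have hadd : ∀ a a', γ (a + a') = γ a + γ a' ∧
      δ (a + a') + θ a * a' = δ a + δ a' + θ (γ a) * γ a' := by
    intro a a'
    have := congrArg α (h.T_mul a 0 a' 0)
    rw [map_mul, hγδ, hγδ, hT, h.T_mul] at this
    obtain ⟨e1, e2⟩ := h.T_inj _ _ _ _ this
    exact ⟨e1.symm, by linear_combination -e2⟩
  have hHeq : ∀ (s : Fˣ) a, γ (θ s * a) = θ s * γ a ∧ δ (θ s * a) = θ s * (s : F) ^ 2 * δ a := by
    intro s a
    have := congrArg α (h.HT s a 0)
    rw [map_mul, map_mul, hH, hγδ, h.HT, mul_zero, hγδ] at this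
    obtain ⟨e1, e2⟩ := h.T_inj _ _ _ _ (mul_right_cancel this)
    exact ⟨e1.symm, e2.symm⟩
  have hunit : ∀ t : F, t ≠ 0 → ∃ s : Fˣ, θ (s : F) = t := by
    intro t ht
    obtain ⟨s₀, hs₀⟩ := h.θ_surj t
    have hs0 : s₀ ≠ 0 := by
      rintro rfl
      rw [map_zero] at hs₀
      exact ht hs₀.symm
    exact ⟨Units.mk0 s₀ hs0, hs₀⟩
  have hγ1 : ∀ a, γ a = a * γ 1 := by
    intro a
    by_cases ha : a = 0
    · rw [ha, h00.1, zero_mul]
    · obtain ⟨s, hs⟩ := hunit a ha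
      have := (hHeq s 1).1
      rw [hs, mul_one] at this
      exact this
  have hd : γ 1 = 1 := by
    have := (hadd 1 1).2
    rw [CharTwo.add_self_eq_zero, h00.2, map_one, CharTwo.add_self_eq_zero (δ 1)] at this
    apply h.mul_θ_eq_one
    linear_combination -this
  have hγ : ∀ a, γ a = a := fun a => by rw [hγ1, hd, mul_one]
  have δ_add : ∀ a a', δ (a + a') = δ a + δ a' := by
    intro a a'
    have := (hadd a a').2
    rw [hγ, hγ] at this
    linear_combination this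
  have hδ1 : ∀ t : F, δ t = t * θ t * δ 1 := by
    intro t
    by_cases ht : t = 0
    · rw [ht, h00.2, zero_mul, zero_mul]
    · obtain ⟨s, hs⟩ := hunit t ht
      have := (hHeq s 1).2
      rw [hs, mul_one] at this
      rw [this, ← h.θθ (s : F), hs]
  have he : δ 1 = 0 := by
    obtain ⟨t, ht⟩ := h.θne
    have h1 := δ_add t 1
    have h2 := hδ1 (t + 1)
    have h3 := hδ1 t
    rw [map_add, map_one] at h2
    have : (θ t + t) * δ 1 = 0 := by linear_combination h1 - h2 + h3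
    rcases mul_eq_zero.1 this with h4 | h4
    · exact absurd h4 ht
    · exact h4
  have hδ : ∀ a, δ a = 0 := fun a => by rw [hδ1, he, mul_zero]
  rw [hT, hγ, hδ, zero_add]

/-- an admissible automorphism fixing `T 0 b` fixes `w` -/
theorem adm_fix_w {α : MulAut G} (hα : h.Adm α) (h0 : ∀ b, α (T 0 b) = T 0 b) : α w = w := by
  have hH := h.adm_fix_H hα h0
  have hT := h.adm_fix_T hα h0
  have hww : w * w = 1 := h.w_sq
  have hx : w * α w ∈ h.Bs := by
    apply h.mem_Bs_of_conj (h.T_mem 1 0) h.T10_ne_one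
    have e : w * α w * T 1 0 * (w * α w)⁻¹ = w * α (w * T 1 0 * w⁻¹) * w⁻¹ := by
      rw [map_mul, map_mul, map_inv, hT]
      group
    rw [e, hα.2]
    have e2 : w * (w * T 1 0 * w⁻¹) * w⁻¹ = (w * w) * T 1 0 * (w * w)⁻¹ := by group
    rw [e2, hww, one_mul, inv_one, mul_one]
    exact h.T_mem 1 0
  obtain ⟨a, b, s₀, hx⟩ := hx
  have hαw : α w = w * (T a b * H s₀) := by
    rw [← hx, ← mul_assoc, hww, one_mul]
  obtain ⟨s₁, hs₁⟩ := h.exists_unit
  have hcomm : T a b * H s₁ = H s₁ * T a b := by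
    have e := congrArg α (h.wH' s₁)
    rw [map_mul, map_mul, map_inv, hH, hH, hαw] at e
    have e' : w * (T a b * H s₀) * H s₁ * (w * (T a b * H s₀))⁻¹ = w * H s₁ * w⁻¹ := by
      rw [e, h.wH']
    have e2 : (T a b * H s₀) * H s₁ * (T a b * H s₀)⁻¹ = H s₁ := by
      have : (T a b * H s₀) * H s₁ * (T a b * H s₀)⁻¹
          = w⁻¹ * (w * (T a b * H s₀) * H s₁ * (w * (T a b * H s₀))⁻¹) * w := by group
      rw [this, e']
      group
    have e3 : H s₀ * H s₁ * (H s₀)⁻¹ = H s₁ := by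
      rw [← h.H_mul, h.H_inv, ← h.H_mul, mul_comm s₀ s₁, mul_assoc, mul_inv_cancel, mul_one]
    have e4 : T a b * H s₁ * (T a b)⁻¹ = H s₁ := by
      have : T a b * H s₁ * (T a b)⁻¹ = T a b * (H s₀ * H s₁ * (H s₀)⁻¹) * (T a b)⁻¹ := by
        rw [e3]
      rw [this]
      have : T a b * (H s₀ * H s₁ * (H s₀)⁻¹) * (T a b)⁻¹
          = (T a b * H s₀) * H s₁ * (T a b * H s₀)⁻¹ := by group
      rw [this, e2]
    calc T a b * H s₁ = T a b * H s₁ * (T a b)⁻¹ * T a b := by group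
      _ = H s₁ * T a b := by rw [e4]
  rw [h.HT] at hcomm
  obtain ⟨ea, eb⟩ := h.T_inj _ _ _ _ (mul_right_cancel hcomm)
  have ha : a = 0 := by
    have : (θ (s₁ : F) - 1) * a = 0 := by linear_combination -ea
    rcases mul_eq_zero.1 this with h1 | h1
    · exact absurd (sub_eq_zero.1 h1) hs₁
    · exact h1
  have hb : b = 0 := by
    have hk : θ (s₁ : F) * (s₁ : F) ^ 2 ≠ 1 := by
      intro e
      have := h.κ_eq_one e
      apply hs₁
      rw [this, map_one]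
    have : (θ (s₁ : F) * (s₁ : F) ^ 2 - 1) * b = 0 := by linear_combination -eb
    rcases mul_eq_zero.1 this with h1 | h1
    · exact absurd (sub_eq_zero.1 h1) hk
    · exact h1
  rw [ha, hb, h.T_zero, one_mul] at hαw
  have hg : ∃ a b c d s, w * T 1 0 * w⁻¹ = T a b * w * (T c d * H s) := by
    rcases h.cases (w * T 1 0 * w⁻¹) with ⟨a, b, s, e⟩ | hc
    · exfalso
      exact h.T10_ne_one (h.eq_one_of_wuw' (h.T_mem 1 0) ⟨a, b, s, e⟩)
    · exact hc
  obtain ⟨a', b', c, d, s, hg⟩ := hg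
  have e1 := congrArg α hg
  rw [map_mul, map_mul, map_inv, map_mul, map_mul, map_mul, hT, hT, hT, hH, hαw] at e1
  have e2 : w * H s₀ * T 1 0 * (w * H s₀)⁻¹ = w * T (θ (s₀ : F)) 0 * w⁻¹ := by
    have : w * H s₀ * T 1 0 * (w * H s₀)⁻¹ = w * (H s₀ * T 1 0 * (H s₀)⁻¹) * w⁻¹ := by group
    rw [this, h.H_conj_T, mul_one, mul_zero]
  rw [e2] at e1
  have e3 : w * ((T 1 0)⁻¹ * T (θ (s₀ : F)) 0) * w⁻¹
      = (T c d * H s)⁻¹ * H s₀ * (T c d * H s) := by
    have : w * ((T 1 0)⁻¹ * T (θ (s₀ : F)) 0) * w⁻¹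
        = (w * T 1 0 * w⁻¹)⁻¹ * (w * T (θ (s₀ : F)) 0 * w⁻¹) := by group
    rw [this, hg, e1]
    group
  have e4 : (T 1 0)⁻¹ * T (θ (s₀ : F)) 0 = 1 := by
    apply h.eq_one_of_wuw' (h.Qs.mul_mem (h.Qs.inv_mem (h.T_mem 1 0)) (h.T_mem _ _))
    rw [e3]
    exact h.Bs.mul_mem (h.Bs.mul_mem (h.Bs.inv_mem ⟨c, d, s, rfl⟩) (h.H_mem s₀)) ⟨c, d, s, rfl⟩
  have e5 : T (θ (s₀ : F)) 0 = T 1 0 := (inv_mul_eq_one.1 e4).symm
  have e6 := (h.T_inj _ _ _ _ e5).1
  have e7 : s₀ = 1 := by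
    apply Units.ext
    apply h.θ_inj
    rw [e6, Units.val_one, map_one]
  rw [hαw, e7, h.H_one, mul_one]

/-- rigidity: an admissible automorphism fixing the centre of `Q` pointwise is trivial -/
theorem adm_rigid {α : MulAut G} (hα : h.Adm α) (h0 : ∀ b, α (T 0 b) = T 0 b) : α = 1 := by
  have hH := h.adm_fix_H hα h0
  have hT := h.adm_fix_T hα h0
  have hw := h.adm_fix_w hα h0
  ext g
  rw [MulAut.one_apply]
  rcases h.cases g with ⟨a, b, s, rfl⟩ | ⟨a, b, c, d, s, rfl⟩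
  · rw [map_mul, hT, hH]
  · rw [map_mul, map_mul, map_mul, hT, hT, hH, hw]

omit h in
theorem inv_apply_eq {α : MulAut G} {x y : G} : α⁻¹ x = y ↔ x = α y := by
  constructor
  · intro e
    rw [← e, MulAut.apply_inv_self]
  · intro e
    rw [e, MulAut.inv_apply_self]

omit h in
theorem mem_smul_sylow (α : MulAut G) (P : Sylow 2 G) (x : G) :
    x ∈ (α • P : Sylow 2 G) ↔ α⁻¹ x ∈ P := by
  show x ∈ α • (P : Subgroup G) ↔ _
  rw [Subgroup.mem_pointwise_smul_iff_inv_smul_mem]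
  rfl

/-- every automorphism is admissible up to an inner automorphism -/
theorem exists_adm (α : MulAut G) : ∃ g : G, h.Adm ((MulAut.conj g)⁻¹ * α) := by
  obtain ⟨P, hP⟩ := h.syl
  have hPQ : ∀ g, g ∈ P ↔ g ∈ h.Qs := hP
  obtain ⟨g₁, hg₁⟩ := MulAction.exists_smul_eq G P (α • P)
  have E1 : ∀ y, g₁⁻¹ * α y * g₁ ∈ h.Qs ↔ y ∈ h.Qs := by
    intro y
    have h1 : α y ∈ (g₁ • P : Sylow 2 G) ↔ α y ∈ (α • P : Sylow 2 G) := by rw [hg₁]
    rw [Sylow.smul_def, mem_smul_sylow, mem_smul_sylow, MulAut.conj_inv_apply,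
      MulAut.inv_apply_self, hPQ, hPQ] at h1
    exact h1
  have hα₁y : ∀ y, ((MulAut.conj g₁)⁻¹ * α) y = g₁⁻¹ * α y * g₁ := fun y => rfl
  obtain ⟨g₂, hg₂⟩ := MulAction.exists_smul_eq G P (((MulAut.conj g₁)⁻¹ * α) • (w • P))
  have E2 : ∀ y, g₂⁻¹ * (g₁⁻¹ * α y * g₁) * g₂ ∈ h.Qs ↔ w⁻¹ * y * w ∈ h.Qs := by
    intro y
    have h1 : ((MulAut.conj g₁)⁻¹ * α) y ∈ (g₂ • P : Sylow 2 G) ↔
        ((MulAut.conj g₁)⁻¹ * α) y ∈ ((((MulAut.conj g₁)⁻¹ * α) • (w • P) : Sylow 2 G)) := by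
      rw [hg₂]
    rw [Sylow.smul_def, mem_smul_sylow, mem_smul_sylow, MulAut.conj_inv_apply,
      MulAut.inv_apply_self, Sylow.smul_def, mem_smul_sylow, MulAut.conj_inv_apply, hPQ, hPQ,
      hα₁y] at h1
    exact h1
  rcases h.cases g₂ with ⟨a, b, s, hg⟩ | ⟨a, b, c, d, s, hg⟩
  · exfalso
    have hB : g₂ ∈ h.Bs := ⟨a, b, s, hg⟩
    have h3 : ∀ y, y ∈ h.Qs ↔ w⁻¹ * y * w ∈ h.Qs := by
      intro y
      rw [← E2 y, ← E1 y]
      have := h.conj_mem_Qs_iff (h.Bs.inv_mem hB) (u := g₁⁻¹ * α y * g₁)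
      rw [inv_inv] at this
      exact this.symm
    have h4 := (h3 (w * T 1 0 * w⁻¹)).2 (by
      have : w⁻¹ * (w * T 1 0 * w⁻¹) * w = T 1 0 := by group
      rw [this]
      exact h.T_mem 1 0)
    exact h.T10_ne_one (h.eq_one_of_wuw' (h.T_mem 1 0) (h.Qs_le_Bs h4))
  · refine ⟨g₁ * T a b, ?_⟩
    have hα₂ : ∀ y, ((MulAut.conj (g₁ * T a b))⁻¹ * α) y
        = (T a b)⁻¹ * (g₁⁻¹ * α y * g₁) * T a b := by
      intro y
      rw [MulAut.mul_apply, MulAut.conj_inv_apply]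
      group
    have hTB : (T a b)⁻¹ ∈ h.Bs := h.Bs.inv_mem (h.Qs_le_Bs (h.T_mem a b))
    constructor
    · intro y
      rw [hα₂]
      have := h.conj_mem_Qs_iff hTB (u := g₁⁻¹ * α y * g₁)
      rw [inv_inv] at this
      rw [this, E1]
    · intro y
      rw [hα₂]
      have e2 := E2 y
      rw [hg] at e2
      have e3 : (T a b * w * (T c d * H s))⁻¹ * (g₁⁻¹ * α y * g₁) * (T a b * w * (T c d * H s))
          = (T c d * H s)⁻¹ * (w⁻¹ * ((T a b)⁻¹ * (g₁⁻¹ * α y * g₁) * T a b) * w)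
            * (T c d * H s)⁻¹⁻¹ := by group
      rw [e3, h.conj_mem_Qs_iff (h.Bs.inv_mem ⟨c, d, s, rfl⟩)] at e2
      have hwi := h.w_inv
      have hc : ∀ z : G, w⁻¹ * z * w = w * z * w⁻¹ := fun z => by rw [hwi]
      rw [hc, hc] at e2
      exact e2

/-- the outer automorphism group is in bijection with the automorphisms of the field -/
theorem card_out :
    Nat.card (MulAut G ⧸ (MulAut.conj : G →* MulAut G).range) = Nat.card (F ≃+* F) := by
  choose φ hφT hφw using h.field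
  have hφadm : ∀ σ, h.Adm (φ σ) := by
    intro σ
    have h1 : ∀ g, φ σ g ∈ h.Qs ↔ g ∈ h.Qs := by
      intro g
      constructor
      · rintro ⟨a, b, e⟩
        have : φ σ g = φ σ (T (σ.symm a) (σ.symm b)) := by
          rw [hφT, e, RingEquiv.apply_symm_apply, RingEquiv.apply_symm_apply]
        rw [(φ σ).injective this]
        exact h.T_mem _ _
      · rintro ⟨a, b, rfl⟩
        rw [hφT]
        exact h.T_mem _ _
    refine ⟨h1, fun g => ?_⟩
    have : w * φ σ g * w⁻¹ = φ σ (w * g * w⁻¹) := by rw [map_mul, map_mul, map_inv, hφw]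
    rw [this, h1]
  have hφinv : ∀ (σ : F ≃+* F) (b : F), (φ σ)⁻¹ (T 0 b) = T 0 (σ.symm b) := by
    intro σ b
    rw [inv_apply_eq, hφT, map_zero, RingEquiv.apply_symm_apply]
  let Ψ : (F ≃+* F) → MulAut G ⧸ (MulAut.conj : G →* MulAut G).range :=
    fun σ => QuotientGroup.mk (φ σ)
  have hinj : Function.Injective Ψ := by
    intro σ τ e
    have e1 : (φ σ)⁻¹ * φ τ ∈ (MulAut.conj : G →* MulAut G).range := QuotientGroup.eq.1 e
    obtain ⟨g, hg⟩ := e1
    have hadm : h.Adm (MulAut.conj g) := by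
      rw [hg]
      exact h.adm_mul (h.adm_inv (hφadm σ)) (hφadm τ)
    have hgB : g ∈ h.Bs := by
      apply h.mem_Bs_of_conj (h.T_mem 1 0) h.T10_ne_one
      have := (hadm.1 (T 1 0)).2 (h.T_mem 1 0)
      rwa [MulAut.conj_apply] at this
    have hgB' : w * g * w⁻¹ ∈ h.Bs := by
      apply h.mem_Bs_of_conj (h.T_mem 1 0) h.T10_ne_one
      have := (hadm.2 (w⁻¹ * T 1 0 * w)).2 (by
        have : w * (w⁻¹ * T 1 0 * w) * w⁻¹ = T 1 0 := by group
        rw [this]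
        exact h.T_mem 1 0)
      rw [MulAut.conj_apply] at this
      have e : w * g * w⁻¹ * T 1 0 * (w * g * w⁻¹)⁻¹
          = w * (g * (w⁻¹ * T 1 0 * w) * g⁻¹) * w⁻¹ := by group
      rw [e]
      exact this
    obtain ⟨s, rfl⟩ := h.exists_H_of_mem' hgB hgB'
    have e3 : ∀ b, σ.symm (τ b) = θ (s : F) * (s : F) ^ 2 * b := by
      intro b
      have e2 : ((φ σ)⁻¹ * φ τ) (T 0 b) = T 0 (σ.symm (τ b)) := by
        rw [MulAut.mul_apply, hφT, map_zero, hφinv]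
      rw [← hg, MulAut.conj_apply, h.H_conj_T, mul_zero] at e2
      exact ((h.T_inj _ _ _ _ e2).2).symm
    have e4 : θ (s : F) * (s : F) ^ 2 = 1 := by
      have := e3 1
      rw [map_one, map_one, mul_one] at this
      exact this.symm
    apply RingEquiv.ext
    intro b
    have := congrArg σ (e3 b)
    rw [e4, one_mul, RingEquiv.apply_symm_apply] at this
    exact this.symm
  have hsurj : Function.Surjective Ψ := by
    intro x
    obtain ⟨α, rfl⟩ := QuotientGroup.mk_surjective x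
    obtain ⟨g, hg⟩ := h.exists_adm α
    obtain ⟨c, σ, hc, hcσ⟩ := h.adm_semilinear hg
    have hc' : σ.symm c ≠ 0 := fun e => hc (by
      have := congrArg σ e
      rwa [RingEquiv.apply_symm_apply, map_zero] at this)
    obtain ⟨s, hs⟩ := h.κ_surj hc'
    refine ⟨σ, ?_⟩
    have hρ : (φ σ * MulAut.conj (H s))⁻¹ * ((MulAut.conj g)⁻¹ * α) = 1 := by
      apply h.adm_rigid (h.adm_mul (h.adm_inv (h.adm_mul (hφadm σ) (h.adm_conj_H s))) hg)
      intro b
      rw [MulAut.mul_apply, hcσ, inv_apply_eq, MulAut.mul_apply,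
        MulAut.conj_apply, h.H_conj_T, mul_zero, hφT, map_zero, map_mul, hs,
        RingEquiv.apply_symm_apply]
    have hα : α = MulAut.conj g * (φ σ * MulAut.conj (H s)) := by
      have := inv_mul_eq_one.1 hρ
      rw [this]
      group
    show QuotientGroup.mk (φ σ) = QuotientGroup.mk α
    rw [QuotientGroup.eq, hα]
    have e : (φ σ)⁻¹ * (MulAut.conj g * (φ σ * MulAut.conj (H s)))
        = MulAut.conj ((φ σ)⁻¹ g) * MulAut.conj (H s) := by
      ext y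
      simp only [MulAut.mul_apply, MulAut.conj_apply, map_mul, map_inv, MulAut.inv_apply_self]
    rw [e]
    exact Subgroup.mul_mem _ ⟨_, rfl⟩ ⟨_, rfl⟩
  exact (Nat.card_congr (Equiv.ofBijective Ψ ⟨hinj, hsurj⟩)).symm

end Ok

end Cfsg.Agent.Lib.Helper27.SzOut
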