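import Cfsg.Agent.Lib.Helper27.SzOut
import Cfsg.Agent.Lib.Helper27.SzBruhat
import Cfsg.Agent.S0330

/-!
# The outer automorphism group of `Sz(q)` has order `2m+1`

Instantiation of `SzOut.Ok` for the ovoid model `Cfsg.Sz F m` (elements `TS`, `HS`, `wS` of
helper8's library), the field automorphisms acting entrywise, the count of the automorphisms
of `F`, and the transfer to `Cfsg.Lie.Sz F (2 ^ (m + 1))`.
-/

set_option autoImplicit false

namespace Cfsg.Agent.Lib.Helper27.SzOutInst

open Cfsg Matrix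
open Cfsg.Agent.Lib.Helper8.Sz
open Cfsg.Agent.Lib.Helper65
open Cfsg.Agent.Lib.Helper27.SzBridge Cfsg.Agent.Lib.Helper27.SzBruhat
open Cfsg.Agent.Lib.Helper27.BruhatTwo Cfsg.Agent.Lib.Helper27.SzOut

variable {F : Type*} [Field F] [Fintype F] {m : ℕ}

/-- the Tits endomorphism as a ring homomorphism -/
def thHom (hF : Fintype.card F = 2 ^ (2 * m + 1)) : F →+* F where
  toFun := th m
  map_one' := th_one
  map_mul' := th_mul
  map_zero' := th_zero
  map_add' := th_add hF

theorem thHom_apply (hF : Fintype.card F = 2 ^ (2 * m + 1)) (x : F) : thHom hF x = th m x := rfl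

omit [Fintype F] in
theorem map_val (σ : F ≃+* F) (g : SpecialLinearGroup (Fin 4) F) (i j : Fin 4) :
    (SpecialLinearGroup.map (σ : F →+* F) g).1 i j = σ (g.1 i j) := rfl

omit [Fintype F] in
/-- the entrywise field automorphism preserves the defining property -/
theorem szProp_map (k : ℕ) (σ : F ≃+* F) (g : SpecialLinearGroup (Fin 4) F)
    (hg : SzProp k (iGL g)) : SzProp k (iGL (SpecialLinearGroup.map (σ : F →+* F) g)) := by
  have hC : ColRel g.1 := colRel_of_mem_Sp4 hg.1
  have hs : Cfsg.Lie.star4 g.1 = g.1.map (fun x => x ^ 2 ^ k) := hg.2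
  refine ⟨mem_Sp4_of_colRel _ ?_, ?_⟩
  · intro i j
    have := congrArg σ (hC i j)
    rw [formJ_apply] at this ⊢
    simp only [map_add, map_mul] at this
    rw [iGL_val]
    simp only [map_val]
    rw [this]
    split_ifs <;> simp
  · rw [iGL_val]
    ext p r
    have := congrArg σ (congrFun (congrFun hs p) r)
    rw [star4_apply, minor2] at this ⊢
    rw [Matrix.map_apply] at this ⊢
    simp only [map_val]
    simp only [map_sub, map_mul, map_pow] at this
    exact this

theorem map_mem (hF : Fintype.card F = 2 ^ (2 * m + 1)) (hm : 1 ≤ m) (σ : F ≃+* F)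
    (g : Cfsg.Sz F m) : SpecialLinearGroup.map (σ : F →+* F) g.1 ∈ Cfsg.Sz F m :=
  mem_Sz_of_szProp hF _ (szProp_map (m + 1) σ g.1 (szProp_of_mem_Sz hF hm g.1 g.2))

/-- the field automorphism as an endomorphism of the Suzuki group -/
def fieldHom (hF : Fintype.card F = 2 ^ (2 * m + 1)) (hm : 1 ≤ m) (σ : F ≃+* F) :
    ↥(Cfsg.Sz F m) →* ↥(Cfsg.Sz F m) :=
  ((SpecialLinearGroup.map (σ : F →+* F)).comp (Cfsg.Sz F m).subtype).codRestrict _
    (map_mem hF hm σ)

theorem fieldHom_val (hF : Fintype.card F = 2 ^ (2 * m + 1)) (hm : 1 ≤ m) (σ : F ≃+* F)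
    (g : Cfsg.Sz F m) (i j : Fin 4) : (fieldHom hF hm σ g).1.1 i j = σ (g.1.1 i j) := rfl

/-- the field automorphism as an automorphism of the Suzuki group -/
def fieldAut (hF : Fintype.card F = 2 ^ (2 * m + 1)) (hm : 1 ≤ m) (σ : F ≃+* F) :
    MulAut ↥(Cfsg.Sz F m) where
  toFun := fieldHom hF hm σ
  invFun := fieldHom hF hm σ.symm
  left_inv g := by
    apply Subtype.ext
    apply Subtype.ext
    ext i j
    rw [fieldHom_val, fieldHom_val, RingEquiv.symm_apply_apply]
  right_inv g := by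
    apply Subtype.ext
    apply Subtype.ext
    ext i j
    rw [fieldHom_val, fieldHom_val, RingEquiv.apply_symm_apply]
  map_mul' := map_mul _

theorem fieldAut_val (hF : Fintype.card F = 2 ^ (2 * m + 1)) (hm : 1 ≤ m) (σ : F ≃+* F)
    (g : Cfsg.Sz F m) (i j : Fin 4) : (fieldAut hF hm σ g).1.1 i j = σ (g.1.1 i j) := rfl

theorem fieldAut_TS (hF : Fintype.card F = 2 ^ (2 * m + 1)) (hm : 1 ≤ m) (σ : F ≃+* F)
    (a b : F) : fieldAut hF hm σ (TS hF a b) = TS hF (σ a) (σ b) := by
  apply Subtype.ext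
  apply Subtype.ext
  ext i j
  rw [fieldAut_val]
  show σ (Tm m a b i j) = Tm m (σ a) (σ b) i j
  fin_cases i <;> fin_cases j <;> simp [Tm, th]

theorem fieldAut_wS (hF : Fintype.card F = 2 ^ (2 * m + 1)) (hm : 1 ≤ m) (σ : F ≃+* F) :
    fieldAut hF hm σ (wS hF) = wS hF := by
  apply Subtype.ext
  apply Subtype.ext
  ext i j
  rw [fieldAut_val]
  show σ (wm F i j) = wm F i j
  fin_cases i <;> fin_cases j <;> simp [wm]

/-- the Suzuki group satisfies the hypotheses of `SzOut` -/
theorem ok (hF : Fintype.card F = 2 ^ (2 * m + 1)) (hm : 1 ≤ m) :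
    Ok (thHom hF) (TS hF) (HS hF) (wS hF) where
  θθ := th_th hF
  θne := exists_th_ne hF hm
  θsurj := exists_th_mul hF
  T_mul := TS_mul hF
  T_inj := fun a b a' b' e => Tg_inj (congrArg Subtype.val e)
  H_mul := HS_mul hF
  H_inj := by
    intro s e
    apply Hg_inj (m := m)
    rw [Hg_one]
    exact congrArg Subtype.val e
  HT := HS_mul_TS hF
  w_sq := wS_mul_wS hF
  wH := wS_mul_HS_mul_wS hF
  cases := by
    intro g
    rcases (hyp₀ hF hm).cases g with hB | ⟨u, ⟨a, b, rfl⟩, x, hx, rfl⟩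
    · left
      exact fix_inf_decomp' hF hm g ((mem_Bsub_iff g).mp hB)
    · right
      obtain ⟨c, d, s, rfl⟩ := fix_inf_decomp' hF hm x ((mem_Bsub_iff x).mp hx)
      exact ⟨a, b, c, d, s, rfl⟩
  uniq := by
    intro a b c d s e
    have hx : TS hF c d * HS hF s ∈ Bsub F m := by
      rw [mem_Bsub_iff]
      show (Tg m c d * Hg m s) • Pinf F = Pinf F
      rw [mul_smul, Hg_smul_Pinf, Tg_smul_Pinf]
    have h1 := (hyp₀ hF hm).uniq (TS hF a b) ⟨a, b, rfl⟩ _ hx e
    rw [← TS_zero hF] at h1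
    exact Tg_inj (congrArg Subtype.val h1)
  syl := by
    have hcard : Nat.card (QS hF) = 2 ^ (Nat.card (Cfsg.Sz F m)).factorization 2 := by
      rw [card_QS, Cfsg.Agent.S0330.factorization_two hm hF, ← pow_mul]
      congr 1
      ring
    exact ⟨Sylow.ofCard (QS hF) hcard, fun g => Iff.rfl⟩
  field := fun σ => ⟨fieldAut hF hm σ, fieldAut_TS hF hm σ, fieldAut_wS hF hm σ⟩

/-- the number of automorphisms of the field -/
theorem card_ringAut (hF : Fintype.card F = 2 ^ (2 * m + 1)) : Nat.card (F ≃+* F) = 2 * m + 1 := by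
  have := charP_two hF
  let _ : Algebra (ZMod 2) F := ZMod.algebra F 2
  let e : (F ≃ₐ[ZMod 2] F) ≃ (F ≃+* F) :=
    { toFun := fun f => f.toRingEquiv
      invFun := fun f => AlgEquiv.ofRingEquiv (f := f) (fun x =>
        RingHom.congr_fun (Subsingleton.elim ((f : F →+* F).comp (algebraMap (ZMod 2) F))
          (algebraMap (ZMod 2) F)) x)
      left_inv := fun f => by ext x; rfl
      right_inv := fun f => by ext x; rfl }
  rw [← Nat.card_congr e, IsGalois.card_aut_eq_finrank]
  have h1 := Module.card_eq_pow_finrank (K := ZMod 2) (V := F)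
  rw [hF, ZMod.card] at h1
  exact (Nat.pow_right_injective (le_refl 2) h1).symm

/-- isomorphic groups have outer automorphism groups of the same size -/
theorem card_out_congr {G G' : Type*} [Group G] [Group G'] (e : G ≃* G') :
    Nat.card (MulAut G ⧸ (MulAut.conj : G →* MulAut G).range)
      = Nat.card (MulAut G' ⧸ (MulAut.conj : G' →* MulAut G').range) := by
  have n1 : (MulAut.conj : G →* MulAut G).range.Normal := by
    constructor
    rintro _ ⟨g, rfl⟩ φ
    refine ⟨φ g, ?_⟩
    ext x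
    simp [MulAut.conj_apply, map_mul, map_inv]
  have n2 : (MulAut.conj : G' →* MulAut G').range.Normal := by
    constructor
    rintro _ ⟨g, rfl⟩ φ
    refine ⟨φ g, ?_⟩
    ext x
    simp [MulAut.conj_apply, map_mul, map_inv]
  have hmap : Subgroup.map (MulAut.congr e).toMonoidHom (MulAut.conj : G →* MulAut G).range
      = (MulAut.conj : G' →* MulAut G').range := by
    ext f
    constructor
    · rintro ⟨_, ⟨g, rfl⟩, rfl⟩
      refine ⟨e g, ?_⟩
      ext x
      simp [MulAut.congr]
    · rintro ⟨g', rfl⟩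
      refine ⟨_, ⟨e.symm g', rfl⟩, ?_⟩
      ext x
      simp [MulAut.congr]
  exact Nat.card_congr (QuotientGroup.congr _ _ (MulAut.congr e) hmap).toEquiv

/-- the outer automorphism group of the Suzuki group (star form) has order `2m+1` -/
theorem card_out_LieSz (hF : Fintype.card F = 2 ^ (2 * m + 1)) (hm : 1 ≤ m) :
    Nat.card (MulAut ↥(Cfsg.Lie.Sz F (2 ^ (m + 1))) ⧸
      (MulAut.conj : ↥(Cfsg.Lie.Sz F (2 ^ (m + 1))) →* MulAut ↥(Cfsg.Lie.Sz F (2 ^ (m + 1)))).range)
      = 2 * m + 1 := by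
  have := charP_two hF
  rw [← card_out_congr (szEquiv hF hm), (ok hF hm).card_out, card_ringAut hF]

end Cfsg.Agent.Lib.Helper27.SzOutInst
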