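import Mathlib
import Cfsg.Prelude.Def_TwoFusion
import Cfsg.Prelude.Def_CaseTheorems
import Cfsg.Agent.Lib.Helper27.Isolated

/-!
# Consequences of Glauberman's Z*-theorem for isolated involutions

Everything here is stated relative to the hypothesis `ZStarFor H` (the conclusion of the
Z*-theorem, statement S0215, for the group `H`).
-/

set_option autoImplicit false

namespace Cfsg.Agent.Lib.Helper27.ZStarApp

open Cfsg.Agent.Lib.Helper27
open scoped Pointwise

/-- The conclusion of Glauberman's Z*-theorem for the group `H`. -/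
def ZStarFor (H : Type*) [Group H] : Prop :=
  ∀ (P : Sylow 2 H) (u : H), orderOf u = 2 → u ∈ P →
    (∀ g : H, g * u * g⁻¹ ∈ P → g * u * g⁻¹ = u) →
    ∃ N : Subgroup H, N.Normal ∧ Odd (Nat.card N) ∧ ∀ g : H, (u * g * u⁻¹ * g⁻¹) ∈ N

variable {G : Type*} [Group G]

theorem mem_smul_sylow' {p : ℕ} (g : G) (P : Sylow p G) (x : G) :
    x ∈ (g • P : Sylow p G) ↔ g⁻¹ * x * g ∈ P := by
  rw [Sylow.smul_def]
  show x ∈ MulAut.conj g • (P : Subgroup G) ↔ _
  rw [Subgroup.mem_pointwise_smul_iff_inv_smul_mem]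
  rfl

variable [Finite G]

/-- Z* for an isolated involution. -/
theorem zstar_isolated (hZ : ZStarFor G) {z : G} (hz : Cfsg.IsIsolatedInvolution z) :
    ∃ N : Subgroup G, N.Normal ∧ Odd (Nat.card N) ∧ ∀ g : G, (z * g * z⁻¹ * g⁻¹) ∈ N := by
  have h2 : IsPGroup 2 (Subgroup.zpowers z) := by
    refine IsPGroup.of_card (n := 1) ?_
    rw [Nat.card_zpowers, hz.1, pow_one]
  obtain ⟨P, hP⟩ := h2.exists_le_sylow
  have hzP : z ∈ P := hP (Subgroup.mem_zpowers z)
  refine hZ P z hz.1 hzP ?_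
  intro g hg
  have hodd := odd_orderOf_mul_conj hz g
  have hmem : z * (g * z * g⁻¹) ∈ (P : Subgroup G) := mul_mem hzP hg
  obtain ⟨k, hk⟩ := (IsPGroup.iff_orderOf.mp P.isPGroup') ⟨_, hmem⟩
  rw [Subgroup.orderOf_mk] at hk
  rw [hk] at hodd
  have hk0 : k = 0 := by
    by_contra h
    exact absurd hodd (by rw [Nat.not_odd_iff_even]; exact (Nat.even_pow.mpr ⟨even_two, h⟩))
  rw [hk0, pow_zero, orderOf_eq_one_iff] at hk
  have hzi := inv_eq_self_of_orderOf_two hz.1
  calc g * z * g⁻¹ = z⁻¹ * (z * (g * z * g⁻¹)) := by group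
    _ = z := by rw [hk, mul_one, hzi]

/-- The soluble Z*-statement (S1188) from Z*. -/
theorem s1188_of (hZ : ZStarFor G) (z : G) (hz : Cfsg.IsIsolatedInvolution z) :
    ∀ g : G, z * g * z⁻¹ * g⁻¹ ∈ Cfsg.oddCore G := by
  obtain ⟨N, hN, hodd, hc⟩ := zstar_isolated hZ hz
  intro g
  have hle : N ≤ Cfsg.oddCore G := le_sSup ⟨hN, Nat.coprime_two_right.mpr hodd⟩
  exact hle (hc g)

/-- An isolated involution normalises a Sylow `p`-subgroup, for every prime `p` (given Z*). -/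
theorem exists_invariant_sylow (hZ : ZStarFor G) {z : G} (hz : Cfsg.IsIsolatedInvolution z)
    (p : ℕ) [Fact p.Prime] : ∃ P : Sylow p G, z • P = P := by
  obtain ⟨N, hN, hodd, hc⟩ := zstar_isolated hZ hz
  have _hN' := hN
  obtain ⟨P⟩ : Nonempty (Sylow p G) := inferInstance
  have hzz : z * z = 1 := inv_mul_self_of_orderOf_two hz.1
  -- step 1: `z • P = n • P` for some `n ∈ N`
  have key : ∃ n ∈ N, z • P = n • P := by
    obtain ⟨K, hK⟩ : ∃ K : Subgroup G, K = N ⊔ (P : Subgroup G) := ⟨_, rfl⟩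
    have hNK : N ≤ K := hK ▸ le_sup_left
    have hPK : (P : Subgroup G) ≤ K := hK ▸ le_sup_right
    have hzPK : ((z • P : Sylow p G) : Subgroup G) ≤ K := by
      intro x hx
      have hy : z⁻¹ * x * z ∈ (P : Subgroup G) := (mem_smul_sylow' z P x).mp hx
      have e : x = (z * (z⁻¹ * x * z) * z⁻¹ * (z⁻¹ * x * z)⁻¹) * (z⁻¹ * x * z) := by group
      rw [e]
      exact mul_mem (hNK (hc _)) (hPK hy)
    obtain ⟨k, hk⟩ := MulAction.exists_smul_eq K (P.subtype hPK) ((z • P).subtype hzPK)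
    have hkm : (k : G) ∈ (N : Set G) * ((P : Subgroup G) : Set G) := by
      have hkK : (k : G) ∈ ((N ⊔ (P : Subgroup G) : Subgroup G) : Set G) := hK ▸ k.2
      rwa [Subgroup.normal_mul] at hkK
    obtain ⟨n, hn, x, hx, hnx⟩ := hkm
    refine ⟨n, hn, ?_⟩
    have hle : ((z • P : Sylow p G) : Subgroup G) ≤ ((n • P : Sylow p G) : Subgroup G) := by
      intro y hy
      have hyK : y ∈ K := hzPK hy
      have h1 : (⟨y, hyK⟩ : K) ∈ ((z • P).subtype hzPK : Sylow p K) := hy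
      rw [← hk] at h1
      have h2 := (mem_smul_sylow' k (P.subtype hPK) ⟨y, hyK⟩).mp h1
      have h3 : (k : G)⁻¹ * y * (k : G) ∈ (P : Subgroup G) := h2
      rw [← hnx] at h3
      refine (mem_smul_sylow' n P y).mpr ?_
      have e : n⁻¹ * y * n = x * ((n * x)⁻¹ * y * (n * x)) * x⁻¹ := by group
      rw [e]
      exact mul_mem (mul_mem hx h3) (inv_mem hx)
    exact (Sylow.ext ((z • P).is_maximal' (n • P).isPGroup' hle)).symm
  obtain ⟨n, hn, hzn⟩ := key
  -- step 2: the `N`-orbit of `P` is `z`-invariant and has odd size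
  have hO : ∀ P' ∈ MulAction.orbit N P, z • P' ∈ MulAction.orbit N P := by
    rintro _ ⟨m, rfl⟩
    refine ⟨⟨z * m * z⁻¹ * n, N.mul_mem (hN.conj_mem _ m.2 z) hn⟩, ?_⟩
    show (z * (m : G) * z⁻¹ * n) • P = z • ((m : G) • P)
    rw [mul_smul, ← hzn, mul_smul, mul_smul, inv_smul_smul]
  have hinv : ∀ P' : Sylow p G, z • z • P' = P' := fun P' => by
    rw [smul_smul, hzz, one_smul]
  let σ : Equiv.Perm (MulAction.orbit N P) :=
    { toFun := fun a => ⟨z • a.1, hO a.1 a.2⟩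
      invFun := fun a => ⟨z • a.1, hO a.1 a.2⟩
      left_inv := fun a => Subtype.ext (hinv a.1)
      right_inv := fun a => Subtype.ext (hinv a.1) }
  letI : Fintype (MulAction.orbit N P) := Fintype.ofFinite _
  have hcard : ¬ 2 ∣ Fintype.card (MulAction.orbit N P) := by
    rw [← Nat.card_eq_fintype_card, Nat.card_coe_set_eq, ← MulAction.index_stabilizer]
    intro h2
    have h3 : 2 ∣ Nat.card N := h2.trans (Subgroup.index_dvd_card _)
    exact absurd hodd (by rw [Nat.not_odd_iff_even]; exact (even_iff_two_dvd.mpr h3))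
  have hσ : σ ^ 2 ^ 1 = 1 := by
    refine Equiv.ext fun a => Subtype.ext ?_
    rw [pow_one, pow_two]
    exact hinv a.1
  obtain ⟨a, ha⟩ := Equiv.Perm.exists_fixed_point_of_prime (p := 2) (n := 1) hcard hσ
  exact ⟨a.1, congrArg Subtype.val ha⟩

/-- S1187 from Z* for the normaliser of `Q`. -/
theorem s1187_of {p : ℕ} [Fact p.Prime] (z : G) (hz : Cfsg.IsIsolatedInvolution z)
    (Q : Subgroup G) (hQ : IsPGroup p Q)
    (hZ : ZStarFor ↥(Subgroup.normalizer (Q : Set G)))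
    (hzQ : z ∈ Subgroup.normalizer (Q : Set G))
    (hmax : ∀ R : Subgroup G, IsPGroup p R → z ∈ Subgroup.normalizer (R : Set G) → Q ≤ R → R = Q) :
    ∃ P : Sylow p G, (P : Subgroup G) = Q := by
  obtain ⟨M, hM⟩ : ∃ M : Subgroup G, M = Subgroup.normalizer (Q : Set G) := ⟨_, rfl⟩
  rw [← hM] at hZ hzQ
  have hQM : Q ≤ M := hM ▸ Subgroup.le_normalizer
  -- `z` is isolated in `M`
  have hzM : Cfsg.IsIsolatedInvolution (⟨z, hzQ⟩ : M) := by
    refine ⟨by rw [Subgroup.orderOf_mk]; exact hz.1, ?_⟩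
    intro g hc
    have h1 : z * ((g : G) * z * (g : G)⁻¹) = (g : G) * z * (g : G)⁻¹ * z :=
      congrArg Subtype.val hc.eq
    have h2 := hz.2 (g : G) h1
    exact Subtype.ext h2
  obtain ⟨PM, hPM⟩ := exists_invariant_sylow hZ hzM p
  -- `Q` is contained in `PM`
  have hnorm : (Q.subgroupOf M).Normal := by
    rw [hM]; exact Subgroup.normal_in_normalizer
  have hQPM : Q.subgroupOf M ≤ (PM : Subgroup M) := by
    obtain ⟨P0, hP0⟩ := (hQ.comap_subtype (K := M)).exists_le_sylow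
    obtain ⟨g, rfl⟩ := MulAction.exists_smul_eq M P0 PM
    intro x hx
    refine (mem_smul_sylow' g P0 x).mpr (hP0 ?_)
    have := hnorm.conj_mem x hx g⁻¹
    rwa [inv_inv] at this
  obtain ⟨R, hR⟩ : ∃ R : Subgroup G, R = (PM : Subgroup M).map M.subtype := ⟨_, rfl⟩
  have hRp : IsPGroup p R := hR ▸ PM.isPGroup'.map M.subtype
  have hmemR : ∀ x : G, x ∈ R ↔ ∃ hx : x ∈ M, (⟨x, hx⟩ : M) ∈ PM := by
    intro x
    rw [hR, Subgroup.mem_map]
    constructor
    · rintro ⟨y, hy, rfl⟩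
      exact ⟨y.2, hy⟩
    · rintro ⟨hx, hy⟩
      exact ⟨⟨x, hx⟩, hy, rfl⟩
  have hQR : Q ≤ R := by
    intro x hx
    exact (hmemR x).mpr ⟨hQM hx, hQPM (Subgroup.mem_subgroupOf.mpr hx)⟩
  have hzR : z ∈ Subgroup.normalizer (R : Set G) := by
    rw [Subgroup.mem_normalizer_iff]
    have hzi : z⁻¹ = z := inv_eq_self_of_orderOf_two hz.1
    have hfw : ∀ x : G, x ∈ R → z * x * z⁻¹ ∈ R := by
      intro x hx
      obtain ⟨hxM, hxP⟩ := (hmemR x).mp hx
      refine (hmemR _).mpr ⟨M.mul_mem (M.mul_mem hzQ hxM) (M.inv_mem hzQ), ?_⟩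
      rw [← hPM]
      refine (mem_smul_sylow' (⟨z, hzQ⟩ : M) PM _).mpr ?_
      have e : (⟨z, hzQ⟩ : M)⁻¹ * ⟨z * x * z⁻¹, M.mul_mem (M.mul_mem hzQ hxM) (M.inv_mem hzQ)⟩ *
          (⟨z, hzQ⟩ : M) = ⟨x, hxM⟩ := by
        apply Subtype.ext
        show z⁻¹ * (z * x * z⁻¹) * z = x
        group
      rw [e]
      exact hxP
    intro x
    refine ⟨hfw x, fun hx => ?_⟩
    have := hfw _ hx
    have e : z * (z * x * z⁻¹) * z⁻¹ = x := by
      rw [hzi]
      have hzz : z * z = 1 := inv_mul_self_of_orderOf_two hz.1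
      calc z * (z * x * z) * z = (z * z) * x * (z * z) := by group
        _ = x := by rw [hzz, one_mul, mul_one]
    rwa [e] at this
  have hRQ : R = Q := hmax R hRp hzR hQR
  -- now `Q` is a Sylow subgroup of `G`
  obtain ⟨P, hP⟩ := hQ.exists_le_sylow
  refine ⟨P, ?_⟩
  by_contra hne
  have hlt : Q.subgroupOf (P : Subgroup G) < ⊤ := by
    rw [lt_top_iff_ne_top]
    intro h
    rw [Subgroup.subgroupOf_eq_top] at h
    exact hne (le_antisymm h hP)
  have _hnil : Group.IsNilpotent (P : Subgroup G) := P.isPGroup'.isNilpotent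
  have hnc := Group.normalizerCondition_of_isNilpotent (G := (P : Subgroup G)) _ hlt
  obtain ⟨x, hxN, hxQ⟩ := SetLike.exists_of_lt hnc
  have hxM : (x : G) ∈ M := by
    rw [hM, Subgroup.mem_normalizer_iff]
    rw [Subgroup.mem_normalizer_iff] at hxN
    intro h
    constructor
    · intro hh
      have := (hxN ⟨h, hP hh⟩).mp (Subgroup.mem_subgroupOf.mpr hh)
      exact Subgroup.mem_subgroupOf.mp this
    · intro hh
      have hhP : h ∈ (P : Subgroup G) := by
        have e : h = (x : G)⁻¹ * ((x : G) * h * (x : G)⁻¹) * (x : G) := by group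
        rw [e]
        exact mul_mem (mul_mem (inv_mem x.2) (hP hh)) x.2
      have := (hxN ⟨h, hhP⟩).mpr (Subgroup.mem_subgroupOf.mpr hh)
      exact Subgroup.mem_subgroupOf.mp this
  have hS : IsPGroup p ((P : Subgroup G).subgroupOf M) := P.isPGroup'.comap_subtype
  have hle : (PM : Subgroup M) ≤ (P : Subgroup G).subgroupOf M := by
    intro y hy
    rw [Subgroup.mem_subgroupOf]
    apply hP
    rw [← hRQ]
    exact (hmemR _).mpr ⟨y.2, hy⟩
  have hSeq := PM.is_maximal' hS hle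
  have hxPM : (⟨(x : G), hxM⟩ : M) ∈ (PM : Subgroup M) := by
    rw [← hSeq, Subgroup.mem_subgroupOf]
    exact x.2
  have hxR : (x : G) ∈ R := (hmemR _).mpr ⟨hxM, hxPM⟩
  rw [hRQ] at hxR
  exact hxQ (Subgroup.mem_subgroupOf.mpr hxR)

end Cfsg.Agent.Lib.Helper27.ZStarApp
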